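import Cfsg.Agent.SPOR.J4P.ChB

/-!
Coordinates on `Q / ⟨z⟩` in which `K ⊓ C(z)` acts as one of four explicit groups.
-/

set_option autoImplicit false
set_option maxRecDepth 100000
set_option linter.unusedSectionVars false
set_option linter.unusedVariables false

namespace CL.J4P

open CL.K CL.CG CL.F2M CL.F24 CL.J4 CL.LX CL.MSS Cfsg

attribute [local irreducible] gcode vcode

variable {G : Type*} [Group G]

namespace Cha

open Matrix X6

/-- some element over `A` acts on `Q / ⟨z⟩` by `c` -/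
def Lf {K : Subgroup G} (ρ : K →* GL12) {z : G} (σ : Subgroup.centralizer ({z} : Set G) →* GL12)
    (A c : ℕ) : Prop := ∃ k γ, Kv ρ k A ∧ Ov σ k γ ∧ gcode γ = c

variable [Finite G] {K L Q : Subgroup G} {κ : G → ℕ} {ρ : K →* GL12} {ζ : ℕ → G} (h : PC K L κ ρ ζ)
  (D : QD L κ ρ ζ Q) {x r : G} {m : ℕ → G} (F : Fd L Q κ ρ ζ x r m)
  {lam : G → W} {σ : Subgroup.centralizer ({ζ 4} : Set G) →* GL12} {P : W → ZMod 2}
  (p : Pre (ζ 4) Q lam σ P)
  (hb : ∀ j < 12, (1 : Matrix (Fin 12) (Fin 12) (ZMod 2)) *ᵥ vdec 12 (2 ^ j) = lam (bs ζ x r m j))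
  {X : GL12} (hX : Ov σ x X)
include h D F p hb

theorem lam_bs {j : ℕ} (hj : j < 12) : lam (bs ζ x r m j) = vdec 12 (2 ^ j) := by
  rw [← hb j hj, one_mulVec]

theorem lc_bs {j : ℕ} (hj : j < 12) : vcode (lam (bs ζ x r m j)) = 2 ^ j := by
  rw [lam_bs h D F p hb hj, vcode_vdec (Nat.pow_lt_pow_right (by norm_num) hj)]

theorem lc_aa {k : ℕ} (hk : k < 6) : vcode (lam (aa ζ r m k)) = 4 ^ k := by
  rw [← bs_even ζ x, lc_bs h D F p hb (by omega), pow_mul]; rfl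

theorem lc_two : vcode (lam (ζ 2)) = 1 := lc_aa h D F p hb (k := 0) (by norm_num)

theorem cA {y : G} (hy : y ∈ Q) : Kv ρ y (T4 (vcode (lam y) / 2 ^ 10)) :=
  spanA h D F p hb hy (vcode_lt _) (by rw [one_mulVec, vdec_vcode])

theorem cB {y : G} (hy : y ∈ Q) (e : vcode (lam y) < 1024) : y ∈ L ∧ κ y = kap (vcode (lam y)) :=
  spanB h D F p hb hy e (by rw [one_mulVec, vdec_vcode])

theorem cL {y : G} (hy : y ∈ Q) (hL : y ∈ L) : vcode (lam y) < 1024 :=
  spanL h D F p hb hy hL (vcode_lt _) (by rw [one_mulVec, vdec_vcode])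

include hX

theorem fpf {v : W} (e : X • v = v) : v = 0 := by
  obtain ⟨q, hq, rfl⟩ := p.κ_surj v
  rw [← lam_ov p D.lx hX hq] at e
  have e1 := lam_eq p D.lx (D.lx.norm _ F.xz _ hq) hq e
  have z4 := h.ζ_mem 4 (by norm_num)
  have k : ∀ A, Kv ρ q A → mm (mm jx A) (mm jx jx) = A := fun A hA => by
    have := (F.kx.mul hA).mul (kx_inv h D F)
    rcases e1 with e1 | e1 <;> rw [e1] at this
    exacts [this.unique hA, (this.unique (hA.mul (h.kv_L z4))).trans (mm_c1 hA)]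
  have qL : q ∈ L := by
    rcases D.act q hq with a | a | a | a
    · exact h.mem_L a
    all_goals exact absurd (k _ a) (by decide +kernel)
  obtain ⟨c, hc, rfl⟩ := (h.κ_zero q qL).1 (valx.1 _ ((D.inL q qL).1 hq) (by
    rw [← h.κ_kv F.kx qL]
    rcases e1 with e1 | e1 <;> rw [e1]
    exact h.κ_mul_ζ qL (by norm_num)))
  rw [h.conj_ζ F.kx hc, ← h.ζ_mul c hc 4 (by norm_num)] at e1
  refine (p.κ_zero _ hq).2 ((valx.2.1 c hc (e1.imp (h.ζ_eq (za_lt _ _) hc)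
    (h.ζ_eq (za_lt _ _) (xor8 hc (by norm_num))))).imp (fun e => ?_) fun e => by rw [e])
  rw [e, h.ζ_zero]

theorem quad (v : W) : X • X • v = v + X • v := by
  have h3 : X ^ 3 = 1 := (hX.pow 3).unique (F.x3 ▸ ov_one)
  have := fpf h D F p hb hX (v := v + X • v + X • X • v) (by
    rw [smul_add, smul_add, ← mul_smul X X (X • v), ← mul_smul (X * X), ← pow_two, ← pow_succ, h3,
      one_smul, add_comm, add_assoc])
  rw [← zero_add (X • X • v), ← W_add_self (v + X • v), add_assoc (v + X • v), this, add_zero]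

theorem smul_even {k : ℕ} (hk : k < 6) : X • vdec 12 (2 ^ (2 * k)) = vdec 12 (2 ^ (2 * k + 1)) := by
  rw [← lam_bs h D F p hb (by omega), ← lam_bs h D F p hb (by omega), bs_even, bs_odd,
    lam_ov p D.lx hX (aa_Q h D F hk)]

theorem code_X : gcode X = cZ := by
  refine (code_cols fun j hj => ?_).trans valx.2.2.2.2.2.2.2
  have l : ∀ i < 12, 2 ^ i < 2 ^ 12 := fun i h => Nat.pow_lt_pow_right (by norm_num) h
  obtain ⟨k, rfl | rfl⟩ := Nat.even_or_odd' j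
  · rw [if_pos (by omega), sm_vdec _ (l _ hj), smul_even h D F p hb hX (by omega),
      vcode_vdec (l _ (by omega)), pow_succ']
  · rw [if_neg (by omega), sm_vdec _ (l _ hj), ← smul_even h D F p hb hX (by omega),
      quad h D F p hb hX, smul_even h D F p hb hX (by omega), vcode_add, vcode_vdec (l _ hj),
      vcode_vdec (l _ (by omega)), pow_succ, Nat.mul_div_cancel _ two_pos]

theorem code_m {i : ℕ} (hi : i < 4) {γ : GL12} (hγ : Ov σ (m i) γ) : gcode γ = lget EL (2 ^ i) := by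
  have mL := F.mL i hi
  obtain ⟨a1, -, -, -, -, -, a2, a3⟩ := vali i hi
  have c : γ * X * γ⁻¹ * X⁻¹ = 1 := (ov_one_iff p D.lx ((hγ.conj hX).mul hX.inv)).2
    ((D.inL _ (commutator_mem h F.kx.mem mL)).2 (by
      rw [κ_commutator h F.kx mL, F.κm i hi, a1]; norm_num))
  rw [mul_inv_eq_one, mul_inv_eq_iff_eq_mul] at c
  refine (code_mk6 (code_X h D F p hb hX) (code_X h D F p hb hX) c fun k hk => ?_).trans a3
  rw [← lc_aa h D F p hb hk, sm_ov p D.lx hγ (aa_Q h D F hk), lc_aa h D F p hb hk, aa]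
  split_ifs with k0 k5
  · rw [← h.ζ_comm (by norm_num) mL, mul_inv_cancel_right, lc_two h D F p hb]
  · rw [← mul_inv_cancel_left r (m i * r * (m i)⁻¹), ← vv, p.κ_mul _ F.rQ _ (vv_spec h D F hi).1,
      vcode_add, ← aa_succ ζ r m hi, lc_aa h D F p hb (by omega)]
    exact congrArg (· ^^^ _) (lc_aa h D F p hb (k := 5) (by norm_num))
  · obtain ⟨j, rfl⟩ : ∃ j, k = j + 1 := ⟨k - 1, by omega⟩
    have hj : j < 4 := by omega
    obtain ⟨v1, v2, v3⟩ := vv_spec h D F hj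
    rw [Nat.add_sub_cancel, h.comm _ mL _ v2, mul_assoc (vv r m j), ← h.ζ_comm (cmC_lt _ _) mL,
      ← mul_assoc, mul_inv_cancel_right, p.κ_mul _ v1 _ (ζQ h D (cmC_lt _ _)), vcode_add, F.κm i hi,
      v3, a2 j hj, ← aa_succ ζ r m hj, lc_aa h D F p hb hk]
    have := FC_lt (2 ^ i) (2 ^ j)
    generalize FC (2 ^ i) (2 ^ j) = b at this
    interval_cases b
    · rw [h.ζ_zero, lam_one p D.lx, vcode_zero]
    · rw [lc_two h D F p hb]

theorem code_L {l : G} (hl : l ∈ L) {γ : GL12} (hγ : Ov σ l γ) :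
    gcode γ = lget EL (κ l / 2 ^ 8) := by
  obtain ⟨a, δ, ha, e, hδ, c⟩ := bits_ind' (P := fun n => ∃ a δ, a ∈ L ∧ κ a / 2 ^ 8 = n ∧ Ov σ a δ ∧
    gcode δ = lget EL n) 4 ⟨1, 1, one_mem _, by rw [h.κ_one]; rfl, ov_one,
      C12.map_one.trans valt.2.2.2.2.2.1.symm⟩ (fun n hn i hi ⟨a, δ, ha, e, hδ, c⟩ => by
    obtain ⟨μ, hμ⟩ := exists_ov (ρ := σ) (Lz h D (F.mL i hi))
    refine ⟨_, _, mul_mem ha (F.mL i hi), ?_, hδ.mul hμ, ?_⟩
    · rw [h.κ_mul _ ha _ (F.mL i hi), div_xor, e, F.κm i hi,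
        show 256 * 2 ^ i / 2 ^ 8 = 2 ^ i by omega]
    · rw [code_mul c (code_m h D F p hb hX hi hμ),
        EL_xor n hn _ (Nat.pow_lt_pow_right (by norm_num) hi : 2 ^ i < 2 ^ 4)])
    (κ l / 2 ^ 8) (by have := h.κ_lt l hl; omega)
  have := (ov_one_iff p D.lx (hδ.inv.mul hγ)).2 ((D.inL _ (mul_mem (inv_mem ha) hl)).2 (by
    have := div_xor (κ a) (κ l) 8
    rw [e, Nat.xor_self] at this
    rw [h.κ_mul _ (inv_mem ha) _ hl, h.κ_inv ha]
    omega))
  rw [← inv_mul_eq_one.1 this, c]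

theorem code_EL {l : G} (hl : l ∈ L) {γ : GL12} (hγ : Ov σ l γ) : gcode γ ∈ EL :=
  code_L h D F p hb hX hl hγ ▸ lget_mem (by have := h.κ_lt l hl; change _ < 16; omega)

theorem lf_EL {e : ℕ} (he : e ∈ EL) : Lf ρ σ c1 e := by
  obtain ⟨t, ht, rfl⟩ := (by decide +kernel : ∀ e ∈ EL, ∃ t < 16, lget EL t = e) e he
  obtain ⟨l, hl, e⟩ := h.κ_surj (256 * t) (by omega)
  obtain ⟨γ, hγ⟩ := exists_ov (ρ := σ) (Lz h D hl)
  exact ⟨l, γ, h.kv_L hl, hγ, by
    rw [code_L h D F p hb hX hl hγ, e, show 256 * t / 2 ^ 8 = t by omega]⟩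

variable (rr : r * r = 1) (rc : ∀ i < 4, r * (x * vv r m i * x⁻¹) = x * vv r m i * x⁻¹ * r)
include rr rc

theorem form (v : W) : P v = qW v := by
  have cX := code_X h D F p hb hX
  have cu : Cub fun v => P v + qW v := fun u v w => by
    have a := p.cubic u v w
    have b := cub_qW u v w
    linear_combination a + b
  have eB : ∀ u v, Bf (fun v => P v + qW v) u v = Bf P u v + Bf qW u v := fun u v => by
    simp only [Bf]; ring
  have ag : ∀ i < 12, ∀ j < 12, (bs ζ x r m i * bs ζ x r m j = bs ζ x r m j * bs ζ x r m i ↔ i + j ≠ 11) →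
      Bf (fun v => P v + qW v) (vdec 12 (2 ^ i)) (vdec 12 (2 ^ j)) = 0 := fun i hi j hj e => by
    rw [← Bf_iff p D.lx (bs_Q h D F hi) (bs_Q h D F hj), lam_bs h D F p hb hi, lam_bs h D F p hb hj,
      ← (qW_bas hi hj).2] at e
    rw [eB]
    exact (by decide : ∀ a b : ZMod 2, (a = 0 ↔ b = 0) → a + b = 0) _ _ e
  have sq : ∀ k < 6, aa ζ r m k * aa ζ r m k = 1 := fun k hk => by
    unfold aa
    split_ifs
    exacts [h.ζ_sq (by norm_num), rr, (h.sq_iff (vv_spec h D F (by omega)).2.1).2 (by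
      rw [(vv_spec h D F (by omega)).2.2, (vali _ (by omega)).2.2.2.2.2.1])]
  have r10 := cu.row (u := vdec 12 (2 ^ 10)) fun j hj => ag 10 (by norm_num) j hj (by
    change r * _ = _ * r ↔ _
    obtain rfl | rfl | rfl | rfl | ⟨i, hi, rfl | rfl⟩ : j = 0 ∨ j = 1 ∨ j = 10 ∨ j = 11 ∨
        ∃ i < 4, j = 2 * (i + 1) ∨ j = 2 * (i + 1) + 1 := by
      by_cases e : j < 2 ∨ 10 ≤ j
      · omega
      · exact .inr (.inr (.inr (.inr ⟨j / 2 - 1, by omega, by omega⟩)))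
    · exact iff_of_true ((h.kv_comm_ζ F.kr (c := 2) (by norm_num)).2 valt.2.2.2.1) (by norm_num)
    · rw [bs_one h D F, h.kv_comm_ζ F.kr (by norm_num)]
      exact iff_of_false valt.2.2.2.2.1 (by norm_num)
    · exact iff_of_true rfl (by norm_num)
    · refine iff_of_true ((Bf_iff p D.lx F.rQ (D.lx.norm _ F.xz _ F.rQ)).1 ?_) (by norm_num)
      rw [Bf, lam_ov p D.lx hX F.rQ, ← quad h D F p hb hX, P_ov p D.lx hX, P_ov p D.lx hX,
        (P_iff p D.lx F.rQ).2 rr, add_zero, add_zero]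
    · rw [bs_even]
      refine iff_of_true ?_ (by omega)
      by_contra c
      have := D.lx.mul_sq_of_not_comm F.rQ (aa_Q h D F (by omega)) c
      rw [sq _ (by omega), rr, aa_succ _ _ _ hi, vv, mul_inv_cancel_left, conj_mul, rr, mul_one,
        mul_inv_cancel, one_mul, one_mul] at this
      exact D.lx.z_ne this.symm
    · rw [bs_odd, aa_succ _ _ _ hi]
      exact iff_of_true (rc i hi) (by omega))
  have r11 : ∀ v, Bf (fun v => P v + qW v) (vdec 12 (2 ^ 11)) v = 0 := fun v => by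
    rw [← r10 (X⁻¹ • v), ← smul_even h D F p hb hX (k := 5) (by norm_num), ← smul_inv_smul X v, eB, eB,
      Bf_ov p D.lx hX, inv_smul_smul]
    simp only [Bf, ← smul_add, qW_smul cX]
  have := cu.eq_zero (fun i hi => ?_) (fun i hi => ?_) v
  · exact (by decide : ∀ a b : ZMod 2, a + b = 0 → a = b) _ _ this
  · rw [(qW_bas hi hi).1, add_zero, ← lam_bs h D F p hb hi, P_iff p D.lx (bs_Q h D F hi)]
    obtain ⟨k, rfl | rfl⟩ := Nat.even_or_odd' i
    · rw [bs_even, sq k (by omega)]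
    · rw [bs_odd, conj_mul, sq k (by omega), mul_one, mul_inv_cancel]
  · obtain rfl | rfl | e : i = 10 ∨ i = 11 ∨ i < 10 := by omega
    exacts [r10, r11, cu.row fun j hj => by
      obtain rfl | rfl | e' : j = 10 ∨ j = 11 ∨ j < 10 := by omega
      exacts [Bf_comm _ _ _ ▸ r10 _, Bf_comm _ _ _ ▸ r11 _, ag i hi j hj (by
        rw [h.comm_iff (bs_L h D F e).1 (bs_L h D F e').1, (bs_L h D F e).2, (bs_L h D F e').2,
          cm_kap i e j e'])]]

theorem qA_sm {c : G} {γ : GL12} (hγ : Ov σ c γ) {u : ℕ} (hu : u < 4096) : qA (sm γ u) = qA u := by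
  rw [sm_vdec _ hu, ← qW_val, ← form h D F p hb hX rr rc, P_ov p D.lx hγ, form h D F p hb hX rr rc,
    qW_val, vcode_vdec hu]

theorem lift {A jY cY g g' n : ℕ} (hA : Mem (gcode : GL12 → ℕ) (gen gcode LJ) A)
    (hg : genB A jY cY n = true) (ht : tst A cY g g' n = true) {y : G} {Y : GL12} (ky : Kv ρ y jY)
    (hY : Ov σ y Y) (cy : gcode Y = cY) : Lf ρ σ A g ∨ Lf ρ σ A g' := by
  obtain ⟨k, hk⟩ := h.exists_kv hA
  simp only [genB, Bool.and_eq_true, Nat.beq_eq] at hg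
  obtain ⟨⟨⟨⟨⟨g1, g2⟩, g3⟩, g4⟩, g5⟩, g6⟩ := hg
  obtain ⟨γ, hγ⟩ := exists_ov (ρ := σ) ((h.kv_comm_ζ hk (by norm_num)).2 g3)
  have e1 : γ * X = Y * γ := by
    have l1 := h.mul_inv_mem (hk.mul F.kx) ((ky.mul hk).cast g1.symm)
    rw [_root_.mul_inv_rev, ← mul_assoc] at l1
    have o1 := (hγ.conj hX).mul hY.inv
    have o2 := lall_iff.1 g6 _ (code_EL h D F p hb hX l1 o1)
    rw [← code_pow (code_mul rfl cy), inv_mul_cancel_right, conj_pow,
      (hX.pow 3).unique (F.x3 ▸ ov_one), mul_one, mul_inv_cancel, C12.map_one, Nat.beq_refl,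
      Bool.not_true, Bool.false_or, Nat.beq_eq, ← C12.map_one] at o2
    rw [← mul_inv_eq_iff_eq_mul, ← mul_inv_eq_one, C12.inj o2]
  have rQ := D.lx.norm _ hγ.comm _ F.rQ
  have e2 : vcode (lam (k * r * k⁻¹)) / 2 ^ 10 = 1 := by
    have l1 := h.mul_inv_mem (hk.mul F.kr) ((F.kr.mul hk).cast g4.symm)
    have := ((h.kv_L l1).mul F.kr).cast valt.2.1
    rw [_root_.mul_inv_rev, ← mul_assoc, inv_mul_cancel_right] at this
    have lt : vcode (lam (k * r * k⁻¹)) < 2 ^ 12 := vcode_lt _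
    exact (T4_xor _ (by omega) 1 (by norm_num)).2 ((cA h D F p hb rQ).unique this)
  have e3 : sm γ 1024 = vcode (lam (k * r * k⁻¹)) := by
    rw [← sm_ov p D.lx hγ F.rQ]
    exact congrArg _ (lc_aa h D F p hb (k := 5) (by norm_num)).symm
  have e4 : gcode γ = cand A cY (vcode (lam (k * r * k⁻¹))) := by
    refine code_mk6 (code_X h D F p hb hX) cy e1 fun j hj => ?_
    obtain rfl | rfl | ⟨i, hi, rfl⟩ : j = 0 ∨ j = 5 ∨ ∃ i < 4, j = i + 1 := by
      by_cases e : j = 0 ∨ j = 5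
      · omega
      · exact .inr (.inr ⟨j - 1, by omega, by omega⟩)
    · change sm γ 1 = 1
      nth_rewrite 1 [← lc_two h D F p hb]
      rw [sm_ov p D.lx hγ (ζQ h D (by norm_num)), h.conj_ζ hk (by norm_num), g2, lc_two h D F p hb]
    · exact e3
    · have mL := h.conj_mem _ hk.mem _ (F.mL i hi)
      obtain ⟨μ, hμ⟩ := exists_ov (ρ := σ) (Lz h D mL)
      rw [← lc_aa h D F p hb hj, sm_ov p D.lx hγ (aa_Q h D F hj), aa_succ _ _ _ hi,
        show k * vv r m i * k⁻¹ = (k * r * k⁻¹)⁻¹ * (k * m i * k⁻¹ * (k * r * k⁻¹) * (k * m i * k⁻¹)⁻¹) by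
          rw [vv]; group, p.κ_mul _ (inv_mem rQ) _ (D.lx.norm _ hμ.comm _ rQ), lam_inv p D.lx rQ,
        vcode_add, ← sm_ov p D.lx hμ rQ, sm_code (code_L h D F p hb hX mL hμ), h.κ_kv hk (F.mL i hi),
        F.κm i hi, show Nat.beq (i + 1) 0 = false from rfl,
        show Nat.beq (i + 1) 5 = false by interval_cases i <;> rfl,
        show 128 * 2 ^ (i + 1) = 256 * 2 ^ i by ring]
      rfl
  have q := fun u => qA_sm h D F p hb hX rr rc hγ (u := u)
  have q0 := q 1024 (by norm_num)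
  rw [e3] at q0
  generalize vcode (lam (k * r * k⁻¹)) = s at e2 e4 q0
  obtain ⟨t, ht', rfl⟩ : ∃ t < 1024, s = 1024 + t := ⟨s - 1024, by omega, by omega⟩
  have t1 := allN_spec ht t ht'
  simp only [force_eq, Bool.or_eq_true, Bool.not_eq_true', Nat.add_eq, ← e4, Bool.eq_false_iff] at t1
  rcases t1 with t1 | (t1 | t1) | t1
  · exact absurd (Nat.beq_eq ▸ q0.trans (by decide +kernel)) t1
  · refine absurd (lall_iff.2 fun u hu => Nat.beq_eq ▸ ?_) t1
    have : u < 4096 ∧ qA u = 0 := by revert u; decide +kernel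
    exact (q u this.1).trans this.2
  · refine absurd (lany_iff.2 ⟨_, code_EL h D F p hb hX (h.mem_L ((hk.pow n).cast g5)) (hγ.pow n), ?_⟩) t1
    rw [code_pow rfl, Nat.beq_refl]
  · obtain ⟨e, he, t1⟩ := lany_iff.1 t1
    obtain ⟨l, ε, l1, l2, l3⟩ := lf_EL h D F p hb hX he
    simp only [Bool.or_eq_true, Nat.beq_eq] at t1
    exact t1.imp (fun a => ⟨_, _, (hk.mul l1).cast (mm_c1 hk), hγ.mul l2, (code_mul rfl l3).trans a⟩)
      fun a => ⟨_, _, (hk.mul l1).cast (mm_c1 hk), hγ.mul l2, (code_mul rfl l3).trans a⟩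

omit rr rc in
theorem final {k : ℕ} (hk : k < 4) (lc : Lf ρ σ jc mc) (ld : Lf ρ σ jd md)
    (ls : Lf ρ σ js (lget [ms0, ms0, ms1, ms1] k)) (lu : Lf ρ σ ju (lget [mu0, mu1, mu0, mu1] k)) :
    MV k ≤ (K.subgroupOf _).map σ ∧ ∀ g γ, g ∈ K → Ov σ g γ → γ ∈ MV k := by
  have lx : Lf ρ σ jx cZ := ⟨x, X, F.kx, hX, code_X h D F p hb hX⟩
  have le : Lf ρ σ c1 me0 := lf_EL h D F p hb hX (by decide +kernel)
  have up : ∀ {A c}, Lf ρ σ A c → Mem (gcode : GL12 → ℕ) ((K.subgroupOf _).map σ) c :=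
    fun ⟨k, γ, a, b, c⟩ => ⟨γ, ⟨⟨k, b.1⟩, a.1, b.2⟩, c⟩
  refine ⟨C12.gen_le fun c hc => ?_, fun g γ hg hγ => ?_⟩
  · simp only [LM, List.mem_cons, List.not_mem_nil, or_false] at hc
    rcases hc with rfl | rfl | rfl | rfl | rfl | rfl
    exacts [up lc, up ld, up ls, up lu, up lx, up le]
  let H := ((((MV k).comap σ).map (Subgroup.subtype _)).subgroupOf K).map ρ
  have dn : ∀ {A c}, Lf ρ σ A c → Mem (gcode : GL12 → ℕ) (MV k) c → Mem (gcode : GL12 → ℕ) H A :=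
    fun ⟨k, γ, a, b, c⟩ d => ⟨_, ⟨⟨k, a.1⟩, ⟨⟨k, b.1⟩, by
      change σ _ ∈ MV _
      rw [b.2]; exact C12.mem_iff.1 (c ▸ d), rfl⟩, rfl⟩, a.2⟩
  obtain ⟨R, hR⟩ := exists_ov (ρ := σ) (D.lx.z_comm r F.rQ)
  have w := C12.mem_of_wordsB (H := H) (fun c hc => by
    simp only [List.mem_cons, List.not_mem_nil, or_false] at hc
    rcases hc with rfl | rfl | rfl | rfl | rfl | rfl
    exacts [dn lc (mem_LM hk _ (by simp [LM])), dn ld (mem_LM hk _ (by simp [LM])),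
      dn ls (mem_LM hk _ (by simp [LM])), dn lx (mem_LM hk _ (by simp [LM])),
      dn lu (mem_LM hk _ (by simp [LM])), dn ⟨r, R, F.kr, hR, rfl⟩
        (mem_code ((ov_one_iff p D.lx hR).2 F.rQ ▸ one_mem _))]) gen_words
  simp only [List.map_cons, List.map_nil] at w
  obtain ⟨i, hi, j, hj, kg⟩ := h.kv_tab hg
  have e := (h.kv_comm_ζ kg (c := 4) (by norm_num)).1 hγ.comm
  rw [za_tab h hi hj (by norm_num)] at e
  obtain ⟨a, ha, b, hb', e⟩ := S4_words j hj e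
  obtain ⟨_, ⟨⟨s, hs⟩, ⟨s', h1, rfl⟩, rfl⟩, h2⟩ := C12.mem_mul ((sound_TN i hi).mono (C12.gen_le (H := H)
    fun c hc => w c (by
      simp only [LN, List.mem_cons, List.not_mem_nil, or_false] at hc
      rcases hc with rfl | rfl | rfl | rfl <;> simp))) (e ▸ C12.mem_mul (w a (by
      simp only [List.mem_cons, List.not_mem_nil, or_false] at ha
      rcases ha with rfl | rfl | rfl | rfl <;> simp)) (w b (by
      simp only [List.mem_cons, List.not_mem_nil, or_false] at hb'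
      rcases hb' with rfl | rfl | rfl | rfl | rfl | rfl <;> simp)))
  have l1 := h.inv_mul_mem (⟨hs, h2⟩ : Kv ρ (s' : G) _) kg
  have l2 := C12.mem_iff.1 (mem_EL hk _ (code_EL h D F p hb hX l1 ((ov_coe s').inv.mul hγ)))
  exact (mul_mem_cancel_left (inv_mem (show σ s' ∈ MV k from h1))).1 l2

end Cha

open Cha in
theorem QD.exists_chart [Finite G] {K L Q : Subgroup G} {κ : G → ℕ} {ρ : K →* GL12} {ζ : ℕ → G}
    (h : PC K L κ ρ ζ) (D : QD L κ ρ ζ Q) (hne : ∃ g, g * ζ 4 = ζ 4 * g ∧ g ∉ K) :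
    ∃ (lam : G → W) (σ : Subgroup.centralizer ({ζ 4} : Set G) →* GL12) (P : W → ZMod 2) (k : ℕ),
      k < 4 ∧ Pre (ζ 4) Q lam σ P ∧ (∀ v, (P v).val = qA (vcode v)) ∧ MV k ≤ σ.range ∧
      (∀ g ∈ σ.range, sm g 1 < 4 → g ∈ MV k) ∧
      (∀ g ∈ σ.range, sm g 1 &&& 0xEA8 = 0 → sm g⁻¹ 1 &&& 0xEA8 = 0) ∧
      ∃ g ∈ σ.range, g ∉ MV k := by
  obtain ⟨x, r0, m, F0⟩ := exists_fd h D
  obtain ⟨lam0, σ0, P0, p0⟩ := exists_pre D.lx D.card
  obtain ⟨r, F, rr, rc⟩ := exists_r h D F0 p0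
  obtain ⟨lam, σ, P, p, hb⟩ := exists_bas h D F p0
  obtain ⟨X, hX⟩ := exists_ov (ρ := σ) F.xz
  have cX := code_X h D F p hb hX
  have mJ := mem_gen top_LJ
  have lc := lift h D F p hb hX rr rc (mJ jc (by simp [LJ])) genB_all.1 tst_all.1 F.kx hX cX
  have ld := lift h D F p hb hX rr rc (TW_vals.2.2.2.2.2.2.2.2 ▸ (sound_TN 49 (by norm_num)).mono LN_le)
    genB_all.2.1 tst_all.2.1 F.kx hX cX
  have ls := lift h D F p hb hX rr rc (mJ js (by simp [LJ])) genB_all.2.2.1 tst_all.2.2.1 F.kx hX cX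
  have lu := lift h D F p hb hX rr rc (mJ ju (by simp [LJ])) genB_all.2.2.2 tst_all.2.2.2
    (F.kx.mul F.kx) (hX.mul hX) ((code_mul cX cX).trans valx.2.2.2.2.2.2.1)
  rw [or_self] at lc ld
  obtain ⟨k, hk, f1, f2⟩ : ∃ k < 4, MV k ≤ (K.subgroupOf _).map σ ∧
      ∀ g γ, g ∈ K → Ov σ g γ → γ ∈ MV k := by
    rcases ls with ls | ls <;> rcases lu with lu | lu
    exacts [⟨0, by norm_num, final h D F p hb hX (by norm_num) lc ld ls lu⟩,
      ⟨1, by norm_num, final h D F p hb hX (by norm_num) lc ld ls lu⟩,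
      ⟨2, by norm_num, final h D F p hb hX (by norm_num) lc ld ls lu⟩,
      ⟨3, by norm_num, final h D F p hb hX (by norm_num) lc ld ls lu⟩]
  have z2 := ζQ h D (c := 2) (by norm_num)
  have s1 : ∀ {c γ}, Ov σ c γ → sm γ 1 = vcode (lam (c * ζ 2 * c⁻¹)) := fun hγ => by
    rw [← sm_ov p D.lx hγ z2, lc_two h D F p hb]
  refine ⟨lam, σ, P, k, hk, p, fun v => by rw [form h D F p hb hX rr rc, qW_val],
    f1.trans (Subgroup.map_le_range _ _), fun γ hγ e => ?_, fun γ hγ e => ?_, ?_⟩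
  · obtain ⟨c, hc⟩ := exists_ov_of_range hγ
    rw [s1 hc] at e
    obtain ⟨a, b⟩ := cB h D F p hb (D.lx.norm _ hc.comm _ z2) (by omega)
    obtain ⟨d, hd, e'⟩ := (h.κ_zero _ a).1 (b.trans (((kap_mask _ (vcode_lt _)).2 (by omega)).2 e))
    exact f2 c γ (D.n2 h hc.comm hd e') hc
  · obtain ⟨c, hc⟩ := exists_ov_of_range hγ
    rw [s1 hc, (kap_mask _ (vcode_lt _)).1] at e
    obtain ⟨a, b⟩ := cB h D F p hb (D.lx.norm _ hc.comm _ z2) e.1
    obtain ⟨a', b'⟩ := D.symm h hc.comm ⟨a, b ▸ e.2⟩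
    have q := D.lx.norm' hc.comm z2
    rw [s1 hc.inv, inv_inv, (kap_mask _ (vcode_lt _)).1]
    exact ⟨cL h D F p hb q a', (cB h D F p hb q (cL h D F p hb q a')).2 ▸ b'⟩
  · obtain ⟨g, gz, hg⟩ := hne
    obtain ⟨γ, hγ⟩ := exists_ov (ρ := σ) gz
    refine ⟨γ, hγ.range, fun e => hg ?_⟩
    obtain ⟨s, hs, rfl⟩ := f1 e
    have := (ov_one_iff p D.lx ((ov_coe s).inv.mul hγ)).1 (inv_mul_cancel _)
    exact (mul_mem_cancel_left (inv_mem (show (s : G) ∈ K from hs))).1 (cA h D F p hb this).mem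

end CL.J4P
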