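import Cfsg.Agent.SPOR.J4P.O2a

/-!
The normaliser of the four-group `⟨ζ 2, ζ 4⟩` lies in `K`.
-/

set_option autoImplicit false
set_option maxRecDepth 100000
set_option linter.unusedSectionVars false
set_option linter.unusedVariables false

namespace CL.J4P

open CL.K CL.CG CL.F2M CL.F24 CL.J4 CL.LX CL.MSS Cfsg

attribute [local irreducible] gcode vcode

variable {G : Type*} [Group G]

variable [Finite G] {K L Q : Subgroup G} {κ : G → ℕ} {ρ : K →* GL12} {ζ : ℕ → G}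

namespace X6

theorem jk_vals : F2M.unitB 12 CM 4095 jk jk = true ∧ za jk 4 = 2 ∧ za jk 2 = 4 ∧
    (∀ v < 256, ac jk v < 256 ↔ v < 16) ∧ ∀ A ∈ [jt1, jt2, jt3], ∀ B ∈ [c1, jt1, jt2, jt3],
      mm (mm jk A) jk ≠ B := by decide +kernel

theorem cm_nib : ∀ u < 4096, ∀ v < 16, cmC u v = 0 ∨ cmC u v = 2 ∨ cmC u v = 4 ∨ cmC u v = 6 := by
  intro u hu v hv
  have e1 : nib v 1 = 0 := by revert v; decide +kernel
  have e2 : nib v 2 = 0 := by revert v; decide +kernel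
  have e3 : ∀ a < 16, FC a 0 = 0 := by decide +kernel
  rw [cmC_eq, e1, e2, e3 _ (nib_lt _ _), e3 _ (nib_lt _ _), e3 _ (nib_lt _ _)]
  have a := FC_lt (nib u 2) (nib v 0)
  have b := FC_lt (nib u 1) (nib v 0)
  generalize FC (nib u 2) (nib v 0) = x at *
  generalize FC (nib u 1) (nib v 0) = y at *
  interval_cases x <;> interval_cases y <;> decide

theorem TN_fix : ∀ i < 120, (∀ v < 16, ac (TN i) v = v) → TN i = c1 := by
  have : allLt (fun i => force (TN i) fun A => !allLt (fun v => Nat.beq (ac A v) v) 16 ||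
      Nat.beq A c1) 120 = true := by decide +kernel
  intro i hi h
  have := allLt_iff.1 this i hi
  rw [force_eq, allLt_iff.2 fun v hv => by rw [h v hv]; exact Nat.beq_refl v] at this
  simpa using this

theorem exists_pair : ∀ n < 16, ∃ u < 4096, ∃ v < 4096, cmC u n = 0 ∧ cmC v n = 0 ∧ cmC u v = 1 := by
  have : allLt (fun n => anyLt (fun m => Nat.beq (cmC (16 * m) n) 0 && anyLt (fun m' =>
      Nat.beq (cmC (256 * m') n) 0 && Nat.beq (cmC (16 * m) (256 * m')) 1) 16) 16) 16 = true := by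
    decide +kernel
  intro n hn
  obtain ⟨m, hm, e⟩ := anyLt_iff.1 (allLt_iff.1 this n hn)
  rw [Bool.and_eq_true, anyLt_iff] at e
  obtain ⟨e1, m', hm', e2⟩ := e
  rw [Bool.and_eq_true] at e2
  exact ⟨16 * m, by omega, 256 * m', by omega, eq_of_beq e1, eq_of_beq e2.1, eq_of_beq e2.2⟩

theorem comm_even (h : PC K L κ ρ ζ) {g : G} (h2 : g * ζ 2 = ζ 2 * g) (h4 : g * ζ 4 = ζ 4 * g)
    {e : ℕ} (he : e = 0 ∨ e = 2 ∨ e = 4 ∨ e = 6) : g * ζ e = ζ e * g := by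
  rcases he with rfl | rfl | rfl | rfl
  · rw [h.ζ_zero, one_mul, mul_one]
  · exact h2
  · exact h4
  · rw [show 6 = 2 ^^^ 4 from rfl, h.ζ_mul 2 (by norm_num) 4 (by norm_num), ← mul_assoc, h2,
      mul_assoc, h4, mul_assoc]

theorem norm_of (h : PC K L κ ρ ζ) {g : G} (h2 : g * ζ 2 = ζ 2 * g) (h4 : g * ζ 4 = ζ 4 * g)
    {d : ℕ} (hd : d < 8) (h1 : g * ζ 1 * g⁻¹ = ζ d) : g ∈ K := (h.norm g).2 fun c hc => by
  have t : ∀ c < 8, (c = 0 ∨ c = 2 ∨ c = 4 ∨ c = 6) ∨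
      (1 ^^^ c = 0 ∨ 1 ^^^ c = 2 ∨ 1 ^^^ c = 4 ∨ 1 ^^^ c = 6) := by decide
  rcases t c hc with t | t
  · exact ⟨c, hc, by rw [comm_even h h2 h4 t, mul_inv_cancel_right]⟩
  · have hc' : 1 ^^^ c < 8 := xor8 (by norm_num) hc
    refine ⟨_, xor8 hd hc', ?_⟩
    have : ζ c = ζ 1 * ζ (1 ^^^ c) := by
      rw [← h.ζ_mul _ (by norm_num) _ hc', ← Nat.xor_assoc, Nat.xor_self, Nat.zero_xor]
    rw [h.ζ_mul _ hd _ hc', ← h1, this]
    calc _ = g * ζ 1 * g⁻¹ * (g * ζ (1 ^^^ c)) * g⁻¹ := by group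
      _ = _ := by rw [comm_even h h2 h4 t]; group

end X6

open X6

/-- the intersection of `Q` with its conjugate at `ζ 2` -/
theorem QD.mem_inf (h : PC K L κ ρ ζ) (D : QD L κ ρ ζ Q) {k : G} (hk : Kv ρ k jk) (y : G) :
    (y ∈ Q ∧ k⁻¹ * y * k ∈ Q) ↔ (y ∈ L ∧ κ y < 16) := by
  obtain ⟨u, -, -, e1, e2⟩ := jk_vals
  have hi := hk.inv u
  have hκ : ∀ y ∈ L, κ (k⁻¹ * y * k) = ac jk (κ y) := fun y hy => by
    simpa only [inv_inv] using h.κ_kv hi hy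
  constructor
  · rintro ⟨h1, h2⟩
    have key : ∀ A ∈ [jt1, jt2, jt3], ¬ Kv ρ y A := fun A hA a => by
      have b := (hi.mul a).mul hk
      rcases D.act _ h2 with e | e | e | e <;> exact e2 A hA _ (by simp) (b.unique e)
    have hL : y ∈ L := by
      rcases D.act y h1 with e | e | e | e
      · exact h.mem_L e
      all_goals exact (key _ (by simp) e).elim
    have h3 := (D.inL _ (h.conj_mem' hk.1 hL)).1 h2
    rw [hκ y hL] at h3
    exact ⟨hL, (e1 _ ((D.inL y hL).1 h1)).1 h3⟩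
  · rintro ⟨h1, h2⟩
    exact ⟨(D.inL y h1).2 (by omega), (D.inL _ (h.conj_mem' hk.1 h1)).2 (by
      rw [hκ y h1]; exact (e1 _ (by omega)).2 h2)⟩

theorem X6.conj_U (h : PC K L κ ρ ζ) (D : QD L κ ρ ζ Q) {g : G} (h2 : g * ζ 2 = ζ 2 * g)
    (h4 : g * ζ 4 = ζ 4 * g) {y : G} (hy : y ∈ L) (hκ : κ y < 16) :
    g * y * g⁻¹ ∈ L ∧ κ (g * y * g⁻¹) < 16 := by
  obtain ⟨k, hk⟩ := h.exists_TW (j := 150) (by norm_num)
  rw [TW_vals.2.2.2.1] at hk
  obtain ⟨h5, h6⟩ := (D.mem_inf h hk y).2 ⟨hy, hκ⟩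
  have e := h.conj_ζ hk (c := 4) (by norm_num)
  rw [jk_vals.2.1] at e
  have := D.lx.norm (k⁻¹ * g * k) (by
    rw [← e] at h2
    calc _ = k⁻¹ * (g * (k * ζ 4 * k⁻¹)) * k := by group
      _ = _ := by rw [h2]; group) _ h6
  refine (D.mem_inf h hk _).1 ⟨D.lx.norm g h4 y h5, ?_⟩
  convert this using 1
  group

/-- an element of `C(ζ 4)` that maps `ζ 2` into `Z` normalises `Z` -/
theorem QD.n2 (h : PC K L κ ρ ζ) (D : QD L κ ρ ζ Q) {g : G} (hg : g * ζ 4 = ζ 4 * g) {c : ℕ}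
    (hc : c < 8) (e : g * ζ 2 * g⁻¹ = ζ c) : g ∈ K := by
  have main : ∀ g : G, g * ζ 2 = ζ 2 * g → g * ζ 4 = ζ 4 * g → g ∈ K := fun g h2 h4 => by
    have i2 : g⁻¹ * ζ 2 = ζ 2 * g⁻¹ := ((show Commute g (ζ 2) from h2).inv_left).eq
    have i4 : g⁻¹ * ζ 4 = ζ 4 * g⁻¹ := ((show Commute g (ζ 4) from h4).inv_left).eq
    obtain ⟨y1, y2⟩ := conj_U h D h2 h4 (h.ζ_mem 1 (by norm_num)) (by
      rw [h.κ_ζ (by norm_num)]; norm_num)
    have key : ∀ a ∈ L, cmC (κ a) (κ (g * ζ 1 * g⁻¹)) = 0 → g⁻¹ * a * g ∈ L := fun a ha e => by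
      have e1 := (h.comm_iff ha y1).2 e
      have even : ∀ e, e = 0 ∨ e = 2 ∨ e = 4 ∨ e = 6 → g⁻¹ * a * g * ζ e = ζ e * (g⁻¹ * a * g) :=
        fun e he => by
          rw [mul_assoc, comm_even h h2 h4 he, ← mul_assoc, mul_assoc g⁻¹,
            ← h.ζ_comm (by omega) ha, ← mul_assoc, comm_even h i2 i4 he]
          group
      have f1 : g⁻¹ * a * g * ζ 1 * (g⁻¹ * a * g)⁻¹ = ζ 1 := by
        calc _ = g⁻¹ * (a * (g * ζ 1 * g⁻¹)) * a⁻¹ * g := by group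
          _ = _ := by rw [e1]; group
      obtain ⟨i, hi, hk⟩ := kv_TN h (k := g⁻¹ * a * g) fun c hc => by
        have t : ∀ c < 8, (c = 0 ∨ c = 2 ∨ c = 4 ∨ c = 6) ∨
            (1 ^^^ c = 0 ∨ 1 ^^^ c = 2 ∨ 1 ^^^ c = 4 ∨ 1 ^^^ c = 6) := by decide
        rcases t c hc with t | t
        · exact even c t
        · have : ζ c = ζ 1 * ζ (1 ^^^ c) := by
            rw [← h.ζ_mul _ (by norm_num) _ (xor8 (by norm_num) hc), ← Nat.xor_assoc, Nat.xor_self,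
              Nat.zero_xor]
          rw [this, ← mul_assoc, mul_inv_eq_iff_eq_mul.1 f1, mul_assoc, even _ t, mul_assoc (ζ 1)]
      refine h.mem_L (hk.cast (TN_fix i hi fun v hv => ?_))
      obtain ⟨u, hu, rfl⟩ := h.κ_surj v (by omega)
      obtain ⟨u1, u2⟩ := conj_U h D h2 h4 hu hv
      have t := cm_nib _ (h.κ_lt a ha) _ u2
      have e2 : g⁻¹ * a * g * u * (g⁻¹ * a * g)⁻¹ = ζ (cmC (κ a) (κ (g * u * g⁻¹))) * u := by
        calc _ = g⁻¹ * (a * (g * u * g⁻¹) * a⁻¹ * (g * u * g⁻¹)⁻¹) * g * u := by group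
          _ = _ := by rw [h.commutator ha u1, comm_even h i2 i4 t]; group
      rw [← h.κ_kv hk hu, e2, h.ζ_comm (cmC_lt _ _) hu, h.κ_mul_ζ hu (cmC_lt _ _)]
    obtain ⟨u, hu, v, hv, e1, e2, e3⟩ := exists_pair _ y2
    obtain ⟨a, ha, rfl⟩ := h.κ_surj u hu
    obtain ⟨b, hb, rfl⟩ := h.κ_surj v hv
    refine (inv_mem_iff (H := K)).1 (norm_of h i2 i4 (cmC_lt (κ (g⁻¹ * a * g)) (κ (g⁻¹ * b * g))) ?_)
    rw [← h.commutator (key a ha e1) (key b hb e2), ← e3, ← h.commutator ha hb]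
    group
  have c0 : c ≠ 0 := by
    rintro rfl
    rw [h.ζ_zero, mul_inv_eq_one, mul_eq_left] at e
    exact h.ζ_ne (by norm_num) (by norm_num) e
  have c4 : c ≠ 4 := by
    rintro rfl
    rw [mul_inv_eq_iff_eq_mul, ← hg, mul_right_inj] at e
    exact absurd (h.ζ_eq (by norm_num) (by norm_num) e) (by norm_num)
  obtain ⟨j, hj, e1, e2⟩ := trans_six c hc 2 (by norm_num) c0 c4 (by norm_num) (by norm_num)
  obtain ⟨m, hm, e3⟩ := exists_M_TW h hj e1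
  have e4 := h.conj_ζ hm hc
  rw [e2, ← e] at e4
  refine (mul_mem_cancel_left hm.1).1 (main (m * g) (mul_inv_eq_iff_eq_mul.1 ?_) ?_)
  · refine Eq.trans ?_ e4
    group
  · rw [mul_assoc, hg, ← mul_assoc, e3, mul_assoc]

/-- symmetry of the relation `g ζ 2 g⁻¹ ∈ Q ⊓ Q'` -/
theorem QD.symm (h : PC K L κ ρ ζ) (D : QD L κ ρ ζ Q) {g : G} (hg : g * ζ 4 = ζ 4 * g)
    (e : g * ζ 2 * g⁻¹ ∈ L ∧ κ (g * ζ 2 * g⁻¹) < 16) :
    g⁻¹ * ζ 2 * g ∈ L ∧ κ (g⁻¹ * ζ 2 * g) < 16 := by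
  obtain ⟨k, hk⟩ := h.exists_TW (j := 150) (by norm_num)
  rw [TW_vals.2.2.2.1] at hk
  obtain ⟨h5, h6⟩ := (D.mem_inf h hk _).2 e
  have e1 := h.conj_ζ hk (c := 4) (by norm_num)
  rw [jk_vals.2.1] at e1
  have z2 : ζ 2 ∈ Q := (D.inL _ (h.ζ_mem 2 (by norm_num))).2 (by rw [h.κ_ζ (by norm_num)]; norm_num)
  have := D.lx.symm_of_card (by rw [D.card]; norm_num) (g := k⁻¹ * g * k) (by
    convert h6 using 1
    rw [← e1]; group)
  refine (D.mem_inf h hk _).1 ⟨D.lx.norm' hg z2, ?_⟩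
  rw [mem_cj] at this
  convert this using 1
  rw [← e1]; group

end CL.J4P
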