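import Cfsg.Agent.SPOR.J4P.LDat
import Cfsg.Agent.SPOR.J4P.N2
import Cfsg.Agent.SPOR.J4.Setup

/-!
Finite checks and linear algebra for the coordinates on `Q / ⟨z⟩`.
-/

set_option autoImplicit false
set_option maxRecDepth 100000
set_option linter.unusedSectionVars false
set_option linter.unusedVariables false

namespace CL.J4P.Cha

open CL.K CL.CG CL.F2M CL.F24 CL.J4 CL.LX CL.MSS Cfsg Matrix

attribute [local irreducible] gcode vcode

/-- coordinates in `L / Z` of a vector below `1024` -/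
noncomputable def kap (u : ℕ) : ℕ := ac 0x80008040004020002010001000000 u
/-- the four-group -/
noncomputable def T4 (t : ℕ) : ℕ := lget [c1, jt1, jt2, jt3] t
/-- a matrix which intertwines `ω` and `Y` -/
noncomputable def mk6 (Y : ℕ) (f : ℕ → ℕ) : ℕ :=
  cols 12 fun j => force (f (Nat.div j 2)) fun v => bif Nat.beq (Nat.mod j 2) 0 then v else ac Y v
/-- the matrix over `A` which maps `1024` to `r` -/
noncomputable def cand (A Y r : ℕ) : ℕ := mk6 Y fun k => bif Nat.beq k 0 then 1 else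
  bif Nat.beq k 5 then r else Nat.xor r (ac (lget EL (Nat.div (ac A (128 * 2 ^ k)) 256)) r)
/-- the test of the candidates -/
noncomputable def tst (A Y g g' n : ℕ) : Bool := allN (fun t => force (Nat.add 1024 t) fun r =>
  !Nat.beq (qA r) 0 || force (cand A Y r) fun M =>
    !lall (fun u => Nat.beq (qA (ac M u)) 0) [1032, 1056, 1152, 1536] ||
      force (powC mm c1 M n) (fun N => !lany (Nat.beq N) EL) ||
        lany (fun e => force (mm M e) fun N => Nat.beq N g || Nat.beq N g') EL) 1024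
/-- conditions on a generator -/
noncomputable def genB (A X Y n : ℕ) : Bool :=
  Nat.beq (mm A jx) (mm X A) && Nat.beq (za A 2) 2 && Nat.beq (za A 4) 4 &&
    Nat.beq (mm A jt1) (mm jt1 A) && Nat.beq (powC mm c1 A n) c1 &&
      lall (fun e => !Nat.beq (powC mm c1 (mm e Y) 3) c1 || Nat.beq e c1) EL

theorem tst_all : tst jc cZ mc mc 3 = true ∧ tst jd cZ md md 5 = true ∧ tst js cZ ms0 ms1 2 = true ∧
    tst ju cZZ mu0 mu1 2 = true := by decide +kernel

theorem genB_all : genB jc jx cZ 3 = true ∧ genB jd jx cZ 5 = true ∧ genB js jx cZ 2 = true ∧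
    genB ju (mm jx jx) cZZ 2 = true := by decide +kernel

theorem bits_ind' {P : ℕ → Prop} (n : ℕ) (h0 : P 0)
    (h1 : ∀ u < 2 ^ n, ∀ i < n, P u → P (u ^^^ 2 ^ i)) : ∀ u < 2 ^ n, P u := fun u hu => by
  have := bits_ind (P := fun b => ∀ a < 2 ^ n, P a → P (a ^^^ b)) n (fun a _ h => by rwa [Nat.xor_zero])
    (fun i hi a ha => h1 a ha i hi) (fun b hb c hc h1 h2 a ha h => by
      rw [← Nat.xor_assoc]; exact h2 _ (Nat.xor_lt_two_pow ha hb) (h1 a ha h)) u hu 0 (by positivity) h0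
  rwa [Nat.zero_xor] at this

theorem kap_xor : ∀ u < 2 ^ 10, ∀ i < 10, kap (u ^^^ 2 ^ i) = kap u ^^^ kap (2 ^ i) := by
  have : allN (fun u => allLt (fun i => Nat.beq (kap (Nat.xor u (2 ^ i))) (Nat.xor (kap u) (kap (2 ^ i))))
    10) 1024 = true := by decide +kernel
  exact fun u hu i hi => eq_of_beq (allLt_iff.1 (allN_spec this u hu) i hi)

theorem kap_mask : ∀ u < 4096, (u &&& 0xEA8 = 0 ↔ u < 1024 ∧ kap u < 16) ∧
    (u < 1024 → (kap u = 0 ↔ u < 4)) := by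
  have : allN (fun u => (Nat.beq (Nat.land u 0xEA8) 0 == (blt u 1024 && blt (kap u) 16)) &&
    (!blt u 1024 || (Nat.beq (kap u) 0 == blt u 4))) 4096 = true := by decide +kernel
  intro u hu
  have := allN_spec this u hu
  simp only [Bool.and_eq_true, beq_iff_eq, Bool.or_eq_true, Bool.not_eq_true', blt] at this
  refine ⟨by rw [← Nat.beq_eq]; exact this.1 ▸ by simp, fun h => ?_⟩
  rw [← Nat.beq_eq, this.2.resolve_left (by simpa [Nat.succ_le_iff] using h)]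
  simp

theorem div_xor (a b n : ℕ) : (a ^^^ b) / 2 ^ n = a / 2 ^ n ^^^ b / 2 ^ n := by
  simp only [← Nat.shiftRight_eq_div_pow, Nat.shiftRight_xor_distrib]

theorem T4_xor : ∀ a < 4, ∀ b < 4, mm (T4 a) (T4 b) = T4 (a ^^^ b) ∧ (T4 a = T4 b → a = b) := by
  decide +kernel

theorem EL_xor : ∀ a < 16, ∀ b < 16, mm (lget EL a) (lget EL b) = lget EL (a ^^^ b) := by
  decide +kernel

theorem valx : (∀ v < 256, ac jx v = v → v = 0) ∧
    (∀ c < 8, za jx c = c ∨ za jx c = c ^^^ 4 → c = 0 ∨ c = 4) ∧ powC mm c1 jx 3 = c1 ∧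
    powC mm c1 jx 4 = jx ∧ za jx 2 = 1 ∧ mm (mm jx c1) (mm jx jx) = c1 ∧ mm cZ cZ = cZZ ∧
    (cols 12 fun j => if j % 2 = 0 then 2 * 2 ^ j else 2 ^ j / 2 ^^^ 2 ^ j) = cZ := by
  decide +kernel

theorem ac_cZ : ∀ k < 6, ac cZ (4 ^ k) = 2 * 4 ^ k := by decide +kernel

theorem valt : mm jt1 c1 = jt1 ∧ mm c1 jt1 = jt1 ∧ F2M.unitB 12 CM 4095 jt1 jt1 = true ∧
    za jt1 2 = 2 ∧ za jt1 1 ≠ 1 ∧ lget EL 0 = c1 ∧ mm jt1 jt1 = c1 := by decide +kernel

theorem vali : ∀ i < 4, 256 * 2 ^ i ^^^ ac jx (256 * 2 ^ i) = 0 ∧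
    ac jt1 (256 * 2 ^ i) ^^^ 256 * 2 ^ i = 2 ^ i ∧ ac jx (2 ^ i) = 16 * 2 ^ i ∧
    kap (2 ^ (2 * (i + 1))) = 2 ^ i ∧ kap (2 ^ (2 * (i + 1) + 1)) = 16 * 2 ^ i ∧
    sqC (2 ^ i) = 0 ∧ (∀ j < 4, cmC (256 * 2 ^ i) (2 ^ j) = 2 * FC (2 ^ i) (2 ^ j)) ∧
    mk6 cZ (fun k => if k = 0 then 1 else if k = 5 then 1024 ^^^ 4 ^ (i + 1) else
      4 ^ k ^^^ FC (2 ^ i) (2 ^ (k - 1))) = lget EL (2 ^ i) := by
  decide +kernel

theorem pick : ∀ c0 c1 c2 c3 : Bool, ∃ n < 16, ∀ i < 4, cmC (16 * n) (16 * 2 ^ i) = 0 ∧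
    ([c0, c1, c2, c3].getD i true = true ↔ za jt1 (za jx (cmC (16 * n) (256 * 2 ^ i))) =
      za jx (cmC (16 * n) (256 * 2 ^ i))) := by decide +kernel

theorem cm_kap : ∀ i < 10, ∀ j < 10, cmC (kap (2 ^ i)) (kap (2 ^ j)) = 0 ↔ i + j ≠ 11 := by
  decide +kernel

theorem S4_words : ∀ j < 168, za (TW j) 4 = 4 → ∃ a ∈ [c1, jt1, jt2, jt3],
    ∃ b ∈ [c1, jx, mm jx jx, ju, mm ju jx, mm jx ju], TW j = mm a b := by decide +kernel

theorem gen_words : wordsB mm c1 [jc, jd, js, jx, ju, jt1] [(jc, [0]), (js, [2]),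
    (jg, [1, 1, 1, 2, 1, 1]), (jf, [0, 1, 0, 1, 1, 1, 1]), (c1, []), (jt1, [5]), (jt2, [3, 5, 3, 3]),
    (jt3, [3, 3, 5, 3]), (jx, [3]), (mm jx jx, [3, 3]), (ju, [4]), (mm ju jx, [4, 3]),
    (mm jx ju, [3, 4])] = true := by decide +kernel

theorem code_cols {g : GL12} {f : ℕ → ℕ} (h : ∀ j < 12, sm g (2 ^ j) = f j) : gcode g = cols 12 f := by
  unfold gcode
  refine mcode_eq_cols fun j => ?_
  rw [← h j j.2, sm_vdec _ (Nat.pow_lt_pow_right (by norm_num) j.2 : 2 ^ (j : ℕ) < 2 ^ 12),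
    vdec_two_pow j, gl_smul]

theorem code_mk6 {g X Y : GL12} {cY : ℕ} {f : ℕ → ℕ} (hX : gcode X = cZ) (hY : gcode Y = cY)
    (e : g * X = Y * g) (h : ∀ k < 6, sm g (4 ^ k) = f k) : gcode g = mk6 cY f := by
  refine code_cols fun j hj => ?_
  have h4 : 4 ^ (j / 2) < 4096 := Nat.pow_lt_pow_right (by norm_num : 1 < 4) (by omega : j / 2 < 6)
  have h1 := h (j / 2) (by omega)
  rw [force_eq]
  change _ = bif Nat.beq (j % 2) 0 then f (j / 2) else ac cY (f (j / 2))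
  rcases Nat.mod_two_eq_zero_or_one j with e1 | e1 <;> rw [e1, ← h1]
  · rw [show 4 = 2 ^ 2 from rfl, ← pow_mul, show 2 * (j / 2) = j by omega]; rfl
  · rw [← sm_code hY, ← sm_mul _ _ h4, ← e, sm_mul _ _ h4, sm_code hX,
      ac_cZ _ (by omega), show 4 = 2 ^ 2 from rfl, ← pow_mul, ← pow_succ',
      show 2 * (j / 2) + 1 = j by omega]; rfl

/-- the polar form -/
def Bf (P : W → ZMod 2) (u v : W) : ZMod 2 := P (u + v) + P u + P v

/-- functions of degree at most two without constant term -/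
def Cub (P : W → ZMod 2) : Prop :=
  ∀ u v w, P (u + v + w) + P (u + v) + P (u + w) + P (v + w) + P u + P v + P w = 0

theorem Bf_comm (P : W → ZMod 2) (u v : W) : Bf P u v = Bf P v u := by
  rw [Bf, Bf, add_comm u]; ring

theorem Cub.zero {P : W → ZMod 2} (h : Cub P) : P 0 = 0 := by
  have := h 0 0 0
  revert this; simp only [add_zero]; generalize P 0 = a; revert a; decide

theorem Cub.add {P : W → ZMod 2} (h : Cub P) (u v w : W) : Bf P u (v + w) = Bf P u v + Bf P u w := by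
  have := h u v w
  simp only [Bf, ← add_assoc]
  revert this
  generalize P (u + v + w) = a, P (u + v) = b, P (u + w) = c, P (v + w) = d, P u = e, P v = f, P w = g
  revert a b c d e f g; decide

theorem Cub.bf_zero {P : W → ZMod 2} (h : Cub P) (u : W) : Bf P u 0 = 0 := by
  rw [Bf, add_zero, h.zero, add_zero, z2_add_self]

theorem W_ind {R : W → Prop} (h0 : R 0) (h1 : ∀ v, ∀ i < 12, R v → R (v + vdec 12 (2 ^ i))) (v : W) :
    R v := by
  have := bits_ind' (P := fun u => R (vdec 12 u)) 12 (by rwa [vdec_zero])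
    (fun u _ i hi h => by rw [vdec_xor]; exact h1 _ i hi h) _ (vcode_lt v)
  rwa [vdec_vcode] at this

theorem Cub.row {P : W → ZMod 2} (h : Cub P) {u : W} (e : ∀ j < 12, Bf P u (vdec 12 (2 ^ j)) = 0)
    (v : W) : Bf P u v = 0 :=
  W_ind (R := fun v => Bf P u v = 0) (h.bf_zero u) (fun v i hi a => by rw [h.add, a, e i hi, add_zero]) v

theorem Cub.eq_zero {P : W → ZMod 2} (h : Cub P) (e1 : ∀ i < 12, P (vdec 12 (2 ^ i)) = 0)
    (e2 : ∀ i < 12, ∀ v, Bf P (vdec 12 (2 ^ i)) v = 0) (v : W) : P v = 0 :=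
  W_ind (R := fun v => P v = 0) h.zero (fun v i hi a => by
    have := e2 i hi v
    rwa [Bf, a, e1 i hi, add_zero, add_zero, add_comm] at this) v

/-- the model form -/
def qW (v : W) : ZMod 2 := qA (vcode v)

theorem qA_lt (u : ℕ) : qA u < 2 := bit_lt _ _

theorem qW_val (v : W) : (qW v).val = qA (vcode v) := ZMod.val_cast_of_lt (qA_lt _)

theorem cub_qW : Cub qW := by
  obtain ⟨g, hg⟩ := exists_unit (a := pm0) (b := pi0) (by decide +kernel)
  have t : allN (fun v => Nat.beq (qA v) (J4.qC (ac pm0 v))) 4096 = true := by decide +kernel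
  have e : ∀ v, qW v = J4.qf (g • v) := fun v => by
    rw [qW, eq_of_beq (allN_spec t _ (vcode_lt v)), ← hg, ac_code, J4.qC_code, ZMod.natCast_zmod_val]
  intro u v w
  simp only [e, smul_add, J4.qf_add, J4.bf_add_left]
  generalize J4.qf (g • u) = a, J4.qf (g • v) = b, J4.qf (g • w) = c, J4.bf (g • u) (g • v) = d,
    J4.bf (g • u) (g • w) = f, J4.bf (g • v) (g • w) = k
  revert a b c d f k; decide

theorem qW_smul {X : GL12} (hX : gcode X = cZ) (v : W) : qW (X • v) = qW v := by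
  have t : allN (fun v => Nat.beq (qA (ac cZ v)) (qA v)) 4096 = true := by decide +kernel
  rw [qW, qW, ← ac_code, hX, eq_of_beq (allN_spec t _ (vcode_lt v))]

theorem qW_bas {i j : ℕ} (hi : i < 12) (hj : j < 12) : qW (vdec 12 (2 ^ i)) = 0 ∧
    (Bf qW (vdec 12 (2 ^ i)) (vdec 12 (2 ^ j)) = 0 ↔ i + j ≠ 11) := by
  have t : ∀ i < 12, ∀ j < 12, qA (2 ^ i) = 0 ∧
      (((qA (2 ^ i ^^^ 2 ^ j) : ℕ) : ZMod 2) = 0 ↔ i + j ≠ 11) := by decide +kernel
  have l : ∀ i < 12, 2 ^ i < 2 ^ 12 := fun i h => Nat.pow_lt_pow_right (by norm_num) h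
  have a : ∀ i < 12, qW (vdec 12 (2 ^ i)) = 0 := fun i h => by
    rw [qW, vcode_vdec (l i h), (t i h 0 (by norm_num)).1]; rfl
  refine ⟨a i hi, ?_⟩
  rw [Bf, a i hi, a j hj, add_zero, add_zero, ← vdec_xor, qW,
    vcode_vdec (Nat.xor_lt_two_pow (l i hi) (l j hj))]
  exact (t i hi j hj).2

theorem exists_mat (F : ℕ → W) : ∃ M : Matrix (Fin 12) (Fin 12) (ZMod 2),
    ∀ j < 12, M *ᵥ vdec 12 (2 ^ j) = F j :=
  ⟨Matrix.of fun r k => F k r, fun j hj => by
    rw [vdec_two_pow (⟨j, hj⟩ : Fin 12), mulVec_single_one]; rfl⟩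

end CL.J4P.Cha
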