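import Cfsg.Agent.SPOR.J4P.ChA

/-!
A basis of `Q / ⟨z⟩`.
-/

set_option autoImplicit false
set_option maxRecDepth 100000
set_option linter.unusedSectionVars false
set_option linter.unusedVariables false

namespace CL.J4P.Cha

open CL.K CL.CG CL.F2M CL.F24 CL.J4 CL.LX CL.MSS Cfsg Matrix X6

attribute [local irreducible] gcode vcode

variable {G : Type*} [Group G]

section Pre
variable {z : G} {Q : Subgroup G} {lam : G → W} {σ : Subgroup.centralizer ({z} : Set G) →* GL12}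
  {P : W → ZMod 2} (p : Pre z Q lam σ P) (hl : LX Q z) {x y c : G} {γ : GL12}
include p hl

theorem lam_one : lam 1 = 0 := (p.κ_zero 1 (one_mem _)).2 (.inl rfl)

theorem lam_inv (hx : x ∈ Q) : lam x⁻¹ = lam x := by
  have := p.κ_mul _ (inv_mem hx) _ hx
  rw [inv_mul_cancel, lam_one p hl] at this
  rw [← add_zero (lam x⁻¹), ← W_add_self (lam x), ← add_assoc, ← this, zero_add]

theorem lam_eq (hx : x ∈ Q) (hy : y ∈ Q) (e : lam x = lam y) : x = y ∨ x = y * z := by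
  have := (p.κ_zero _ (mul_mem (inv_mem hy) hx)).1 (by
    rw [p.κ_mul _ (inv_mem hy) _ hx, lam_inv p hl hy, e, W_add_self])
  exact this.imp (fun e => (inv_mul_eq_one.1 e).symm) inv_mul_eq_iff_eq_mul.1

theorem lam_ov (hc : Ov σ c γ) (hx : x ∈ Q) : lam (c * x * c⁻¹) = γ • lam x :=
  hc.2 ▸ p.κ_conj ⟨c, hc.1⟩ x hx

theorem sm_ov (hc : Ov σ c γ) (hx : x ∈ Q) : sm γ (vcode (lam x)) = vcode (lam (c * x * c⁻¹)) := by
  rw [sm_vcode, lam_ov p hl hc hx]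

theorem P_ov (hc : Ov σ c γ) (v : W) : P (γ • v) = P v := by
  obtain ⟨x, hx, rfl⟩ := p.κ_surj v
  have h1 := p.sq _ (hl.norm c hc.comm x hx)
  rw [conj_mul, p.sq x hx, zp_comm' hc.comm, mul_inv_cancel_right, lam_ov p hl hc hx] at h1
  exact (zp_inj hl.z_ne h1).symm

theorem Bf_ov (hc : Ov σ c γ) (u v : W) : Bf P (γ • u) (γ • v) = Bf P u v := by
  simp only [Bf, ← smul_add, P_ov p hl hc]

theorem P_iff (hx : x ∈ Q) : P (lam x) = 0 ↔ x * x = 1 :=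
  ⟨fun e => by rw [p.sq x hx, e, zp_zero], fun e => zp_inj hl.z_ne (by rw [← p.sq x hx, e, zp_zero])⟩

theorem Bf_iff (hx : x ∈ Q) (hy : y ∈ Q) : Bf P (lam x) (lam y) = 0 ↔ x * y = y * x := by
  have e := p.sq _ (mul_mem hx hy)
  rw [p.κ_mul x hx y hy] at e
  rw [Bf]
  by_cases c : x * y = y * x
  · rw [mul_assoc, ← mul_assoc y, ← c, mul_assoc x y, ← mul_assoc, p.sq x hx, p.sq y hy,
      ← zp_add hl.z_sq] at e
    rw [← zp_inj hl.z_ne e]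
    simp only [c, iff_true]
    generalize P (lam x) = a, P (lam y) = b
    revert a b; decide
  · rw [hl.mul_sq_of_not_comm hx hy c, p.sq x hx, p.sq y hy, ← zp_add hl.z_sq] at e
    nth_rewrite 2 [← zp_one z] at e
    rw [← zp_add hl.z_sq] at e
    rw [← zp_inj hl.z_ne e]
    simp only [c, iff_false]
    generalize P (lam x) = a, P (lam y) = b
    revert a b; decide

theorem ov_one_iff [Finite G] (hc : Ov σ c γ) : γ = 1 ↔ c ∈ Q := hc.2 ▸ p.mem_iff hl ⟨c, hc.1⟩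

end Pre

/-- commutators of `r` with `L` -/
def vv (r : G) (m : ℕ → G) (i : ℕ) : G := r⁻¹ * (m i * r * (m i)⁻¹)
/-- the basis over the field of order four -/
def aa (ζ : ℕ → G) (r : G) (m : ℕ → G) (k : ℕ) : G :=
  if k = 0 then ζ 2 else if k = 5 then r else vv r m (k - 1)
/-- the basis -/
def bs (ζ : ℕ → G) (x r : G) (m : ℕ → G) (j : ℕ) : G :=
  if j % 2 = 0 then aa ζ r m (j / 2) else x * aa ζ r m (j / 2) * x⁻¹

theorem bs_even (ζ : ℕ → G) (x r : G) (m : ℕ → G) (k : ℕ) : bs ζ x r m (2 * k) = aa ζ r m k := by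
  rw [bs, if_pos (by omega), show 2 * k / 2 = k by omega]

theorem bs_odd (ζ : ℕ → G) (x r : G) (m : ℕ → G) (k : ℕ) :
    bs ζ x r m (2 * k + 1) = x * aa ζ r m k * x⁻¹ := by
  rw [bs, if_neg (by omega), show (2 * k + 1) / 2 = k by omega]

theorem aa_succ (ζ : ℕ → G) (r : G) (m : ℕ → G) {i : ℕ} (hi : i < 4) :
    aa ζ r m (i + 1) = vv r m i := by
  rw [aa, if_neg (by omega), if_neg (by omega), Nat.add_sub_cancel]

/-- the chosen elements -/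
structure Fd {K : Subgroup G} (L Q : Subgroup G) (κ : G → ℕ) (ρ : K →* GL12) (ζ : ℕ → G) (x r : G)
    (m : ℕ → G) : Prop where
  kx : Kv ρ x jx
  xz : x * ζ 4 = ζ 4 * x
  x3 : x ^ 3 = 1
  mL : ∀ i < 4, m i ∈ L
  κm : ∀ i < 4, κ (m i) = 256 * 2 ^ i
  rQ : r ∈ Q
  kr : Kv ρ r jt1

variable {K L Q : Subgroup G} {κ : G → ℕ} {ρ : K →* GL12} {ζ : ℕ → G} (h : PC K L κ ρ ζ)
  (D : QD L κ ρ ζ Q)
include h D

theorem Lz {a : G} (ha : a ∈ L) : a * ζ 4 = ζ 4 * a := (h.ζ_comm (by norm_num) ha).symm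

theorem ζQ {c : ℕ} (hc : c < 8) : ζ c ∈ Q :=
  (D.inL _ (h.ζ_mem c hc)).2 (by rw [h.κ_ζ hc]; norm_num)

theorem exists_fd : ∃ x r m, Fd L Q κ ρ ζ x r m := by
  obtain ⟨y, hy, yz⟩ := exists_jx h
  obtain ⟨r, hr, kr⟩ := D.ex
  have : ∀ i, ∃ a, i < 4 → a ∈ L ∧ κ a = 256 * 2 ^ i := fun i => by
    by_cases hi : i < 4
    · obtain ⟨a, ha⟩ := h.κ_surj (256 * 2 ^ i) (by interval_cases i <;> norm_num)
      exact ⟨a, fun _ => ha⟩
    · exact ⟨1, fun e => absurd e hi⟩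
  choose m hm using this
  have h3 := h.mem_L ((hy.pow 3).cast valx.2.2.1)
  refine ⟨y ^ 4, r, m, (hy.pow 4).cast valx.2.2.2.1, ((show Commute y (ζ 4) from yz).pow_left 4).eq,
    ?_, fun i hi => (hm i hi).1, fun i hi => (hm i hi).2, hr, kr⟩
  rw [← pow_mul, mul_comm, pow_mul, show 4 = 2 * 2 from rfl, pow_mul, pow_two (y ^ 3), h.sq _ h3,
    pow_two, h.ζ_sq (sqC_lt _)]

variable {x r : G} {m : ℕ → G} (F : Fd L Q κ ρ ζ x r m)
include F

theorem kx_inv : Kv ρ x⁻¹ (mm jx jx) := F.kx.inv misc_vals.2.2.2.2.1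

theorem vv_spec {i : ℕ} (hi : i < 4) : vv r m i ∈ Q ∧ vv r m i ∈ L ∧ κ (vv r m i) = 2 ^ i := by
  have h1 := F.kr.inv valt.2.2.1
  have h2 := h.conj_mem _ h1.mem _ (F.mL i hi)
  have e : vv r m i = r⁻¹ * m i * r⁻¹⁻¹ * (m i)⁻¹ := by rw [vv]; group
  refine ⟨mul_mem (inv_mem F.rQ) (D.lx.norm _ (Lz h D (F.mL i hi)) _ F.rQ),
    e ▸ mul_mem h2 (inv_mem (F.mL i hi)), ?_⟩
  rw [e, h.κ_mul _ h2 _ (inv_mem (F.mL i hi)), h.κ_kv h1 (F.mL i hi), h.κ_inv (F.mL i hi), F.κm i hi,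
    (vali i hi).2.1]

theorem aa_Q {k : ℕ} (hk : k < 6) : aa ζ r m k ∈ Q := by
  unfold aa
  split_ifs
  exacts [ζQ h D (by norm_num), F.rQ, (vv_spec h D F (by omega)).1]

theorem bs_Q {j : ℕ} (hj : j < 12) : bs ζ x r m j ∈ Q := by
  unfold bs
  split_ifs
  exacts [aa_Q h D F (by omega), D.lx.norm _ F.xz _ (aa_Q h D F (by omega))]

theorem bs_one : bs ζ x r m 1 = ζ 1 := by
  have := h.conj_ζ F.kx (c := 2) (by norm_num)
  rwa [valx.2.2.2.2.1] at this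

theorem bs_L {j : ℕ} (hj : j < 10) : bs ζ x r m j ∈ L ∧ κ (bs ζ x r m j) = kap (2 ^ j) := by
  obtain rfl | rfl | ⟨i, hi, rfl | rfl⟩ : j = 0 ∨ j = 1 ∨ ∃ i < 4, j = 2 * (i + 1) ∨ j = 2 * (i + 1) + 1 := by
    by_cases e : j < 2
    · omega
    · exact .inr (.inr ⟨j / 2 - 1, by omega, by omega⟩)
  · exact ⟨h.ζ_mem 2 (by norm_num), (h.κ_ζ (by norm_num)).trans (by decide +kernel)⟩
  · rw [bs_one h D F]
    exact ⟨h.ζ_mem 1 (by norm_num), (h.κ_ζ (by norm_num)).trans (by decide +kernel)⟩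
  · rw [bs_even, aa_succ _ _ _ hi, (vali i hi).2.2.2.1]
    exact (vv_spec h D F hi).2
  · obtain ⟨-, a, b⟩ := vv_spec h D F hi
    rw [bs_odd, aa_succ _ _ _ hi, (vali i hi).2.2.2.2.1, h.κ_kv F.kx a, b, (vali i hi).2.2.1]
    exact ⟨h.conj_mem _ F.kx.mem _ a, rfl⟩

theorem bs_kv {j : ℕ} (hj : j < 12) : Kv ρ (bs ζ x r m j) (T4 (2 ^ j / 2 ^ 10)) := by
  by_cases e : j < 10
  · rw [Nat.div_eq_of_lt (Nat.pow_lt_pow_right (by norm_num) e)]
    exact h.kv_L (bs_L h D F e).1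
  · obtain rfl | rfl : j = 10 ∨ j = 11 := by omega
    exacts [F.kr, ((F.kx.mul F.kr).mul (kx_inv h D F)).cast misc_vals.2.2.2.2.2.1]

variable {lam : G → W} {σ : Subgroup.centralizer ({ζ 4} : Set G) →* GL12} {P : W → ZMod 2}
  (p : Pre (ζ 4) Q lam σ P)
include p

section Span
variable {M : Matrix (Fin 12) (Fin 12) (ZMod 2)}
  (hb : ∀ j < 12, M *ᵥ vdec 12 (2 ^ j) = lam (bs ζ x r m j))
include hb

theorem spanA {y : G} (hy : y ∈ Q) {u : ℕ} (hu : u < 4096) (e : lam y = M *ᵥ vdec 12 u) :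
    Kv ρ y (T4 (u / 2 ^ 10)) := by
  have d : ∀ u < 2 ^ 12, u / 2 ^ 10 < 4 := fun u hu => by omega
  obtain ⟨w, hw, e1, e2⟩ := bits_ind' (P := fun u => ∃ w ∈ Q, lam w = M *ᵥ vdec 12 u ∧
    Kv ρ w (T4 (u / 2 ^ 10))) 12 ⟨1, one_mem _, by rw [lam_one p D.lx, vdec_zero, mulVec_zero], kv_one⟩
    (fun u hu i hi ⟨w, hw, e1, e2⟩ => ⟨_, mul_mem hw (bs_Q h D F hi), by
      rw [p.κ_mul _ hw _ (bs_Q h D F hi), e1, ← hb i hi, vdec_xor, mulVec_add], by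
      rw [div_xor, ← (T4_xor _ (d u hu) _ (d _ (Nat.pow_lt_pow_right (by norm_num) hi))).1]
      exact e2.mul (bs_kv h D F hi)⟩) u hu
  rcases lam_eq p D.lx hy hw (e.trans e1.symm) with rfl | rfl
  exacts [e2, (e2.mul (h.kv_L (h.ζ_mem 4 (by norm_num)))).cast (mm_c1 e2)]

theorem spanB {y : G} (hy : y ∈ Q) {u : ℕ} (hu : u < 1024) (e : lam y = M *ᵥ vdec 12 u) :
    y ∈ L ∧ κ y = kap u := by
  obtain ⟨w, hw, e0, e1, e2⟩ := bits_ind' (P := fun u => ∃ w ∈ Q, w ∈ L ∧ lam w = M *ᵥ vdec 12 u ∧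
    κ w = kap u) 10 ⟨1, one_mem _, one_mem _, by rw [lam_one p D.lx, vdec_zero, mulVec_zero],
      h.κ_one.trans (by decide +kernel)⟩
    (fun u hu i hi ⟨w, hw, e0, e1, e2⟩ => ⟨_, mul_mem hw (bs_Q h D F (by omega)),
      mul_mem e0 (bs_L h D F hi).1, by
      rw [p.κ_mul _ hw _ (bs_Q h D F (by omega)), e1, ← hb i (by omega), vdec_xor, mulVec_add], by
      rw [h.κ_mul _ e0 _ (bs_L h D F hi).1, e2, (bs_L h D F hi).2, kap_xor u hu i hi]⟩) u hu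
  rcases lam_eq p D.lx hy hw (e.trans e1.symm) with rfl | rfl
  exacts [⟨e0, e2⟩, ⟨mul_mem e0 (h.ζ_mem 4 (by norm_num)), (h.κ_mul_ζ e0 (by norm_num)).trans e2⟩]

theorem spanL {y : G} (hy : y ∈ Q) (hL : y ∈ L) {u : ℕ} (hu : u < 4096)
    (e : lam y = M *ᵥ vdec 12 u) : u < 1024 := by
  have := (T4_xor _ (by omega) 0 (by norm_num)).2 ((spanA h D F p hb hy hu e).unique (h.kv_L hL))
  omega

theorem isUnit_mat : IsUnit M := by
  refine mulVec_injective_iff_isUnit.1 ((injective_iff_map_eq_zero M.mulVecLin).2 fun v hv => ?_)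
  have e : lam 1 = M *ᵥ vdec 12 (vcode v) := by rw [vdec_vcode, lam_one p D.lx]; exact hv.symm
  have h1 := spanL h D F p hb (one_mem _) (one_mem _) (vcode_lt v) e
  have h2 := ((kap_mask _ (vcode_lt v)).2 h1).1
    ((spanB h D F p hb (one_mem _) h1 e).2.symm.trans h.κ_one)
  have k : ∀ c < 8, lam (ζ c) = 0 → c = 0 ∨ c = 4 := fun c hc e =>
    ((p.κ_zero _ (ζQ h D hc)).1 e).imp (h.ζ_inj c hc) (h.ζ_eq hc (by norm_num))
  have b0 : M *ᵥ vdec 12 1 = lam (ζ 2) := hb 0 (by norm_num)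
  have b1 : M *ᵥ vdec 12 2 = lam (ζ 1) := bs_one h D F ▸ hb 1 (by norm_num)
  rw [lam_one p D.lx] at e
  rw [← vdec_vcode v]
  generalize vcode v = u at h2 e
  interval_cases u
  · exact vdec_zero
  · exact absurd (k 2 (by norm_num) (b0 ▸ e.symm)) (by decide)
  · exact absurd (k 1 (by norm_num) (b1 ▸ e.symm)) (by decide)
  · refine absurd (k (2 ^^^ 1) (by decide) ?_) (by decide)
    rw [h.ζ_mul 2 (by norm_num) 1 (by norm_num), p.κ_mul _ (ζQ h D (by norm_num)) _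
      (ζQ h D (by norm_num)), ← b0, ← b1, ← mulVec_add, ← vdec_xor]
    exact e.symm

end Span

theorem exists_bas : ∃ lam σ P, Pre (ζ 4) Q lam σ P ∧ ∀ j < 12,
    (1 : Matrix (Fin 12) (Fin 12) (ZMod 2)) *ᵥ vdec 12 (2 ^ j) = lam (bs ζ x r m j) := by
  obtain ⟨M, hM⟩ := exists_mat fun j => lam (bs ζ x r m j)
  obtain ⟨T, hT⟩ : ∃ T : GL12, T.1 = M := isUnit_mat h D F p hM
  have e : ∀ j < 12, vdec 12 (2 ^ j) = T⁻¹ • lam (bs ζ x r m j) := fun j hj => by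
    rw [← hM j hj, ← hT, ← gl_smul, inv_smul_smul]
  generalize T⁻¹ = S at e
  exact ⟨_, _, _, p.transport (DistribMulAction.toAddEquiv W S)
    (θ := (MulAut.conj S).toMonoidHom) (fun a v => by simp [mul_smul]), fun j hj =>
      (one_mulVec _).trans (e j hj)⟩

theorem exists_r : ∃ r', Fd L Q κ ρ ζ x r' m ∧ r' * r' = 1 ∧
    ∀ i < 4, r' * (x * vv r' m i * x⁻¹) = x * vv r' m i * x⁻¹ * r' := by
  classical
  have cu : Cub P := p.cubic
  have yQ : ∀ i < 4, x * vv r m i * x⁻¹ ∈ Q := fun i hi => D.lx.norm _ F.xz _ (vv_spec h D F hi).1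
  let c : ℕ → Bool := fun i => decide (r * (x * vv r m i * x⁻¹) = x * vv r m i * x⁻¹ * r)
  obtain ⟨n, hn, H⟩ := pick (c 0) (c 1) (c 2) (c 3)
  have key : ∀ w ∈ L, κ w = 16 * n → Fd L Q κ ρ ζ x (r * w) m ∧
      ∀ i < 4, r * w * (x * vv (r * w) m i * x⁻¹) = x * vv (r * w) m i * x⁻¹ * (r * w) := fun w hw e => by
    have wQ := (D.inL w hw).2 (by omega)
    have F' : Fd L Q κ ρ ζ x (r * w) m :=
      { F with rQ := mul_mem F.rQ wQ, kr := (F.kr.mul (h.kv_L hw)).cast valt.1 }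
    refine ⟨F', fun i hi => ?_⟩
    obtain ⟨v1, v2, v3⟩ := vv_spec h D F hi
    obtain ⟨X, hX⟩ := exists_ov (ρ := σ) F.xz
    have d8 := za_lt jx (cmC (16 * n) (256 * 2 ^ i))
    have e1 : vv (r * w) m i = w⁻¹ * vv r m i * w * ζ (cmC (16 * n) (256 * 2 ^ i)) := by
      rw [← e, ← F.κm i hi, ← h.κ_inv hw, ← h.commutator (inv_mem hw) (F.mL i hi), vv, vv]; group
    have e2 : lam (x * vv (r * w) m i * x⁻¹) =
        lam (x * vv r m i * x⁻¹) + lam (ζ (za jx (cmC (16 * n) (256 * 2 ^ i)))) := by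
      rw [← h.conj_ζ F.kx (cmC_lt _ _), lam_ov p D.lx hX (vv_spec h D F' hi).1, lam_ov p D.lx hX v1,
        lam_ov p D.lx hX (ζQ h D (cmC_lt _ _)), ← smul_add, e1,
        p.κ_mul _ (mul_mem (mul_mem (inv_mem wQ) v1) wQ) _ (ζQ h D (cmC_lt _ _)),
        p.κ_mul _ (mul_mem (inv_mem wQ) v1) _ wQ, p.κ_mul _ (inv_mem wQ) _ v1, lam_inv p D.lx wQ,
        add_right_comm (lam w), W_add_self, zero_add]
    have yL := h.conj_mem _ F.kx.mem _ v2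
    rw [← Bf_iff p D.lx F'.rQ (D.lx.norm _ F.xz _ (vv_spec h D F' hi).1), e2, Bf_comm,
      p.κ_mul _ F.rQ _ wQ, cu.add, Bf_comm P _ (lam r), Bf_comm P _ (lam w), cu.add, cu.add,
      (Bf_iff p D.lx wQ (yQ i hi)).2 ((h.comm_iff hw yL).2 (by
        rw [h.κ_kv F.kx v2, v3, (vali i hi).2.2.1, e, (H i hi).1])),
      (Bf_iff p D.lx wQ (ζQ h D d8)).2 (h.ζ_comm d8 hw).symm, add_zero, add_zero]
    have e3 := (H i hi).2
    rw [← h.kv_comm_ζ F.kr d8, ← Bf_iff p D.lx F.rQ (ζQ h D d8),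
      show [c 0, c 1, c 2, c 3].getD i true = c i by interval_cases i <;> rfl, decide_eq_true_iff,
      ← Bf_iff p D.lx F.rQ (yQ i hi)] at e3
    exact (by decide : ∀ a b : ZMod 2, (a = 0 ↔ b = 0) → a + b = 0) _ _ e3
  obtain ⟨w, hw, e⟩ := h.κ_surj (16 * n) (by omega)
  obtain ⟨F1, k1⟩ := key w hw e
  obtain ⟨F2, k2⟩ := key _ (mul_mem hw (h.ζ_mem 1 (by norm_num)))
    ((h.κ_mul_ζ hw (by norm_num)).trans e)
  by_cases e1 : P (lam (r * w)) = 0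
  · exact ⟨_, F1, (P_iff p D.lx F1.rQ).1 e1, k1⟩
  refine ⟨_, F2, (P_iff p D.lx F2.rQ).1 ?_, k2⟩
  have z1 := ζQ h D (c := 1) (by norm_num)
  have e2 := fun e => valt.2.2.2.2.1 ((h.kv_comm_ζ F1.kr (by norm_num)).1 ((Bf_iff p D.lx F1.rQ z1).1 e))
  rw [Bf, (P_iff p D.lx z1).2 (h.ζ_sq (by norm_num)), ← p.κ_mul _ F1.rQ _ z1, mul_assoc] at e2
  exact (by decide : ∀ a b : ZMod 2, ¬ b = 0 → ¬ a + b + 0 = 0 → a = 0) _ _ e1 e2

end CL.J4P.Cha
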