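import Cfsg.Agent.SPOR.J4P.LDat

/-!
Finite checks for the linear group.
-/

set_option autoImplicit false
set_option maxRecDepth 100000
set_option Elab.async false
set_option linter.unusedSectionVars false
set_option linter.unusedVariables false

namespace CL.J4P

open CL.K CL.CG CL.F2M CL.F24 CL.J4 MulAction

attribute [local irreducible] gcode vcode

/-- membership in a list -/
noncomputable def lm (a : ℕ) (L : List ℕ) : Bool := lany (Nat.beq a) L

theorem lm_iff {a : ℕ} {L : List ℕ} : lm a L = true ↔ a ∈ L := by simp [lm, lany_iff]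

/-- translate of a list -/
noncomputable def lx (c : ℕ) (L M : List ℕ) : List ℕ :=
  List.rec (motive := fun _ => List ℕ) M (fun a _ ih => Nat.xor c a :: ih) L

theorem mem_lx {c w : ℕ} {L M : List ℕ} : w ∈ lx c L M ↔ w ∈ M ∨ ∃ a ∈ L, w = c ^^^ a := by
  induction L with
  | nil => simp [lx]
  | cons a L ih =>
    change w ∈ (c ^^^ a) :: lx c L M ↔ _
    rw [List.mem_cons, ih]
    simp only [List.mem_cons, exists_eq_or_imp]
    tauto

/-- the span of the first `n` columns of `b + 1` -/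
noncomputable def spn (b n : ℕ) : List ℕ :=
  Nat.rec (motive := fun _ => List ℕ) [0] (fun j ih => forceL ih fun S =>
    force (Nat.xor (fld 12 4095 b j) (Nat.shiftLeft 1 j)) fun c =>
      Bool.rec (motive := fun _ => List ℕ) (lx c S S) S (lm c S)) n

theorem sp_succ (b j : ℕ) : spn b (j + 1) = if (fld 12 4095 b j ^^^ 2 ^ j) ∈ spn b j then spn b j
    else lx (fld 12 4095 b j ^^^ 2 ^ j) (spn b j) (spn b j) := by
  have e : Nat.xor (fld 12 4095 b j) (Nat.shiftLeft 1 j) = fld 12 4095 b j ^^^ 2 ^ j := by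
    rw [shl, one_mul]; rfl
  change forceL (spn b j) _ = _
  rw [forceL_eq, force_eq, e]
  by_cases h : (fld 12 4095 b j ^^^ 2 ^ j) ∈ spn b j
  · rw [if_pos h, lm_iff.2 h]
  · rw [if_neg h, Bool.eq_false_iff.2 (fun h' => h (lm_iff.1 h'))]

theorem sp_closed (b n : ℕ) : 0 ∈ spn b n ∧ (∀ u ∈ spn b n, ∀ v ∈ spn b n, u ^^^ v ∈ spn b n) ∧
    ∀ j < n, (fld 12 4095 b j ^^^ 2 ^ j) ∈ spn b n := by
  induction n with
  | zero => simp [spn]
  | succ n ih =>
    obtain ⟨h0, h1, h2⟩ := ih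
    rw [sp_succ]
    split_ifs with h
    · exact ⟨h0, h1, fun j hj => (Nat.lt_succ_iff_lt_or_eq.1 hj).elim (h2 j) fun e => e ▸ h⟩
    · refine ⟨mem_lx.2 (Or.inl h0), fun u hu v hv => mem_lx.2 ?_, fun j hj => mem_lx.2 ?_⟩
      · generalize fld 12 4095 b n ^^^ 2 ^ n = c at hu hv ⊢
        rcases mem_lx.1 hu with iu | ⟨u, iu, rfl⟩ <;> rcases mem_lx.1 hv with iv | ⟨v, iv, rfl⟩
        · exact Or.inl (h1 u iu v iv)
        · exact Or.inr ⟨_, h1 u iu v iv, by
            rw [← Nat.xor_assoc, Nat.xor_comm u c, Nat.xor_assoc]⟩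
        · exact Or.inr ⟨_, h1 u iu v iv, Nat.xor_assoc _ _ _⟩
        · exact Or.inl (by rw [xor4, Nat.xor_self, Nat.zero_xor]; exact h1 u iu v iv)
      · rcases Nat.lt_succ_iff_lt_or_eq.1 hj with hj | rfl
        exacts [Or.inl (h2 j hj), Or.inr ⟨0, h0, (Nat.xor_zero _).symm⟩]

theorem mem_sp (g : GL12) (w : ℕ) : w ∈ spn (gcode g) 12 ↔ ∃ y < 4096, w = sm g y ^^^ y := by
  have ec : ∀ j < 12, fld 12 4095 (gcode g) j ^^^ 2 ^ j = sm g (2 ^ j) ^^^ 2 ^ j := fun j hj => by
    rw [col_eq g hj]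
  have ad : ∀ a < 4096, ∀ b < 4096, sm g (a ^^^ b) ^^^ (a ^^^ b) = (sm g a ^^^ a) ^^^ (sm g b ^^^ b) :=
    fun a ha b hb => by rw [sm_xor g ha hb, xor4]
  constructor
  · have : ∀ n ≤ 12, ∀ w ∈ spn (gcode g) n, ∃ y < 4096, w = sm g y ^^^ y := by
      intro n
      induction n with
      | zero => intro _ w hw; exact ⟨0, by norm_num, by simpa [spn, sm_zero] using hw⟩
      | succ n ih =>
        intro hn w hw
        rw [sp_succ] at hw
        split_ifs at hw with h
        · exact ih (by omega) w hw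
        · rcases mem_lx.1 hw with hw | ⟨a, ha, rfl⟩
          · exact ih (by omega) w hw
          · obtain ⟨y, hy, rfl⟩ := ih (by omega) a ha
            have : 2 ^ n < 4096 := Nat.pow_lt_pow_right (a := 2) (n := 12) (by norm_num) hn
            exact ⟨_, xor12 this hy, by rw [ad _ this _ hy, ec n hn]⟩
    exact this 12 le_rfl w
  · rintro ⟨y, hy, rfl⟩
    obtain ⟨h0, h1, h2⟩ := sp_closed (gcode g) 12
    exact bits_ind (P := fun y => sm g y ^^^ y ∈ spn (gcode g) 12) 12 (by simpa [sm_zero] using h0)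
      (fun i hi => ec i hi ▸ h2 i hi) (fun a ha b hb h h' => (ad a ha b hb).symm ▸ h1 _ h _ h') y hy

/-- no member of `S` in the mask, or three independent ones -/
noncomputable def ok3 (m : ℕ) (S : List ℕ) : Bool :=
  forceL (lfilter (inMask m) S) fun I => lall (fun _ => false) I ||
    lany (fun a => lany (fun b => !Nat.beq a b && lany (fun c =>
      !Nat.beq c a && !Nat.beq c b && !Nat.beq c (Nat.xor a b)) I) I) I

theorem ok3_spec {m : ℕ} {S : List ℕ} (h : ok3 m S = true) {w : ℕ} (hw : w ∈ S)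
    (hm : m.testBit w = true) : ∃ a ∈ S, ∃ b ∈ S, ∃ c ∈ S, m.testBit a = true ∧ m.testBit b = true ∧
      m.testBit c = true ∧ a ≠ b ∧ c ≠ a ∧ c ≠ b ∧ c ≠ a ^^^ b := by
  simp only [ok3, forceL_eq, lfilter_eq, Bool.or_eq_true, lall_iff, lany_iff, Bool.and_eq_true,
    Bool.not_eq_true', List.mem_filter] at h
  rcases h with h | ⟨a, ha, b, hb, h1, c, hc, ⟨h2, h3⟩, h4⟩
  · exact absurd (h w ⟨hw, by rw [inMask, bit_eq_one_iff.2 hm]; rfl⟩) (by simp)
  · exact ⟨a, ha.1, b, hb.1, c, hc.1, inMask_spec ha.2, inMask_spec hb.2, inMask_spec hc.2,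
      ne_of_beq h1, ne_of_beq h2, ne_of_beq h3, ne_of_beq h4⟩

/-- test on involutions -/
noncomputable def invT (b : ℕ) : Bool :=
  !Nat.beq (fld 12 4095 b 0) 1 || !Nat.beq (fld 12 4095 b 1) 2 || !Nat.beq (mm b b) c1 ||
    forceL (spn b 12) fun S => lany (fun s => blt 0 s && blt s 4) S ||
      (lall (fun s => blt s 1024) S && ok3 R2s S && ok3 R2n S)

/-- all involutions -/
noncomputable def invA (k : ℕ) : Bool := force (tS k 0) fun S => force (tC k 0) fun T =>
  allN (fun j => force (ent T j) fun t => allN (fun i => force (mm t (ent S i)) invT) 128) 90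

theorem invA_0 : invA 0 = true := by decide +kernel
theorem invA_1 : invA 1 = true := by decide +kernel
theorem invA_2 : invA 2 = true := by decide +kernel
theorem invA_3 : invA 3 = true := by decide +kernel

theorem invT_all : ∀ k < 4, invA k = true := fun k hk => by
  interval_cases k
  exacts [invA_0, invA_1, invA_2, invA_3]

theorem inv_spec {k : ℕ} (hk : k < 4) {b : GL12} (hb : b ∈ MV k) (h1 : sm b 1 = 1) (h2 : sm b 2 = 2)
    (hbb : b * b = 1) (h0 : ∀ y < 4096, sm b y ^^^ y < 4 → sm b y ^^^ y = 0) :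
    (∀ y < 4096, sm b y ^^^ y < 1024) ∧ ∀ m ∈ [R2s, R2n], ∀ y < 4096, m.testBit (sm b y ^^^ y) = true →
      ∃ y1 < 4096, ∃ y2 < 4096, ∃ y3 < 4096, m.testBit (sm b y1 ^^^ y1) = true ∧
        m.testBit (sm b y2 ^^^ y2) = true ∧ m.testBit (sm b y3 ^^^ y3) = true ∧
        sm b y1 ^^^ y1 ≠ sm b y2 ^^^ y2 ∧ sm b y3 ^^^ y3 ≠ sm b y1 ^^^ y1 ∧
        sm b y3 ^^^ y3 ≠ sm b y2 ^^^ y2 ∧ sm b y3 ^^^ y3 ≠ (sm b y1 ^^^ y1) ^^^ (sm b y2 ^^^ y2) := by
  obtain ⟨j, hj, i, hi, e⟩ := (stab_spec hk (p := 0) two_pos).2.1 b hb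
  have h := invT_all k hk
  simp only [invA, force_eq] at h
  have h' := allN_spec (allN_spec h j hj) i hi
  rw [← e] at h'
  simp only [invT, forceL_eq, Bool.or_eq_true, Bool.not_eq_true', Bool.and_eq_true, lany_iff,
    lall_iff] at h'
  rcases h' with ((h' | h') | h') | ⟨s, hs, h'⟩ | ⟨⟨h3, h4⟩, h5⟩
  · exact absurd ((col_eq b (j := 0) (by norm_num)).trans h1) (ne_of_beq h')
  · exact absurd ((col_eq b (j := 1) (by norm_num)).trans h2) (ne_of_beq h')
  · exact absurd (by rw [C12.map_mul, hbb, C12.map_one]) (ne_of_beq h')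
  · obtain ⟨y, hy, rfl⟩ := (mem_sp b s).1 hs
    exact absurd (h0 y hy (lt_of_blt h'.2)) (lt_of_blt h'.1).ne'
  · refine ⟨fun y hy => lt_of_blt (h3 _ ((mem_sp b _).2 ⟨y, hy, rfl⟩)), fun m hm y hy hw => ?_⟩
    have : ok3 m (spn (gcode b) 12) = true := by
      simp only [List.mem_cons, List.not_mem_nil, or_false] at hm
      rcases hm with rfl | rfl
      exacts [h4, h5]
    obtain ⟨a, ha, b', hb', c, hc, r⟩ := ok3_spec this ((mem_sp b _).2 ⟨y, hy, rfl⟩) hw
    obtain ⟨y1, hy1, rfl⟩ := (mem_sp b _).1 ha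
    obtain ⟨y2, hy2, rfl⟩ := (mem_sp b _).1 hb'
    obtain ⟨y3, hy3, rfl⟩ := (mem_sp b _).1 hc
    exact ⟨y1, hy1, y2, hy2, y3, hy3, r⟩

theorem cand_all : ∀ k < 4, ∀ p < 2, allN (fun b => !Nat.beq (qA b) 0 ||
    !Nat.beq (qA (Nat.xor b (av p))) 0 || blt b 4 || blt (Nat.xor b (av p)) 4 ||
    lany (fun s => force (ac s b) fun c => !Nat.beq c b && !Nat.beq c (Nat.xor b (av p))) (SG k p) ||
    lm b (List.getD [[8, 9, 12, 13], [10, 11, 12, 13]] p [])) 4096 = true := by decide +kernel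

theorem three_all : ∀ k < 4, ∀ p < 2, (force (tS k p) fun S => allN (fun i => lall (fun x =>
    force (mm x (ent S i)) fun y => !Nat.beq (mm y (mm y y)) c1 || Nat.beq y x) [cZ, cZZ]) 128) =
      true := by decide +kernel

theorem out_all : ∀ a ∈ [1024, 1025, 1184, 1185], (forceL (EL.map fun e => ac e a) fun I =>
    lall (fun v => Nat.beq (qA (Nat.xor a v)) 0 && blt (Nat.xor a v) 1024) I &&
    allN (fun b => !Nat.beq (qA b) 0 || !Nat.beq (qA (Nat.xor a b)) 0 ||
      lany (fun v => !Nat.beq v a && Nat.beq (qA (Nat.xor b v)) 0) I) 4096) = true := by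
  decide +kernel

theorem perp_all : allN (fun v => !Nat.beq (qA (Nat.xor v 1)) (qA v) ||
    !Nat.beq (qA (Nat.xor v 2)) (qA v) || blt v 1024) 4096 = true := by decide +kernel

theorem e0_all : allN (fun y => blt (Nat.xor (ac me0 y) y) 16) 4096 = true := by decide +kernel

theorem e3_all : allN (fun y => blt (Nat.xor (ac me3 y) y) 4) 1024 = true := by decide +kernel

/-- the matrix commuting with `x` with given images -/
noncomputable def mk6 (a b c d e f : ℕ) : ℕ :=
  cols 12 (lget [a, ac cZ a, b, ac cZ b, c, ac cZ c, d, ac cZ d, e, ac cZ e, f, ac cZ f])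

theorem cols_congr {f g : ℕ → ℕ} (h : ∀ j < 12, f j = g j) : cols 12 f = cols 12 g := by
  rw [cols12, cols12, h 0 (by norm_num), h 1 (by norm_num), h 2 (by norm_num), h 3 (by norm_num),
    h 4 (by norm_num), h 5 (by norm_num), h 6 (by norm_num), h 7 (by norm_num), h 8 (by norm_num),
    h 9 (by norm_num), h 10 (by norm_num), h 11 (by norm_num)]

theorem sm_x {t : GL12} (h : t * xA = xA * t) {v : ℕ} (hv : v < 4096) : sm t (ac cZ v) = ac cZ (sm t v) := by
  rw [← sm_code code_xA v, ← sm_code code_xA (sm t v), ← sm_mul _ _ hv, h, sm_mul _ _ hv]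

theorem mk6_eq (f : ℕ → ℕ) (h : ∀ v < 4096, f (ac cZ v) = ac cZ (f v)) :
    cols 12 (fun j => f (2 ^ j)) = mk6 (f 1) (f 4) (f 16) (f 64) (f 256) (f 1024) := by
  have z : ac cZ 1 = 2 ∧ ac cZ 4 = 8 ∧ ac cZ 16 = 32 ∧ ac cZ 64 = 128 ∧ ac cZ 256 = 512 ∧
    ac cZ 1024 = 2048 := by decide +kernel
  rw [mk6, ← h 1 (by norm_num), ← h 4 (by norm_num), ← h 16 (by norm_num), ← h 64 (by norm_num),
    ← h 256 (by norm_num), ← h 1024 (by norm_num), z.1, z.2.1, z.2.2.1, z.2.2.2.1, z.2.2.2.2.1, z.2.2.2.2.2]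
  refine cols_congr fun j hj => ?_
  interval_cases j <;> rfl

theorem code_mk6 {t : GL12} (h : t * xA = xA * t) :
    gcode t = mk6 (sm t 1) (sm t 4) (sm t 16) (sm t 64) (sm t 256) (sm t 1024) :=
  (code_eq_cols t).trans (mk6_eq (sm t) fun _ hv => sm_x h hv)

/-- `u` and `v` keep the value of the form on the sum -/
def pq (u v u' v' : ℕ) : Bool := Nat.beq (qA (Nat.xor u' v')) (qA (Nat.xor u v))

/-- the multiples of the base point -/
noncomputable def Fp (p : ℕ) : List ℕ := List.getD [[0, 4, 8, 12], [0, 6, 11, 13]] p []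
/-- a vector orthogonal to the base point -/
noncomputable def rp (p : ℕ) : ℕ := lget [1024, 1792] p
/-- image of `4` -/
noncomputable def t4 (p : ℕ) : ℕ := lget [4, 15] p

/-- the search for the new generator -/
noncomputable def chkT (k p : ℕ) : Bool :=
  force (tS k p) fun S => force (Nat.xor 1 (av p)) fun a => force (ac cZ a) fun a' =>
  force (t4 p) fun b => force (ac cZ b) fun b' =>
  allN (fun y => !pq 256 0 y 0 || !pq 256 1 y a || !pq 256 2 y a' || !pq 256 4 y b || !pq 256 8 y b' ||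
    force (ac cZ y) fun y' =>
    lall (fun l2 => force (Nat.xor 16 l2) fun c => !pq 256 16 y c || !pq 512 16 y' c ||
    lall (fun l3 => force (Nat.xor 64 l3) fun d => !pq 256 64 y d || !pq 512 64 y' d ||
    lall (fun l => force (Nat.xor (rp p) l) fun r => !pq 256 (rp p) y r || !pq 512 (rp p) y' r ||
      force (mk6 a b c d y (Nat.xor r (Nat.mul p (Nat.xor y y')))) fun T => !Nat.beq (mm T T) c1 ||
        lany (fun s => force (mm (mm T s) T) fun Y => allN (fun i => !Nat.beq (ent S i) Y) 128) (SG k p) ||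
        (Nat.beq k 0 && Nat.beq p 0 && lany (fun g => Nat.beq T (mm mt0 g) || Nat.beq T (mm mt1 g)) GB))
      (Fp p)) (Fp p)) (Fp p)) 4096

theorem chkT_all : ∀ k < 4, ∀ p < 2, chkT k p = true := by decide +kernel

end CL.J4P
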