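import Cfsg.Agent.SPOR.J4P.LChk
import Cfsg.Agent.SPOR.J4.Setup

/-!
The linear group is the model of `3.Aut(M22)`.
-/

set_option autoImplicit false
set_option maxRecDepth 100000
set_option linter.unusedSectionVars false
set_option linter.unusedVariables false

namespace CL.J4P

open CL.K CL.CG CL.F2M CL.F24 CL.J4 MulAction

attribute [local irreducible] gcode vcode sm

/-- the hypotheses on the linear group -/
structure LH (k : ℕ) (X : Subgroup GL12) : Prop where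
  hk : k < 4
  iso : ∀ g ∈ X, ∀ v < 4096, qA (sm g v) = qA v
  le : MV k ≤ X
  h1 : ∀ g ∈ X, sm g 1 < 4 → g ∈ MV k
  h4 : ∀ g ∈ X, sm g 1 &&& 0xEA8 = 0 → sm g⁻¹ 1 &&& 0xEA8 = 0

theorem sm_xA (v : ℕ) : sm xA v = ac cZ v := sm_code code_xA v

theorem x_vals : ac cZ 1 = 2 ∧ ac cZ 2 = 3 ∧ ac cZ 3 = 1 ∧ ac cZ 4 = 8 ∧ ac cZ 6 = 11 ∧ ac cZ 8 = 12 ∧
    ac cZ 9 = 14 ∧ ac cZ 10 = 15 ∧ ac cZ 11 = 13 ∧ ac cZ 12 = 4 ∧ ac cZ 13 = 6 ∧ ac cZ 7 = 9 ∧
    ac cZ 256 = 512 := by decide +kernel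

theorem sm_three (g : GL12) : sm g 3 = sm g 2 ^^^ sm g 1 :=
  sm_xor g (u := 2) (v := 1) (by norm_num) (by norm_num)

theorem sm_gx (g : GL12) : sm (g * xA) 1 = sm g 2 ∧ sm (g * xA) 2 = sm g 3 ∧
    sm (g * xA * xA) 1 = sm g 3 ∧ sm (g * xA * xA) 2 = sm g 1 := by
  simp only [sm_mul _ _ (show 1 < 4096 by norm_num), sm_mul _ _ (show 2 < 4096 by norm_num),
    sm_mul _ _ (show 3 < 4096 by norm_num), sm_xA, x_vals.1, x_vals.2.1, x_vals.2.2.1, and_self]

theorem xA_cube : xA * (xA * xA) = 1 :=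
  C12.inj (by rw [code_mul code_xA (code_mul code_xA code_xA), C12.map_one]; decide +kernel)

theorem code_xx : gcode (xA * xA) = cZZ := (code_mul code_xA code_xA).trans (by decide +kernel)

theorem three4 : ∀ u < 4, ∀ v < 4, ∀ w < 4,
    ¬ (u ≠ 0 ∧ v ≠ 0 ∧ w ≠ 0 ∧ ¬ u = v ∧ ¬ w = u ∧ ¬ w = v ∧ ¬ w = u ^^^ v) := by
  intro u hu v hv w hw
  interval_cases u <;> interval_cases v <;> interval_cases w <;> decide

theorem out_spec {a b : ℕ} (ha : a ∈ [1024, 1025, 1184, 1185]) (hb : b < 4096) (h1 : qA b = 0)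
    (h2 : qA (a ^^^ b) = 0) : ∃ c ∈ EL, ac c a ≠ a ∧ qA (b ^^^ ac c a) = 0 ∧
      qA (a ^^^ ac c a) = 0 ∧ a ^^^ ac c a < 1024 := by
  have c := out_all _ ha
  rw [forceL_eq, Bool.and_eq_true, lall_iff] at c
  have c2 := allN_spec c.2 b hb
  simp only [Bool.or_eq_true, Bool.not_eq_true', lany_iff, Bool.and_eq_true] at c2
  rcases c2 with (c2 | c2) | ⟨v, hv, c2, c3⟩
  · exact absurd h1 (ne_of_beq c2)
  · exact absurd h2 (ne_of_beq c2)
  obtain ⟨c4, c5⟩ := Bool.and_eq_true_iff.1 (c.1 v hv)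
  obtain ⟨c', hc', rfl⟩ := List.mem_map.1 hv
  exact ⟨c', hc', ne_of_beq c2, eq_of_beq c3, eq_of_beq c4, lt_of_blt c5⟩

/-- generators of the whole group -/
noncomputable def LX' (i : ℕ) : List ℕ := LM 0 ++ [lget [mt0, mt1] i]

theorem top_LX {i : ℕ} (hi : i < 2) : ∀ c ∈ LX' i, Mem (gcode : GL12 → ℕ) ⊤ c := fun c hc => by
  rcases List.mem_append.1 hc with hc | hc
  · exact top_LM (by norm_num) c hc
  · rw [List.mem_singleton.1 hc]
    exact top_of_inv (lget [mt0, mt1] i) (by interval_cases i <;> decide +kernel)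

theorem orbs_X : ∀ i < 2, (orbA ac (2 ^ 12) (LX' i) 1 (fun S' _ => Nat.beq S' (lget [O1, O1b] i)) &&
    orbA ac (2 ^ 12) (LX' i) 6 (fun S' _ => Nat.beq S' (lget [O6, O6b] i)) &&
    allN (fun v => !Nat.beq (qA v) 0 || Nat.beq v 0 || inMask (lget [O1, O1b] i) v ||
      inMask (lget [O6, O6b] i) v) 4096) = true := by decide +kernel

theorem words_X : ∀ i < 2, (F2M.unitB 12 CM 4095 (lget [pi0, pi1] i) (lget [pm0, pm1] i) &&
    F2M.unitB 12 CM 4095 (lget [pm0, pm1] i) (lget [pi0, pi1] i) &&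
    wordsB mm c1 LG (List.zip ((LX' i).map fun c => mm (mm (lget [pm0, pm1] i) c) (lget [pi0, pi1] i))
      WA) &&
    wordsB mm c1 (LX' i) (List.zip (LG.map fun c => mm (mm (lget [pi0, pi1] i) c) (lget [pm0, pm1] i))
      WB)) = true := by decide +kernel

theorem map_LX {i : ℕ} (hi : i < 2) : ∃ p : GL12,
    (gen gcode (LX' i) : Subgroup GL12).map (MulAut.conj p).toMonoidHom = gen gcode LG := by
  have w := words_X i hi
  simp only [Bool.and_eq_true] at w
  obtain ⟨⟨⟨w0, w1⟩, w2⟩, w3⟩ := w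
  obtain ⟨p, hp⟩ := exists_unit w1
  have hp' := code_inv hp w0
  have a2 := C12.mem_of_wordsB (mem_gen top_LG) w2
  have a3 := C12.mem_of_wordsB (mem_gen (top_LX hi)) w3
  rw [List.map_fst_zip (by simp [LX', LM, WA])] at a2
  rw [List.map_fst_zip (by simp [LG, WB])] at a3
  refine ⟨p, le_antisymm (Subgroup.map_le_iff_le_comap.2 ((C12.gen_le_iff (top_LX hi)).2 fun c hc => ?_))
    ((C12.gen_le_iff top_LG).2 fun c hc => ?_)⟩
  · have := a2 _ (List.mem_map_of_mem hc)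
    rw [← code_mul (code_mul hp (top_LX hi c hc).code_elt) hp'] at this
    exact (C12.mem_iff.1 this :)
  · have := a3 _ (List.mem_map_of_mem hc)
    rw [← code_mul (code_mul hp' (top_LG c hc).code_elt) hp] at this
    exact ⟨_, C12.mem_iff.1 this, by simp [mul_assoc]⟩

namespace LH
variable {k : ℕ} {X : Subgroup GL12} (h : LH k X)
include h

theorem xX : xA ∈ X := h.le (xA_mem h.hk)

theorem pq_of {g : GL12} (hg : g ∈ X) {u v : ℕ} (hu : u < 4096) (hv : v < 4096) :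
    qA (sm g u ^^^ sm g v) = qA (u ^^^ v) := by
  rw [← sm_xor g hu hv, h.iso g hg _ (xor12 hu hv)]

theorem q1 {g : GL12} (hg : g ∈ X) {i : ℕ} (hi : i < 4) : qA (sm g i) = 0 := by
  rw [h.iso g hg _ (by omega)]
  interval_cases i <;> decide +kernel

/-- an element outside `M` moves the point off itself -/
theorem ge4 {g : GL12} (hg : g ∈ X) (hn : g ∉ MV k) {i : ℕ} (h0 : i ≠ 0) (hi : i < 4) :
    4 ≤ sm g i := by
  by_contra hl
  have hx := xA_mem h.hk
  interval_cases i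
  · exact h0 rfl
  · exact hn (h.h1 g hg (by omega))
  · exact hn ((mul_mem_cancel_right hx).1 (h.h1 _ (mul_mem hg h.xX) (by rw [(sm_gx g).1]; omega)))
  · exact hn ((mul_mem_cancel_right hx).1 ((mul_mem_cancel_right hx).1 (h.h1 _
      (mul_mem (mul_mem hg h.xX) h.xX) (by rw [(sm_gx g).2.2.1]; omega))))

theorem not_mem {g : GL12} (h4 : 4 ≤ sm g 1) : g ∉ MV k := fun hm =>
  absurd (M_one h.hk hm (v := 1) (by norm_num)) (by omega)

/-- an element fixing `g a` preserves the point `g P` -/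
theorem blk0 {g s : GL12} (hg : g ∈ X) (hs : s ∈ X) (e : sm s (sm g 1) = sm g 1) :
    sm s (sm g 2) = sm g 2 ∨ sm s (sm g 2) = sm g 2 ^^^ sm g 1 := by
  have hm : g⁻¹ * s * g ∈ X := mul_mem (mul_mem (inv_mem hg) hs) hg
  have e1 : sm (g⁻¹ * s * g) 1 = 1 := by
    rw [sm_mul _ _ (by norm_num), sm_mul _ _ (sm_lt _ _), e, sm_inv_sm g (by norm_num)]
  have h2 := M_one h.hk (h.h1 _ hm (by omega)) (v := 2) (by norm_num)
  have n0 := sm_ne (g := g⁻¹ * s * g) (u := 2) (by norm_num) (by norm_num)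
  have n1 : sm (g⁻¹ * s * g) 2 ≠ 1 := fun e2 =>
    absurd (sm_inj _ (by norm_num) (by norm_num) (e2.trans e1.symm)) (by norm_num)
  have e3 : sm s (sm g 2) = sm g (sm (g⁻¹ * s * g) 2) := by
    rw [← sm_mul g _ (by norm_num), ← sm_mul s _ (by norm_num),
      show g * (g⁻¹ * s * g) = s * g by group]
  rw [e3, ← sm_three]
  rcases (by omega : sm (g⁻¹ * s * g) 2 = 2 ∨ sm (g⁻¹ * s * g) 2 = 3) with e | e <;> rw [e]
  exacts [Or.inl rfl, Or.inr rfl]

theorem cand {p : ℕ} (hp : p < 2) {g : GL12} (hg : g ∈ X) (e : sm g 1 = av p) :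
    sm g 2 ∈ List.getD [[8, 9, 12, 13], [10, 11, 12, 13]] p [] := by
  have hn : g ∉ MV k := h.not_mem (by rw [e]; interval_cases p <;> decide)
  have h3 : sm g 2 ^^^ av p = sm g 3 := by rw [sm_three, e]
  have := allN_spec (cand_all k h.hk p hp) (sm g 2) (sm_lt _ _)
  simp only [Bool.or_eq_true, Bool.not_eq_true', xor_def, h3, lany_iff, force_eq, Bool.and_eq_true,
    lm_iff] at this
  rcases this with ((((t | t) | t) | t) | ⟨c, hc, t1, t2⟩) | t
  · exact absurd (h.q1 hg (by norm_num)) (ne_of_beq t)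
  · exact absurd (h.q1 hg (by norm_num)) (ne_of_beq t)
  · exact absurd (lt_of_blt t) (not_lt.2 (h.ge4 hg hn (by norm_num) (by norm_num)))
  · exact absurd (lt_of_blt t) (not_lt.2 (h.ge4 hg hn (by norm_num) (by norm_num)))
  · obtain ⟨s, hs, e1, e2⟩ := (stab_spec h.hk hp).1 c hc
    rw [← sm_code e1] at t1 t2
    rcases h.blk0 hg (h.le hs) (by rw [e, e2]) with t | t
    · exact absurd t (ne_of_beq t1)
    · exact absurd (t.trans (sm_three g).symm) (ne_of_beq t2)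
  · exact t

/-- the conjugates of the point are points over `F_4` -/
theorem blk {p : ℕ} (hp : p < 2) {g : GL12} (hg : g ∈ X) (e : sm g 1 = av p) :
    sm g 2 = ac cZ (av p) ∨ sm g 3 = ac cZ (av p) := by
  have hx := h.xX
  have c := h.cand hp hg e
  have e3 := sm_three g
  obtain ⟨a1, a2, a3, a4⟩ := sm_gx g
  have f : ∀ {q : ℕ} (hq : q < 2) {g' : GL12}, g' ∈ X → ac cZ (sm g' 1) = av q →
      ac cZ (sm g' 2) ∈ List.getD [[8, 9, 12, 13], [10, 11, 12, 13]] q [] := fun hq g' hg' e' => by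
    have := h.cand hq (mul_mem hx hg') (by rw [sm_mul _ _ (by norm_num), sm_xA, e'])
    rwa [sm_mul _ _ (by norm_num), sm_xA] at this
  obtain ⟨v1, v2, v3, v4, v6, v8, v9, v10, v11, v12, v13, -⟩ := x_vals
  interval_cases p
  · change sm g 1 = 4 at e
    change _ = ac cZ 4 ∨ _ = ac cZ 4
    rw [v4]
    simp only [List.getD_cons_zero, List.mem_cons, List.not_mem_nil, or_false] at c
    rcases c with c | c | c | c
    · exact Or.inl c
    · have := f (q := 1) (by norm_num) (mul_mem (mul_mem hg hx) hx) (by rw [a3, e3, c, e]; exact v13)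
      rw [a4, e, v4] at this
      exact absurd this (by decide)
    · exact Or.inr (by rw [e3, c, e]; rfl)
    · have := f (q := 1) (by norm_num) (mul_mem hg hx) (by rw [a1, c]; exact v13)
      rw [a2, e3, c, e, show 13 ^^^ 4 = 9 from rfl, v9] at this
      exact absurd this (by decide)
  · change sm g 1 = 6 at e
    change _ = ac cZ 6 ∨ _ = ac cZ 6
    rw [v6]
    simp only [List.getD_cons_succ, List.getD_cons_zero, List.mem_cons, List.not_mem_nil,
      or_false] at c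
    rcases c with c | c | c | c
    · have := f (q := 0) (by norm_num) (mul_mem (mul_mem hg hx) hx) (by rw [a3, e3, c, e]; exact v12)
      rw [a4, e, v6] at this
      exact absurd this (by decide)
    · exact Or.inl c
    · have := f (q := 0) (by norm_num) (mul_mem hg hx) (by rw [a1, c]; exact v12)
      rw [a2, e3, c, e, show 12 ^^^ 6 = 10 from rfl, v10] at this
      exact absurd this (by decide)
    · exact Or.inr (by rw [e3, c, e]; rfl)

theorem conj_x {p q : ℕ} (hp : p < 2) (hq : q < 2) {g : GL12} (hg : g ∈ X) (e : sm g 1 = av p)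
    (e' : sm g⁻¹ 1 = av q) : g * xA * g⁻¹ = xA ∨ g * xA * g⁻¹ = xA * xA := by
  have hx := h.xX
  have mx := xA_mem h.hk
  have hy : g * xA * g⁻¹ ∈ X := mul_mem (mul_mem hg hx) (inv_mem hg)
  have m : g * xA * g⁻¹ ∈ MV k := h.h1 _ hy (by
    rw [sm_mul _ _ (by norm_num), e', sm_mul _ _ (av_lt hq), sm_xA]
    rcases h.blk hq (inv_mem hg) e' with t | t <;> rw [← t, sm_sm_inv g (by norm_num)] <;> norm_num)
  have ea : sm (g * xA * g⁻¹) (av p) = sm g 2 := by
    rw [← e, sm_mul _ _ (sm_lt _ _), sm_inv_sm g (by norm_num), (sm_gx g).1]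
  have c3 : g * xA * g⁻¹ * (g * xA * g⁻¹ * (g * xA * g⁻¹)) = 1 := by
    rw [show g * xA * g⁻¹ * (g * xA * g⁻¹ * (g * xA * g⁻¹)) = g * (xA * (xA * xA)) * g⁻¹ by group,
      xA_cube, mul_one, mul_inv_cancel]
  have f : ∀ y : GL12, y ∈ MV k → gcode y ∈ [cZ, cZZ] → sm y (av p) = sm g 2 → g * xA * g⁻¹ = y := by
    intro y hy hc ey
    obtain ⟨i, hi, ei⟩ := (stab_spec h.hk hp).2.2 (y⁻¹ * (g * xA * g⁻¹)) (mul_mem (inv_mem hy) m) (by
      rw [sm_mul _ _ (av_lt hp), ea, ← ey, sm_inv_sm y (av_lt hp)])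
    have t := three_all k h.hk p hp
    simp only [force_eq] at t
    have t := lall_iff.1 (allN_spec t i hi) _ hc
    rw [← ei, C12.map_mul, mul_inv_cancel_left, C12.map_mul, C12.map_mul, c3, C12.map_one] at t
    simp only [Bool.or_eq_true, Bool.not_eq_true'] at t
    exact C12.inj (eq_of_beq (t.resolve_left fun t => ne_of_beq t rfl))
  rcases h.blk hp hg e with t | t
  · exact Or.inl (f _ mx (by simp [code_xA]) (by rw [sm_xA, t]))
  · refine Or.inr (f _ (mul_mem mx mx) (by simp [code_xx]) ?_)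
    have : sm g 2 = sm g 3 ^^^ sm g 1 := by rw [sm_three, Nat.xor_assoc, Nat.xor_self, Nat.xor_zero]
    rw [sm_mul _ _ (av_lt hp), sm_xA, sm_xA, this, t, e]
    interval_cases p <;> decide +kernel

theorem perp {g : GL12} (hg : g ∈ X) {y : ℕ} (hy : y < 4096)
    (h1 : qA (y ^^^ sm g 1) = qA y) (h2 : qA (y ^^^ sm g 2) = qA y) : sm g⁻¹ y < 1024 := by
  have hl := sm_lt g⁻¹ y
  have a1 := h.pq_of hg hl (v := 1) (by norm_num)
  have a2 := h.pq_of hg hl (v := 2) (by norm_num)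
  rw [sm_sm_inv g hy] at a1 a2
  have := allN_spec perp_all _ hl
  simp only [Bool.or_eq_true, Bool.not_eq_true', xor_def, ← a1, ← a2, h1, h2,
    h.iso _ (inv_mem hg) y hy] at this
  exact lt_of_blt (this.resolve_left fun t => t.elim (ne_of_beq · rfl) (ne_of_beq · rfl))

theorem new_gen {p q : ℕ} (hp : p < 2) (hq : q < 2) {g : GL12} (hg : g ∈ X) (e : sm g 1 = av p)
    (e' : sm g⁻¹ 1 = av q) : k = 0 ∧ p = 0 ∧ ∃ t ∈ X, gcode t = mt0 ∨ gcode t = mt1 := by
  have e3 : gcode (eA 3) = me3 := code_eA (by norm_num)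
  have hE : eA 3 ∈ X := h.le (eA_mem h.hk (by norm_num))
  have ex : eA 3 * xA = xA * eA 3 :=
    C12.inj (by rw [code_mul e3 code_xA, code_mul code_xA e3]; decide +kernel)
  have ee : eA 3 * eA 3 = 1 := C12.inj (by rw [code_mul e3 e3, C12.map_one]; decide +kernel)
  obtain ⟨t, ht⟩ : ∃ t, t = g * eA 3 * g⁻¹ := ⟨_, rfl⟩
  have tX : t ∈ X := ht ▸ mul_mem (mul_mem hg hE) (inv_mem hg)
  have tt : t * t = 1 := by
    rw [ht, show g * eA 3 * g⁻¹ * (g * eA 3 * g⁻¹) = g * (eA 3 * eA 3) * g⁻¹ by group, ee]; group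
  have tx : t * xA = xA * t := by
    have c1 : Commute t (g * xA * g⁻¹) := by
      rw [ht]; change _ * _ = _ * _
      rw [show g * eA 3 * g⁻¹ * (g * xA * g⁻¹) = g * (eA 3 * xA) * g⁻¹ by group, ex]; group
    rcases h.conj_x hp hq hg e e' with c | c <;> rw [c] at c1
    · exact c1
    · have := c1.mul_right c1
      rwa [mul_assoc, xA_cube, mul_one] at this
  have ty : ∀ y < 4096, sm t y = sm g (ac me3 (sm g⁻¹ y)) := fun y hy => by
    rw [ht, sm_mul _ _ hy, sm_mul _ _ (sm_lt _ _), sm_code e3]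
  have gF : ∀ i < 4, sm g i ∈ Fp p := fun i hi => by
    have c := h.blk hp hg e
    have := sm_three g
    have t2 : sm g 2 = sm g 3 ^^^ sm g 1 := by rw [sm_three, Nat.xor_assoc, Nat.xor_self, Nat.xor_zero]
    have z : 0 ∈ Fp p ∧ av p ∈ Fp p ∧ ac cZ (av p) ∈ Fp p ∧ ac cZ (av p) ^^^ av p ∈ Fp p := by
      interval_cases p <;> decide +kernel
    interval_cases i
    · rw [sm_zero]; exact z.1
    · rw [e]; exact z.2.1
    · rcases c with c | c
      exacts [c ▸ z.2.2.1, by rw [t2, c, e]; exact z.2.2.2]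
    · rcases c with c | c
      exacts [by rw [this, c, e]; exact z.2.2.2, c ▸ z.2.2.1]
  have tF : ∀ y < 4096, (∀ l ∈ Fp p, qA (y ^^^ l) = qA y) → ∃ l ∈ Fp p, sm t y = y ^^^ l := by
    intro y hy hl
    have h1 := h.perp hg hy (hl _ (gF 1 (by norm_num))) (hl _ (gF 2 (by norm_num)))
    have h2 := lt_of_blt (allN_spec e3_all _ h1)
    refine ⟨_, gF _ h2, ?_⟩
    rw [xor_def, sm_xor g (ac_lt _ _) (sm_lt _ _), sm_sm_inv g hy, ty y hy, Nat.xor_comm y,
      Nat.xor_assoc, Nat.xor_self, Nat.xor_zero]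
  have t1 : sm t 1 = 1 ^^^ av p := by
    have : ac me3 (av q) = av q ^^^ 1 := by interval_cases q <;> decide +kernel
    rw [ty 1 (by norm_num), e', this, sm_xor g (av_lt hq) (by norm_num), e, ← e',
      sm_sm_inv g (by norm_num)]
  have ta : sm t (av p) = av p := by
    rw [ty _ (av_lt hp), sm_inv_eq (by norm_num) e, show ac me3 1 = 1 by decide +kernel, e]
  have sx : ∀ {v w : ℕ}, v < 4096 → ac cZ v = w → sm t w = ac cZ (sm t v) := fun hv e =>
    e ▸ sm_x tx hv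
  have t2 := sx (by norm_num) x_vals.1
  have t8 := sx (by norm_num) x_vals.2.2.2.1
  have t512 := sx (by norm_num) x_vals.2.2.2.2.2.2.2.2.2.2.2.2
  have t4' : sm t 4 = t4 p := by
    interval_cases p
    · exact ta
    · have := sm_xor t (u := 6) (v := 2) (by norm_num) (by norm_num)
      rw [show sm t 6 = 6 from ta, t2, t1] at this
      exact this.trans (by decide +kernel)
  have pf : ∀ y ∈ [16, 64, rp p], y < 4096 ∧ ∀ l ∈ Fp p, qA (y ^^^ l) = qA y := by
    interval_cases p <;> decide +kernel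
  obtain ⟨l2, hl2, t16⟩ := tF 16 (by norm_num) (pf _ (by simp)).2
  obtain ⟨l3, hl3, t64⟩ := tF 64 (by norm_num) (pf _ (by simp)).2
  obtain ⟨l, hl, tr⟩ := tF (rp p) (pf _ (by simp)).1 (pf _ (by simp)).2
  have t1024 : sm t 1024 = rp p ^^^ l ^^^ p * (sm t 256 ^^^ ac cZ (sm t 256)) := by
    rw [← tr, ← t512]
    interval_cases p
    · rw [zero_mul, Nat.xor_zero]; rfl
    · rw [one_mul, ← sm_xor t (by norm_num) (by norm_num), ← sm_xor t (by decide) (by decide)]; rfl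
  have pq' : ∀ {u v u' v' : ℕ}, u < 4096 → v < 4096 → sm t u = u' → sm t v = v' →
      ¬ (pq u v u' v' = false) := fun hu hv e1 e2 c =>
    ne_of_beq c (by rw [← e1, ← e2]; exact h.pq_of tX hu hv)
  have c := chkT_all k h.hk p hp
  simp only [chkT, force_eq] at c
  have c := allN_spec c (sm t 256) (sm_lt _ _)
  simp only [Bool.or_eq_true, Bool.not_eq_true', lall_iff, xor_def, Nat.mul_eq] at c
  have n := (by norm_num : 256 < 4096)
  have n' := (by norm_num : 512 < 4096)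
  have c := c.resolve_left fun c => by
    rcases c with (((c | c) | c) | c) | c
    exacts [pq' n (by norm_num) rfl (sm_zero t) c, pq' n (by norm_num) rfl t1 c,
      pq' n (by norm_num) rfl (t1 ▸ t2) c, pq' n (by norm_num) rfl t4' c,
      pq' n (by norm_num) rfl (t4' ▸ t8) c]
  have c := (c l2 hl2).resolve_left fun c =>
    c.elim (pq' n (by norm_num) rfl t16) (pq' n' (by norm_num) t512 t16)
  have c := (c l3 hl3).resolve_left fun c =>
    c.elim (pq' n (by norm_num) rfl t64) (pq' n' (by norm_num) t512 t64)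
  have c := (c l hl).resolve_left fun c =>
    c.elim (pq' n (pf _ (by simp)).1 rfl tr) (pq' n' (pf _ (by simp)).1 t512 tr)
  rw [← t1024, ← t64, ← t16, ← t4', ← t1, ← code_mk6 tx] at c
  rcases c with (c | c) | c
  · exact absurd (by rw [C12.map_mul, tt, C12.map_one]) (ne_of_beq c)
  · obtain ⟨c', hc, c⟩ := lany_iff.1 c
    obtain ⟨s, hs, e1, e2⟩ := (stab_spec h.hk hp).1 c' hc
    have s1 : sm s 1 = 1 := by
      have : ∀ k < 4, ∀ p < 2, lall (fun c => Nat.beq (ac c 1) 1) (SG k p) = true := by decide +kernel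
      exact (sm_code e1 _).trans (eq_of_beq (lall_iff.1 (this k h.hk p hp) c' hc))
    have i1 : sm t (1 ^^^ av p) = 1 := by rw [← t1, ← sm_mul _ _ (by norm_num), tt, sm_one (by norm_num)]
    have m : t * s * t ∈ MV k := h.h1 _ (mul_mem (mul_mem tX (h.le hs)) tX) (by
      rw [sm_mul _ _ (by norm_num), t1, sm_mul _ _ (xor12 (by norm_num) (av_lt hp)),
        sm_xor s (by norm_num) (av_lt hp), s1, e2, i1]; norm_num)
    obtain ⟨i, hi, ei⟩ := (stab_spec h.hk hp).2.2 _ m (by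
      rw [sm_mul _ _ (av_lt hp), ta, sm_mul _ _ (av_lt hp), e2, ta])
    have := allN_spec c i hi
    rw [← e1, C12.map_mul, C12.map_mul, ei, Bool.not_eq_true'] at this
    exact absurd rfl (ne_of_beq this)
  · simp only [Bool.and_eq_true, lany_iff, Bool.or_eq_true] at c
    obtain ⟨⟨c1, c2⟩, b, hb, c3⟩ := c
    obtain rfl := eq_of_beq c1
    have w : wordsB mm F24.c1 (LM 0) (List.zip GB GW) = true := by decide +kernel
    obtain ⟨m, hm, em⟩ := C12.mem_of_wordsB (mem_LM h.hk) w b hb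
    have u0 : gcode (elt gcode mt0 : GL12) = mt0 := (top_of_inv mt0 (by decide +kernel)).code_elt
    have u1 : gcode (elt gcode mt1 : GL12) = mt1 := (top_of_inv mt1 (by decide +kernel)).code_elt
    refine ⟨rfl, eq_of_beq c2, t * m⁻¹, mul_mem tX (inv_mem (h.le hm)), c3.imp (fun c => ?_) fun c => ?_⟩
    · rw [C12.inj ((eq_of_beq c).trans (code_mul u0 em).symm), mul_inv_cancel_right, u0]
    · rw [C12.inj ((eq_of_beq c).trans (code_mul u1 em).symm), mul_inv_cancel_right, u1]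

theorem caseA {p : ℕ} (hp : p < 2) {g : GL12} (hg : g ∈ X) (e : sm g 1 = av p) :
    k = 0 ∧ p = 0 ∧ ∃ t ∈ X, gcode t = mt0 ∨ gcode t = mt1 := by
  have hn : g ∉ MV k := h.not_mem (by rw [e]; interval_cases p <;> decide)
  have h4 := h.h4 g hg (by rw [e]; interval_cases p <;> decide)
  have h5 := h.ge4 (inv_mem hg) (fun c => hn (inv_mem_iff.1 c)) (i := 1) (by norm_num) (by norm_num)
  obtain ⟨m, hm, e1, e2⟩ := orb_U h.hk (sm_lt _ _) h5 h4
  have a : sm (g * m) 1 = av p := by rw [sm_mul _ _ (by norm_num), e1, e]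
  have hgm := mul_mem hg (h.le hm)
  rcases e2 with e2 | e2
  · exact h.new_gen hp (q := 0) (by norm_num) hgm a (by
      rw [mul_inv_rev, sm_mul _ _ (by norm_num)]; exact sm_inv_eq (by decide) e2)
  · exact h.new_gen hp (q := 1) (by norm_num) hgm a (by
      rw [mul_inv_rev, sm_mul _ _ (by norm_num)]; exact sm_inv_eq (by decide) e2)

/-- move along an orbit of `M` -/
theorem move {g m : GL12} (hg : g ∈ X) (hm : m ∈ MV k) {a : ℕ} (ha : a < 4096) (e : sm m a = sm g 1) :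
    ∃ g' ∈ X, sm g' 1 = a :=
  ⟨m⁻¹ * g, mul_mem (inv_mem (h.le hm)) hg, by rw [sm_mul _ _ (by norm_num), sm_inv_eq ha e]⟩

theorem caseB (n4 : ∀ g ∈ X, sm g 1 ≠ 4) (n6 : ∀ g ∈ X, sm g 1 ≠ 6) {g : GL12} (hg : g ∈ X)
    (hl : sm g 1 < 1024) : sm g 1 < 4 := by
  have mv : ∀ {a S : ℕ}, (a, S) ∈ [(1, 14), (4, R1a), (6, R1b), (24, R2s), (72, R2n)] → a < 4096 →
      ∀ g ∈ X, S.testBit (sm g 1) = true → ∃ g' ∈ X, sm g' 1 = a := fun hS ha g hg t => by
    obtain ⟨m, hm, e⟩ := (orb_M h.hk hS (sm_lt _ _)).2 t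
    exact h.move hg hm ha e
  have cl : ∀ g ∈ X, sm g 1 < 1024 → sm g 1 < 4 ∨ ∃ a S, (a, S) ∈ [(24, R2s), (72, R2n)] ∧
      S.testBit (sm g 1) = true := fun g hg hl => by
    rcases cls_in hl (h.q1 hg (by norm_num)) with c | c | c | c | c
    · exact Or.inl c
    · obtain ⟨g', hg', e⟩ := mv (a := 4) (by simp) (by norm_num) g hg c
      exact absurd e (n4 g' hg')
    · obtain ⟨g', hg', e⟩ := mv (a := 6) (by simp) (by norm_num) g hg c
      exact absurd e (n6 g' hg')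
    · exact Or.inr ⟨24, _, by simp, c⟩
    · exact Or.inr ⟨72, _, by simp, c⟩
  refine (cl g hg hl).resolve_right fun ⟨a, S, hS, c⟩ => ?_
  have ha : a = 24 ∨ a = 72 := by simp at hS; omega
  obtain ⟨g, hg, e⟩ := mv (a := a) (S := S) (by simp at hS ⊢; tauto) (by omega) g hg c
  have hn : g ∉ MV k := h.not_mem (by omega)
  have e0 : gcode (eA 0) = me0 := code_eA (by norm_num)
  have hE : eA 0 ∈ X := h.le (eA_mem h.hk (by norm_num))
  have ee : eA 0 * eA 0 = 1 := C12.inj (by rw [code_mul e0 e0, C12.map_one]; decide +kernel)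
  obtain ⟨b, hb⟩ : ∃ b, b = g⁻¹ * eA 0 * g := ⟨_, rfl⟩
  have bX : b ∈ X := hb ▸ mul_mem (mul_mem (inv_mem hg) hE) hg
  have bb : b * b = 1 := by
    rw [hb, show g⁻¹ * eA 0 * g * (g⁻¹ * eA 0 * g) = g⁻¹ * (eA 0 * eA 0) * g by group, ee]; group
  have by' : ∀ y < 4096, sm g (sm b y ^^^ y) = ac me0 (sm g y) ^^^ sm g y := fun y hy => by
    rw [sm_xor g (sm_lt _ _) hy, hb, sm_mul _ _ hy, sm_mul _ _ (sm_lt _ _), sm_sm_inv g (sm_lt _ _),
      sm_code e0]
  have b1 : sm b 1 = 1 := by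
    have := by' 1 (by norm_num)
    rw [e, show ac me0 a = a by rcases ha with rfl | rfl <;> decide +kernel, Nat.xor_self,
      ← sm_zero g] at this
    exact Nat.xor_eq_zero_iff.1 (sm_inj g (xor12 (sm_lt _ _) (by norm_num)) (by norm_num) this)
  have bM := h.h1 b bX (by omega)
  have key : ∀ y < 4096, ∀ g' ∈ X, sm g' 1 = sm b y ^^^ y → sm g (sm b y ^^^ y) < 4 := by
    intro y hy g' hg' e'
    have h16 := lt_of_blt (allN_spec e0_all _ (sm_lt g y))
    rw [xor_def, ← by' y hy, ← e', ← sm_mul _ _ (by norm_num)] at h16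
    rw [← e', ← sm_mul _ _ (by norm_num)]
    refine (cl _ (mul_mem hg hg') (by omega)).resolve_right fun ⟨a, S, hS, c⟩ => ?_
    have : ∀ v < 16, R2s.testBit v = false ∧ R2n.testBit v = false := by decide +kernel
    simp only [List.mem_cons, Prod.mk.injEq, List.not_mem_nil, or_false] at hS
    rcases hS with ⟨-, rfl⟩ | ⟨-, rfl⟩
    exacts [absurd c (by rw [(this _ h16).1]; simp), absurd c (by rw [(this _ h16).2]; simp)]
  have h0 : ∀ y < 4096, sm b y ^^^ y < 4 → sm b y ^^^ y = 0 := fun y hy hl => by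
    by_contra c
    obtain ⟨m, hm, e'⟩ := (orb_M h.hk (b := 1) (S := 14) (by simp) (v := sm b y ^^^ y) (by omega)).2 (by
      generalize sm b y ^^^ y = w at hl c
      interval_cases w <;> first | exact absurd rfl c | decide)
    exact absurd (key y hy m (h.le hm) e') (not_lt.2 (h.ge4 hg hn c hl))
  have b2 : sm b 2 = 2 := Nat.xor_eq_zero_iff.1 (h0 2 (by norm_num)
    (Nat.xor_lt_two_pow (n := 2) (M_one h.hk bM (by norm_num)) (by norm_num)))
  obtain ⟨i1, i2⟩ := inv_spec h.hk bM b1 b2 bb h0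
  have hy0 := sm_lt g⁻¹ 256
  have w0 : sm g⁻¹ 1 = sm b (sm g⁻¹ 256) ^^^ sm g⁻¹ 256 := by
    refine sm_inv_eq (xor12 (sm_lt _ _) hy0) ?_
    rw [by' _ hy0, sm_sm_inv g (by norm_num)]
    decide +kernel
  rcases cl _ (inv_mem hg) (by rw [w0]; exact i1 _ hy0) with c | ⟨a', S', hS', c⟩
  · exact hn (inv_mem_iff.1 (h.h1 _ (inv_mem hg) c))
  have hS2 : (a', S') ∈ [(1, 14), (4, R1a), (6, R1b), (24, R2s), (72, R2n)] := by
    simp at hS' ⊢; tauto
  have ha' : a' < 4096 := by simp at hS'; omega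
  obtain ⟨g0, hg0, e0'⟩ := mv hS2 ha' _ (inv_mem hg) c
  obtain ⟨y1, hy1, y2, hy2, y3, hy3, m1, m2, m3, d⟩ := i2 S' (by simp at hS' ⊢; tauto) _ hy0 (by rw [← w0]; exact c)
  have lt : ∀ y < 4096, S'.testBit (sm b y ^^^ y) = true →
      sm g (sm b y ^^^ y) < 4 ∧ sm g (sm b y ^^^ y) ≠ 0 := fun y hy t => by
    obtain ⟨m, hm, e'⟩ := (orb_M h.hk hS2 (xor12 (sm_lt _ _) hy)).2 t
    have e2 : sm (m * g0) 1 = sm b y ^^^ y := by rw [sm_mul _ _ (by norm_num), e0', e']
    exact ⟨key y hy _ (mul_mem (h.le hm) hg0) e2, sm_ne (xor12 (sm_lt _ _) hy)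
      (by rw [← e2]; exact sm_ne (by norm_num) (by norm_num))⟩
  have l1 := xor12 (sm_lt b y1) hy1
  have l2 := xor12 (sm_lt b y2) hy2
  have l3 := xor12 (sm_lt b y3) hy3
  have a1 := lt y1 hy1 m1
  have a2 := lt y2 hy2 m2
  have a3 := lt y3 hy3 m3
  have d1 := _root_.mt (sm_inj g l1 l2) d.1
  have d2 := _root_.mt (sm_inj g l3 l1) d.2.1
  have d3 := _root_.mt (sm_inj g l3 l2) d.2.2.1
  have d4 := _root_.mt (sm_inj g l3 (xor12 l1 l2)) d.2.2.2
  rw [sm_xor g l1 l2] at d4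
  exact three4 _ a1.1 _ a2.1 _ a3.1 ⟨a1.2, a2.2, a3.2, d1, d2, d3, d4⟩

theorem caseC (n : ∀ g ∈ X, sm g 1 < 1024 → sm g 1 < 4) {g : GL12} (hg : g ∈ X) : g ∈ MV k := by
  by_contra hn
  have h4 := h.ge4 hg hn (i := 1) (by norm_num) (by norm_num)
  obtain ⟨a, ha, m, hm, e⟩ := cls_out h.hk (sm_lt g 1) (not_lt.1 fun c => absurd (n g hg c) (by omega))
    (h.q1 hg (by norm_num))
  have ha' : 1024 ≤ a ∧ a < 4096 := by simp at ha; omega
  obtain ⟨g, hg, rfl⟩ := h.move hg hm ha'.2 e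
  have hn : g ∉ MV k := h.not_mem (by omega)
  have big : ∀ i, i = 2 ∨ i = 3 → 1024 ≤ sm g i := fun i hi => not_lt.1 fun c => by
    have := h.ge4 hg hn (i := i) (by omega) (by omega)
    rcases hi with rfl | rfl
    · exact absurd (n _ (mul_mem hg h.xX) (by rwa [(sm_gx g).1])) (by rw [(sm_gx g).1]; omega)
    · exact absurd (n _ (mul_mem (mul_mem hg h.xX) h.xX) (by rwa [(sm_gx g).2.2.1]))
        (by rw [(sm_gx g).2.2.1]; omega)
  obtain ⟨c', hc', c2, c3, c4, c5⟩ := out_spec ha (sm_lt g 2) (h.q1 hg (by norm_num))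
    (by rw [Nat.xor_comm, ← sm_three]; exact h.q1 hg (by norm_num))
  obtain ⟨e, he, ec⟩ := mem_EL h.hk c' hc'
  rw [← sm_code ec] at c2 c3 c4 c5
  have eg : e * g ∈ X := mul_mem (h.le he) hg
  have e1 : sm (e * g) 1 = sm e (sm g 1) := sm_mul _ _ (by norm_num)
  have q0 : qA (sm e (sm g 1)) = 0 := by rw [← e1]; exact h.q1 eg (by norm_num)
  have p := h.perp hg (sm_lt e (sm g 1)) (by rw [q0, Nat.xor_comm]; exact c4)
    (by rw [q0, Nat.xor_comm]; exact c3)
  have e2 : sm (g⁻¹ * (e * g)) 1 = sm g⁻¹ (sm e (sm g 1)) := by rw [sm_mul _ _ (by norm_num), e1]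
  have l := n _ (mul_mem (inv_mem hg) eg) (by rw [e2]; exact p)
  have n0 := sm_ne (g := g⁻¹ * (e * g)) (u := 1) (by norm_num) (by norm_num)
  have e3 : sm e (sm g 1) = sm g (sm (g⁻¹ * (e * g)) 1) := by rw [e2, sm_sm_inv g (sm_lt _ _)]
  rcases (by omega : sm (g⁻¹ * (e * g)) 1 = 1 ∨ sm (g⁻¹ * (e * g)) 1 = 2 ∨
    sm (g⁻¹ * (e * g)) 1 = 3) with t | t | t <;> rw [t] at e3
  · exact c2 e3
  · rw [e3, Nat.xor_comm, ← sm_three] at c5
    exact absurd (big 3 (Or.inr rfl)) (by omega)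
  · rw [e3, sm_three, Nat.xor_comm, Nat.xor_assoc, Nat.xor_self, Nat.xor_zero] at c5
    exact absurd (big 2 (Or.inl rfl)) (by omega)

/-- the linear theorem -/
theorem main (hne : ∃ g ∈ X, g ∉ MV k) :
    ∃ p : GL12, X.map (MulAut.conj p).toMonoidHom = gen gcode LG := by
  have n6 : ∀ g ∈ X, sm g 1 ≠ 6 := fun g hg e =>
    absurd (h.caseA (p := 1) (by norm_num) hg e).2.1 (by norm_num)
  obtain ⟨g, hg, e⟩ : ∃ g ∈ X, sm g 1 = 4 := by
    by_contra c
    obtain ⟨g, hg, hn⟩ := hne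
    exact hn (h.caseC (fun g hg => h.caseB (fun g hg e => c ⟨g, hg, e⟩) n6 hg) hg)
  obtain ⟨rfl, -, t, ht, et⟩ := h.caseA (p := 0) (by norm_num) hg e
  obtain ⟨i, hi, et⟩ : ∃ i < 2, gcode t = lget [mt0, mt1] i :=
    et.elim (fun e => ⟨0, by norm_num, e⟩) fun e => ⟨1, by norm_num, e⟩
  have le : (gen gcode (LX' i) : Subgroup GL12) ≤ X := C12.gen_le fun c hc => by
    rcases List.mem_append.1 hc with hc | hc
    · exact (mem_LM h.hk c hc).mono h.le
    · exact ⟨t, ht, et.trans (List.mem_singleton.1 hc).symm⟩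
  have le' : MV 0 ≤ gen gcode (LX' i) := Subgroup.closure_mono fun _ hc => List.mem_append_left _ hc
  obtain ⟨p, hp⟩ := map_LX hi
  refine ⟨p, hp ▸ congrArg _ (le_antisymm (fun g hg => ?_) le)⟩
  have o := orbs_X i hi
  simp only [Bool.and_eq_true] at o
  have c := allN_spec o.2 (sm g 1) (sm_lt _ _)
  simp only [Bool.or_eq_true, Bool.not_eq_true'] at c
  rcases c with ((c | c) | c) | c
  · exact absurd (h.q1 hg (by norm_num)) (ne_of_beq c)
  · exact absurd (eq_of_beq c) (sm_ne (by norm_num) (by norm_num))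
  · obtain ⟨m, hm, e⟩ := (orb_spec (top_LX hi) (by norm_num) o.1.1 (sm_lt g 1)).2 (inMask_spec c)
    have := le' (h.h1 (m⁻¹ * g) (mul_mem (inv_mem (le hm)) hg) (by
      rw [sm_mul _ _ (by norm_num), sm_inv_eq (by norm_num) e]; norm_num))
    exact (mul_mem_cancel_left (inv_mem hm)).1 this
  · obtain ⟨m, hm, e⟩ := (orb_spec (top_LX hi) (by norm_num) o.1.2 (sm_lt g 1)).2 (inMask_spec c)
    exact absurd (by rw [sm_mul _ _ (by norm_num), sm_inv_eq (by norm_num) e])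
      (n6 (m⁻¹ * g) (mul_mem (inv_mem (le hm)) hg))

end LH

end CL.J4P
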