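import Cfsg.Agent.SPOR.J4P.Dat

/-!
Linear algebra for modules of `S5` on which the 3-cycles act without fixed points.
-/

set_option autoImplicit false
set_option maxRecDepth 100000

namespace CL.J4P

open CL.K CL.CG CL.F2M CL.F24 CL.J4 Matrix

attribute [local irreducible] gcode vcode

/-- relations of the generators `(0 1 2)`, `(0 1)`, `(3 4)`, `(0 1)(2 3)` -/
structure H5 (c s g f : GL12) : Prop where
  cc : ∀ v : W, c • c • v = v + c • v
  cf : ∀ v : W, c • f • c • f • v = v + c • f • v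
  t3 : ∀ v : W, g • f • s • g • f • s • v = v + g • f • s • v
  ss : ∀ v : W, s • s • v = v
  gg : ∀ v : W, g • g • v = v
  ff : ∀ v : W, f • f • v = v
  sc : ∀ v : W, s • c • v = c • c • s • v
  sg : ∀ v : W, s • g • v = g • s • v
  cg : ∀ v : W, c • g • v = g • c • v
  fs : ∀ v : W, f • s • v = s • f • v

theorem aa (u v : W) : u + (u + v) = v := by rw [← add_assoc, W_add_self, zero_add]

theorem W_eq {u v : W} : u + v = 0 ↔ u = v := by
  rw [add_eq_zero_iff_eq_neg, neg_eq_of_add_eq_zero_left (W_add_self _)]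

/-- spread three bits -/
def sp (a : ℕ) : ℕ := Nat.xor (Nat.xor (bit a 0) (Nat.mul 16 (bit a 1))) (Nat.mul 256 (bit a 2))

/-- the matrix `1 ⊗ A` -/
noncomputable def tens (a b c : ℕ) : ℕ := cols 12 fun k => 2 ^ (k % 4) * sp (lget [a, b, c] (k / 4))

theorem xor_ind {P : ℕ → Prop} (h0 : P 0) (h1 : ∀ k < 12, P (2 ^ k))
    (h2 : ∀ a < 4096, ∀ b < 4096, P a → P b → P (a ^^^ b)) : ∀ u < 4096, P u := by
  have k : ∀ n ≤ 12, ∀ u < 2 ^ n, P u := fun n hn => by
    induction n with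
    | zero => exact fun u hu => (show 0 = u by omega) ▸ h0
    | succ n ih =>
      intro u hu
      have l : 2 ^ (n + 1) ≤ 2 ^ 12 := Nat.pow_le_pow_right (by norm_num) hn
      by_cases h : u < 2 ^ n
      · exact ih (by omega) u h
      have e : u = (u - 2 ^ n) ^^^ 2 ^ n := by
        have h3 : u - 2 ^ n < 2 ^ n := by omega
        refine Nat.eq_of_testBit_eq fun i => ?_
        conv_lhs => rw [show u = 2 ^ n + (u - 2 ^ n) by omega]
        rw [Nat.testBit_xor, Nat.testBit_two_pow]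
        rcases lt_trichotomy i n with h4 | rfl | h4
        · rw [Nat.testBit_two_pow_add_gt h4, decide_eq_false h4.ne', Bool.xor_false]
        · rw [Nat.testBit_two_pow_add_eq, Nat.testBit_lt_two_pow h3]; simp
        · have h5 : 2 ^ (n + 1) ≤ 2 ^ i := Nat.pow_le_pow_right (by norm_num) h4
          rw [Nat.testBit_lt_two_pow (by omega), Nat.testBit_lt_two_pow (by omega), decide_eq_false h4.ne]
          rfl
      rw [e]
      exact h2 _ (by omega) _ (by omega) (ih (by omega) _ (by omega)) (h1 n (by omega))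
  exact k 12 le_rfl

/-- `P` carries the standard basis to `e_j, c e_j, g e_j, g c e_j` -/
structure Bas (c s g f P : GL12) : Prop where
  fix : ∀ j < 3, f • P • vdec 12 (16 ^ j) = P • vdec 12 (16 ^ j) ∧ s • P • vdec 12 (16 ^ j) = P • vdec 12 (16 ^ j)
  e1 : ∀ j < 3, P • vdec 12 (2 * 16 ^ j) = c • P • vdec 12 (16 ^ j)
  e2 : ∀ j < 3, P • vdec 12 (4 * 16 ^ j) = g • P • vdec 12 (16 ^ j)
  e3 : ∀ j < 3, P • vdec 12 (8 * 16 ^ j) = g • c • P • vdec 12 (16 ^ j)
  sur : ∀ w : W, f • w = w → s • w = w → ∃ a < 8, w = P • vdec 12 (sp a) ∧ c • w = P • vdec 12 (2 * sp a) ∧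
    g • w = P • vdec 12 (4 * sp a) ∧ g • c • w = P • vdec 12 (8 * sp a)
  card : Nat.card (Fx f ⊓ Fx s : AddSubgroup W) = 8

namespace H5

variable {c s g f : GL12} (h : H5 c s g f)
include h

theorem c3 (v : W) : c • c • c • v = v := by rw [h.cc, h.cc, add_comm v, aa]

theorem fc {v : W} (hv : f • v = v) : f • c • v = c • v := by
  have := h.cf v
  rw [hv, ← h.cc] at this
  exact MulAction.injective c this

theorem fg {v : W} (hv : f • v = v) : f • g • v = g • v + s • v := by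
  have := congrArg (g • ·) (h.t3 v)
  simp only [h.fs v, hv, h.gg, smul_add, h.sg, h.ss] at this
  exact this

theorem sc' {v : W} (hv : s • v = v) : s • c • v = v + c • v := by rw [h.sc, hv, h.cc]

theorem dec1 (v : W) : ∃ a b : W, f • a = a ∧ f • b = b ∧ v = a + g • b := by
  have h1 : f • s • (v + f • v) = s • (v + f • v) := by rw [h.fs, smul_add f, h.ff, add_comm]
  refine ⟨v + g • s • (v + f • v), _, ?_, h1, by rw [add_assoc, W_add_self, add_zero]⟩
  rw [smul_add, h.fg h1, h.ss, add_comm v (f • v), add_left_comm, aa, add_comm]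

theorem dec2 {v : W} (hv : f • v = v) :
    ∃ a b : W, (f • a = a ∧ s • a = a) ∧ (f • b = b ∧ s • b = b) ∧ v = a + c • b := by
  have h1 : f • (v + s • v) = v + s • v := by rw [smul_add, h.fs, hv]
  have h2 : s • (v + s • v) = v + s • v := by rw [smul_add, h.ss, add_comm]
  refine ⟨v + c • (v + s • v), _, ⟨by rw [smul_add, hv, h.fc h1], ?_⟩, ⟨h1, h2⟩,
    by rw [add_assoc, W_add_self, add_zero]⟩
  rw [smul_add, h.sc' h2, ← add_assoc, add_comm v (s • v), aa]

theorem uniq {a b d e : W} (ha : f • a = a ∧ s • a = a) (hb : f • b = b ∧ s • b = b)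
    (hd : f • d = d ∧ s • d = d) (he : f • e = e ∧ s • e = e) (H : a + c • b + g • (d + c • e) = 0) :
    a = 0 ∧ b = 0 ∧ d = 0 ∧ e = 0 := by
  have k : ∀ {a b : W}, s • a = a → s • b = b → a + c • b = 0 → a = 0 ∧ b = 0 := fun {a b} ha hb H => by
    have := congrArg (s • ·) H
    simp only [smul_add, ha, h.sc' hb, smul_zero] at this
    rw [add_left_comm, H, add_zero] at this
    rw [this, smul_zero, add_zero] at H
    exact ⟨H, this⟩
  have h1 := congrArg (f • ·) H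
  simp only [smul_add f, ha.1, h.fc hb.1, h.fg (show f • (d + c • e) = d + c • e by
    rw [smul_add, hd.1, h.fc he.1]), smul_zero] at h1
  rw [← add_assoc, H, zero_add, smul_eq_zero_iff_eq] at h1
  rw [h1, smul_zero, add_zero] at H
  exact ⟨(k ha.2 hb.2 H).1, (k ha.2 hb.2 H).2, k hd.2 he.2 h1⟩

theorem card_W0 : Nat.card (Fx f ⊓ Fx s : AddSubgroup W) = 8 := by
  let Φ : (Fx f ⊓ Fx s : AddSubgroup W) × (Fx f ⊓ Fx s : AddSubgroup W) × (Fx f ⊓ Fx s : AddSubgroup W) ×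
      (Fx f ⊓ Fx s : AddSubgroup W) →+ W := AddMonoidHom.mk'
    (fun x => x.1 + c • (x.2.1 : W) + g • ((x.2.2.1 : W) + c • (x.2.2.2 : W))) fun x y => by
      simp only [Prod.fst_add, Prod.snd_add, AddSubgroup.coe_add, smul_add]; abel
  have h1 : Function.Bijective Φ := by
    refine ⟨(injective_iff_map_eq_zero _).2 fun x hx => ?_, fun v => ?_⟩
    · obtain ⟨a, b, d, e⟩ := h.uniq x.1.2 x.2.1.2 x.2.2.1.2 x.2.2.2.2 hx
      exact Prod.ext (Subtype.ext a) (Prod.ext (Subtype.ext b) (Prod.ext (Subtype.ext d) (Subtype.ext e)))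
    · obtain ⟨a, b, ha, hb, rfl⟩ := h.dec1 v
      obtain ⟨a1, a2, k1, k2, rfl⟩ := h.dec2 ha
      obtain ⟨b1, b2, k3, k4, rfl⟩ := h.dec2 hb
      exact ⟨(⟨a1, k1⟩, ⟨a2, k2⟩, ⟨b1, k3⟩, ⟨b2, k4⟩), rfl⟩
  have h2 := Nat.card_eq_of_bijective _ h1
  rw [card_W, Nat.card_prod, Nat.card_prod, Nat.card_prod] at h2
  exact Nat.pow_left_injective (n := 4) (by norm_num) (by simp only []; rw [show (8 : ℕ) ^ 4 = 2 ^ 12 by norm_num, ← h2]; ring)

theorem exists_bas : ∃ P, Bas c s g f P := by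
  let U : Submodule (ZMod 2) W := AddSubgroup.toZModSubmodule 2 (Fx f ⊓ Fx s)
  have hU : Module.finrank (ZMod 2) U = 3 := by
    have := Module.natCard_eq_pow_finrank (K := ZMod 2) (V := U)
    rw [show Nat.card U = 8 from h.card_W0, Nat.card_zmod] at this
    exact Nat.pow_right_injective le_rfl this.symm
  let b := Module.finBasisOfFinrankEq (ZMod 2) U hU
  let n : Fin 4 → GL12 := ![1, c, g, g * c]
  obtain ⟨M, hM⟩ : ∃ M : Matrix (Fin 12) (Fin 12) (ZMod 2), ∀ (i : Fin 4) (j : Fin 3),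
      M *ᵥ vdec 12 (2 ^ (i : ℕ) * 16 ^ (j : ℕ)) = n i • (b j : W) := by
    have k : ∀ F : Fin 4 → Fin 3 → W, ∃ M : Matrix (Fin 12) (Fin 12) (ZMod 2), ∀ (i : Fin 4) (j : Fin 3),
        M *ᵥ vdec 12 (2 ^ (i : ℕ) * 16 ^ (j : ℕ)) = F i j := fun F => by
      refine ⟨Matrix.of fun r k => F ⟨k % 4, by omega⟩ ⟨k / 4, by omega⟩ r, fun i j => ?_⟩
      have := vdec_two_pow (⟨4 * j + i, by omega⟩ : Fin 12)
      rw [show (16 : ℕ) = 2 ^ 4 from rfl, ← pow_mul, ← pow_add, add_comm, this, mulVec_single_one]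
      exact congrArg₂ F (Fin.ext (by show (4 * (j : ℕ) + (i : ℕ)) % 4 = (i : ℕ); omega))
        (Fin.ext (by show (4 * (j : ℕ) + (i : ℕ)) / 4 = (j : ℕ); omega))
    exact k _
  have hx : ∀ a b, M *ᵥ vdec 12 (a ^^^ b) = M *ᵥ vdec 12 a + M *ᵥ vdec 12 b := fun a b => by
    rw [vdec_xor, mulVec_add]
  have hs : ∀ w : U, ∃ a < 8, ∀ i : Fin 4, n i • (w : W) = M *ᵥ vdec 12 (2 ^ (i : ℕ) * sp a) := fun w => by
    have hw : w ∈ Submodule.span (ZMod 2) (Set.range b) := b.span_eq ▸ Submodule.mem_top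
    induction hw using Submodule.span_induction with
    | mem x hx =>
      obtain ⟨j, rfl⟩ := hx
      exact ⟨2 ^ (j : ℕ), by revert j; decide, fun i => by
        rw [← hM, show sp (2 ^ (j : ℕ)) = 16 ^ (j : ℕ) by revert j; decide]⟩
    | zero => exact ⟨0, by norm_num, fun i => by
        rw [show sp 0 = 0 from rfl, mul_zero, vdec_zero, mulVec_zero]; exact smul_zero _⟩
    | add x y _ _ h1 h2 =>
      obtain ⟨a, ha, h1⟩ := h1
      obtain ⟨a', ha', h2⟩ := h2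
      refine ⟨a ^^^ a', xor8 ha ha', fun i => ?_⟩
      rw [Submodule.coe_add, smul_add, h1, h2, ← hx]
      exact congrArg (fun x => M *ᵥ vdec 12 x) ((show ∀ a < 8, ∀ a' < 8, ∀ i : Fin 4,
        2 ^ (i : ℕ) * sp a ^^^ 2 ^ (i : ℕ) * sp a' = 2 ^ (i : ℕ) * sp (a ^^^ a') by decide +kernel) a ha a' ha' i)
    | smul t x _ h1 =>
      rcases (show ∀ t : ZMod 2, t = 0 ∨ t = 1 by decide) t with rfl | rfl
      · exact ⟨0, by norm_num, fun i => by
          rw [show sp 0 = 0 from rfl, mul_zero, vdec_zero, mulVec_zero, zero_smul]; exact smul_zero _⟩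
      · rwa [one_smul]
  have hu : IsUnit M := by
    refine mulVec_surjective_iff_isUnit.1 fun v => ?_
    obtain ⟨a, b, ha, hb, rfl⟩ := h.dec1 v
    obtain ⟨a1, a2, k1, k2, rfl⟩ := h.dec2 ha
    obtain ⟨b1, b2, k3, k4, rfl⟩ := h.dec2 hb
    obtain ⟨x1, -, e1⟩ := hs ⟨a1, k1⟩
    obtain ⟨x2, -, e2⟩ := hs ⟨a2, k2⟩
    obtain ⟨x3, -, e3⟩ := hs ⟨b1, k3⟩
    obtain ⟨x4, -, e4⟩ := hs ⟨b2, k4⟩
    have e5 := congrArg₂ (· + ·) (congrArg₂ (· + ·) (e1 0) (e2 1)) (congrArg₂ (· + ·) (e3 2) (e4 3))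
    simp only [← mulVec_add] at e5
    refine ⟨_, e5.symm.trans ?_⟩
    rw [smul_add]
    exact congrArg₂ _ (congrArg₂ _ (one_smul _ _) rfl) (congrArg₂ _ rfl (mul_smul _ _ _))
  have hP : ∀ v : W, (hu.unit : GL12) • v = M *ᵥ v := fun _ => rfl
  have h0 : ∀ j : Fin 3, M *ᵥ vdec 12 (16 ^ (j : ℕ)) = b j := fun j => by
    simpa [n] using hM 0 j
  refine ⟨hu.unit, fun j hj => ?_, fun j hj => ?_, fun j hj => ?_, fun j hj => ?_, fun w h1 h2 => ?_, h.card_W0⟩
  · rw [hP, h0 ⟨j, hj⟩]; exact (b ⟨j, hj⟩).2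
  · rw [hP, hP, h0 ⟨j, hj⟩]; exact hM 1 ⟨j, hj⟩
  · rw [hP, hP, h0 ⟨j, hj⟩]; exact hM 2 ⟨j, hj⟩
  · rw [hP, hP, h0 ⟨j, hj⟩, ← mul_smul]; exact hM 3 ⟨j, hj⟩
  · obtain ⟨a, ha, e⟩ := hs ⟨w, h1, h2⟩
    refine ⟨a, ha, ?_, e 1, e 2, (mul_smul _ _ _).symm.trans (e 3)⟩
    simpa [n] using e 0

end H5

theorem code_of {P X : GL12} {A : ℕ} (hA : A < 2 ^ (12 * 12))
    (h : ∀ j < 3, ∀ i < 4, X • P • vdec 12 (2 ^ i * 16 ^ j) = P • vdec 12 (fld 12 4095 A (4 * j + i))) :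
    gcode (P⁻¹ * X * P) = A := by
  unfold gcode
  refine mcode_eq_of_cols hA fun k => (vcode_eq_iff (Nat.lt_succ_of_le (fld_le _ _ _ _))).2 ?_
  have := h (k / 4) (by omega) (k % 4) (by omega)
  rw [show (16 : ℕ) = 2 ^ 4 from rfl, ← pow_mul, ← pow_add, add_comm, Nat.div_add_mod, vdec_two_pow] at this
  rw [← gl_smul, mul_smul, mul_smul, this, inv_smul_smul]
  rfl

namespace Bas

variable {c s g f P : GL12} (h : H5 c s g f) (b : Bas c s g f P)
include h b

theorem code_c : gcode (P⁻¹ * c * P) = jc := by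
  have k : ∀ j < 3, fld 12 4095 jc (4 * j + 0) = 2 * 16 ^ j ∧ fld 12 4095 jc (4 * j + 1) = 16 ^ j ^^^ 2 * 16 ^ j ∧
      fld 12 4095 jc (4 * j + 2) = 8 * 16 ^ j ∧ fld 12 4095 jc (4 * j + 3) = 4 * 16 ^ j ^^^ 8 * 16 ^ j := by
    decide +kernel
  refine code_of (by decide) fun j hj i hi => ?_
  obtain ⟨k0, k1, k2, k3⟩ := k j hj
  interval_cases i <;>
    simp only [k0, k1, k2, k3, vdec_xor, smul_add, Nat.reducePow, one_mul, b.e1 j hj, b.e2 j hj, b.e3 j hj,
      h.cc, h.cg]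

theorem code_s : gcode (P⁻¹ * s * P) = js := by
  have k : ∀ j < 3, fld 12 4095 js (4 * j + 0) = 16 ^ j ∧ fld 12 4095 js (4 * j + 1) = 16 ^ j ^^^ 2 * 16 ^ j ∧
      fld 12 4095 js (4 * j + 2) = 4 * 16 ^ j ∧ fld 12 4095 js (4 * j + 3) = 4 * 16 ^ j ^^^ 8 * 16 ^ j := by
    decide +kernel
  refine code_of (by decide) fun j hj i hi => ?_
  obtain ⟨k0, k1, k2, k3⟩ := k j hj
  interval_cases i <;>
    simp only [k0, k1, k2, k3, vdec_xor, smul_add, Nat.reducePow, one_mul, b.e1 j hj, b.e2 j hj, b.e3 j hj,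
      h.sg, h.sc' (b.fix j hj).2, (b.fix j hj).2]

theorem code_g : gcode (P⁻¹ * g * P) = jg := by
  have k : ∀ j < 3, fld 12 4095 jg (4 * j + 0) = 4 * 16 ^ j ∧ fld 12 4095 jg (4 * j + 1) = 8 * 16 ^ j ∧
      fld 12 4095 jg (4 * j + 2) = 16 ^ j ∧ fld 12 4095 jg (4 * j + 3) = 2 * 16 ^ j := by
    decide +kernel
  refine code_of (by decide) fun j hj i hi => ?_
  obtain ⟨k0, k1, k2, k3⟩ := k j hj
  interval_cases i <;>
    simp only [k0, k1, k2, k3, Nat.reducePow, one_mul, b.e1 j hj, b.e2 j hj, b.e3 j hj, h.gg]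

theorem code_f : gcode (P⁻¹ * f * P) = jf := by
  have k : ∀ j < 3, fld 12 4095 jf (4 * j + 0) = 16 ^ j ∧ fld 12 4095 jf (4 * j + 1) = 2 * 16 ^ j ∧
      fld 12 4095 jf (4 * j + 2) = 4 * 16 ^ j ^^^ 16 ^ j ∧
      fld 12 4095 jf (4 * j + 3) = 8 * 16 ^ j ^^^ (16 ^ j ^^^ 2 * 16 ^ j) := by
    decide +kernel
  refine code_of (by decide) fun j hj i hi => ?_
  obtain ⟨k0, k1, k2, k3⟩ := k j hj
  interval_cases i <;>
    simp only [k0, k1, k2, k3, vdec_xor, smul_add, Nat.reducePow, one_mul, b.e1 j hj, b.e2 j hj, b.e3 j hj,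
      h.fc (b.fix j hj).1, h.fg (b.fix j hj).1, h.fg (h.fc (b.fix j hj).1), h.sc' (b.fix j hj).2,
      (b.fix j hj).1, (b.fix j hj).2]

omit h in
theorem code_comm {x : GL12} (hc : x * c = c * x) (hs : x * s = s * x) (hg : x * g = g * x)
    (hf : x * f = f * x) : P⁻¹ * x * P ∈ (gen gcode LW : Subgroup GL12) := by
  have k : ∀ {y : GL12}, x * y = y * x → ∀ v : W, x • y • v = y • x • v := fun e v => by
    rw [← mul_smul, e, mul_smul]
  have h1 : ∀ j < 3, ∃ a < 8, ∀ i < 4, x • P • vdec 12 (2 ^ i * 16 ^ j) = P • vdec 12 (2 ^ i * sp a) := by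
    intro j hj
    obtain ⟨a, ha, e0, e1, e2, e3⟩ := b.sur (x • P • vdec 12 (16 ^ j)) (by rw [← k hf, (b.fix j hj).1])
      (by rw [← k hs, (b.fix j hj).2])
    refine ⟨a, ha, fun i hi => ?_⟩
    interval_cases i <;>
      simp only [Nat.reducePow, one_mul, b.e1 j hj, b.e2 j hj, b.e3 j hj, k hc, k hg, ← e1, ← e2, ← e3]
    exact e0
  obtain ⟨a0, l0, e0⟩ := h1 0 (by norm_num)
  obtain ⟨a1, l1, e1⟩ := h1 1 (by norm_num)
  obtain ⟨a2, l2, e2⟩ := h1 2 (by norm_num)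
  have k1 : ∀ a0 < 8, ∀ a1 < 8, ∀ a2 < 8, tens a0 a1 a2 < 2 ^ (12 * 12) ∧ (∀ j < 3, ∀ i < 4,
      fld 12 4095 (tens a0 a1 a2) (4 * j + i) = 2 ^ i * sp (lget [a0, a1, a2] j)) ∧
      ((∃ a < 7, ac (tens a0 a1 a2) (sp (a + 1)) = 0) ∨
        force (tens a0 a1 a2) (fun t => anyLt (fun j => Nat.beq (TW j) t) 168) = true) := by
    decide +kernel
  obtain ⟨k2, k3, k4⟩ := k1 a0 l0 a1 l1 a2 l2
  have e : gcode (P⁻¹ * x * P) = tens a0 a1 a2 := code_of k2 fun j hj i hi => by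
    rw [k3 j hj i hi]
    interval_cases j
    exacts [e0 i hi, e1 i hi, e2 i hi]
  rcases k4 with ⟨a, ha, k4⟩ | k4
  · have l : ∀ a < 7, sp (a + 1) < 2 ^ 12 ∧ sp (a + 1) ≠ 0 := by decide
    rw [← e, ← vcode_vdec (l a ha).1, ac_code, ← vcode_zero (n := 12), vcode_injective.eq_iff,
      smul_eq_zero_iff_eq] at k4
    exact absurd (by rw [← vcode_vdec (l a ha).1, k4, vcode_zero]) (l a ha).2
  · rw [force_eq] at k4
    obtain ⟨j, hj, k5⟩ := anyLt_iff.1 k4
    exact C12.mem_iff.1 (e ▸ eq_of_beq k5 ▸ sound_TW j hj)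

end Bas

/-- an invariant quadratic map with its polar map -/
structure Fm {A : Type*} [AddCommGroup A] (c s g f : GL12) (B : W → W → A) (Q : W → A) : Prop where
  add : ∀ u u' v, B (u + u') v = B u v + B u' v
  symm : ∀ u v, B u v = B v u
  two : ∀ a : A, a + a = 0
  q : ∀ u v, Q (u + v) = Q u + Q v + B u v
  inv : ∀ x ∈ [c, s, g, f], ∀ v, Q (x • v) = Q v

/-- combination of three elements -/
def cb {A : Type*} [AddCommGroup A] (x y z : A) (n : ℕ) : A := bit n 0 • x + bit n 1 • y + bit n 2 • z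

theorem cb_xor {A : Type*} [AddCommGroup A] (h : ∀ a : A, a + a = 0) (x y z : A) (a b : ℕ) :
    cb x y z (a ^^^ b) = cb x y z a + cb x y z b := by
  have k : ∀ i (x : A), bit (a ^^^ b) i • x = bit a i • x + bit b i • x := fun i x => by
    rw [bit_eq, bit_eq, bit_eq, Nat.testBit_xor]
    cases a.testBit i <;> cases b.testBit i <;> simp [h]
  simp only [cb, k]
  abel

namespace Fm

variable {A : Type*} [AddCommGroup A] {c s g f P : GL12} {B : W → W → A} {Q : W → A} (m : Fm c s g f B Q)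
include m

theorem add' (u v v' : W) : B u (v + v') = B u v + B u v' := by rw [m.symm, m.add, m.symm v, m.symm v']

theorem zero (v : W) : B 0 v = 0 := by
  have := m.add 0 0 v
  rwa [add_zero, m.two] at this

theorem q_zero : Q 0 = 0 := by
  have := m.q 0 0
  rwa [add_zero, m.two, m.zero, add_zero] at this

theorem binv {x : GL12} (hx : x ∈ [c, s, g, f]) (u v : W) : B (x • u) (x • v) = B u v := by
  have := m.q (x • u) (x • v)
  rwa [← smul_add, m.inv x hx, m.inv x hx, m.inv x hx, m.q, add_right_inj, eq_comm] at this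

variable (h : H5 c s g f)
include h

theorem b11 {u v : W} (hu : f • u = u) (hv : f • v = v) : B u v = 0 := by
  have e := h.fg (v := s • u) (by rw [h.fs, hu])
  rw [h.ss] at e
  have := m.binv (x := f) (by simp) (g • s • u) v
  rwa [e, hv, m.add, add_eq_left] at this

theorem q0 {w : W} (h1 : f • w = w) : Q w = 0 := by
  have := m.q w (c • w)
  rwa [← h.cc, m.inv c (by simp), m.inv c (by simp), m.two, m.b11 h h1 (h.fc h1), add_zero] at this

theorem p02 {w w' : W} (h1 : s • w = w) (h2 : s • w' = w') : B w (g • w') = 0 := by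
  have := m.binv (x := s) (by simp) w (g • c • w')
  rwa [h1, h.sg, h.sc' h2, smul_add, m.add', add_eq_right] at this

theorem p13 {w w' : W} (h1 : s • w = w) (h2 : s • w' = w') : B (c • w) (g • c • w') = 0 := by
  rw [← h.cg, m.binv (by simp), m.p02 h h1 h2]

theorem p12 {w w' : W} (h1 : s • w = w) (h2 : s • w' = w') : B (c • w) (g • w') = B w (g • c • w') := by
  have := m.binv (x := c) (by simp) w (g • c • w')
  rwa [h.cg, h.cc, smul_add, m.add', m.p13 h h1 h2, add_zero] at this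

theorem sw (u v : W) : B (g • u) v = B u (g • v) := by rw [← m.binv (x := g) (by simp), h.gg]

theorem bsymm {w w' : W} (h1 : s • w = w) (h2 : s • w' = w') : B w (g • c • w') = B w' (g • c • w) := by
  rw [← m.p12 h h1 h2, ← m.sw h, m.symm]

theorem bself {w : W} (h1 : f • w = w) (h2 : s • w = w) : B w (g • c • w) = 0 := by
  have e : s • c • f • g • c • w = w + g • c • w := by
    simp only [h.fg (h.fc h1), h.sc' h2, smul_add, h.cg, h.cc, h.sg, h2]
    linear_combination W_add_self (g • w) + W_add_self w + W_add_self (c • w)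
  have := m.q w (g • c • w)
  rw [← e] at this
  simp only [m.inv c (by simp), m.inv s (by simp), m.inv g (by simp), m.inv f (by simp), m.q0 h h1,
    zero_add] at this
  exact this.symm

theorem coord (b : Bas c s g f P) : ∃ x y z : A, (∀ u < 4096, ∀ v < 4096,
    B (P • vdec 12 u) (P • vdec 12 v) = cb x y z (cmC u v)) ∧
      ∀ u < 4096, Q (P • vdec 12 u) = cb x y z (sqC u) := by
  let e : ℕ → W := fun j => P • vdec 12 (16 ^ j)
  let ζ := cb (B (e 1) (g • c • e 2)) (B (e 2) (g • c • e 0)) (B (e 0) (g • c • e 1))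
  have z0 : ζ 0 = 0 := by simp [ζ, cb, bit_eq]
  have h1 : ∀ j < 3, ∀ l < 3, B (e j) (g • c • e l) = ζ (cmC (16 ^ j) (8 * 16 ^ l)) := fun j hj l hl => by
    have s0 := (b.fix 0 (by norm_num)).2
    have s1 := (b.fix 1 (by norm_num)).2
    have s2 := (b.fix 2 (by norm_num)).2
    have t : ∀ j < 3, ∀ l < 3, cmC (16 ^ j) (8 * 16 ^ l) = [0, 4, 2, 4, 0, 1, 2, 1, 0].getD (3 * j + l) 0 := by
      decide +kernel
    have t0 : ∀ j < 3, B (e j) (g • c • e j) = ζ 0 := fun j hj =>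
      (m.bself h (b.fix j hj).1 (b.fix j hj).2).trans z0.symm
    have t1 : B (e 1) (g • c • e 2) = ζ 1 := by simp [ζ, cb, bit_eq, Nat.testBit]
    have t2 : B (e 2) (g • c • e 0) = ζ 2 := by simp [ζ, cb, bit_eq, Nat.testBit]
    have t4 : B (e 0) (g • c • e 1) = ζ 4 := by simp [ζ, cb, bit_eq, Nat.testBit]
    rw [t j hj l hl]
    interval_cases j <;> interval_cases l
    exacts [t0 0 hj, t4, (m.bsymm h s0 s2).trans t2, (m.bsymm h s1 s0).trans t4, t0 1 hj, t1, t2,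
      (m.bsymm h s2 s1).trans t1, t0 2 hj]
  have hp : ∀ k < 12, ∃ j < 3, ∃ i < 4, 2 ^ k = 2 ^ i * 16 ^ j := by decide
  have h2 : ∀ u < 4096, ∀ v < 4096, B (P • vdec 12 u) (P • vdec 12 v) = ζ (cmC u v) := by
    refine xor_ind (fun v _ => by rw [vdec_zero, smul_zero, m.zero, cmC_zero, z0]) (fun k hk => ?_)
      fun a _ a' _ ha ha' v hv => by
        rw [vdec_xor, smul_add, m.add, ha v hv, ha' v hv, cmC_xor, ← cb_xor m.two]
    refine xor_ind (by rw [vdec_zero, smul_zero, m.symm, m.zero, cmC_comm, cmC_zero, z0]) (fun k' hk' => ?_)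
      fun a _ a' _ ha ha' => by rw [vdec_xor, smul_add, m.add', ha, ha', cmC_xor', ← cb_xor m.two]
    obtain ⟨j, hj, i, hi, e1⟩ := hp k hk
    obtain ⟨l, hl, i', hi', e2⟩ := hp k' hk'
    have t : ∀ j < 3, ∀ l < 3, ∀ i < 4, ∀ i' < 4, cmC (2 ^ i * 16 ^ j) (2 ^ i' * 16 ^ l) =
      if i + i' = 3 then cmC (16 ^ j) (8 * 16 ^ l) else 0 := by decide +kernel
    obtain ⟨f1, s1⟩ := b.fix j hj
    obtain ⟨f2, s2⟩ := b.fix l hl
    have a1 := m.b11 h f1 f2
    have a2 := m.b11 h f1 (h.fc f2)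
    have a3 := m.b11 h (h.fc f1) f2
    have a4 := m.b11 h (h.fc f1) (h.fc f2)
    rw [e1, e2, t j hj l hl i hi i' hi']
    interval_cases i <;> interval_cases i' <;>
      simp only [Nat.reducePow, one_mul, b.e1 j hj, b.e2 j hj, b.e3 j hj, b.e1 l hl, b.e2 l hl, b.e3 l hl,
        Nat.reduceAdd, Nat.reduceEqDiff, if_true, if_false, z0, ← h1 j hj l hl, m.sw h, h.gg, a1, a2, a3, a4,
        m.p02 h s1 s2, m.p13 h s1 s2, m.p12 h s1 s2, e]
  refine ⟨_, _, _, h2, xor_ind (by rw [vdec_zero, smul_zero, m.q_zero]; exact z0.symm) (fun k hk => ?_)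
    fun a ha a' ha' e1 e2 => by
      rw [vdec_xor, smul_add, m.q, e1, e2, h2 a ha a' ha', sqC_xor, cb_xor m.two, cb_xor m.two]⟩
  obtain ⟨j, hj, i, hi, e1⟩ := hp k hk
  rw [(show ∀ k < 12, sqC (2 ^ k) = 0 by decide +kernel) k hk, e1]
  refine Eq.trans ?_ z0.symm
  interval_cases i <;>
    simp only [Nat.reducePow, one_mul, b.e1 j hj, b.e2 j hj, b.e3 j hj, m.inv c (by simp), m.inv g (by simp),
      m.q0 h (b.fix j hj).1]

end Fm

end CL.J4P
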