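import Cfsg.Agent.SPOR.J4P.PC
import Cfsg.Agent.SPOR.J4P.ModA
import Cfsg.Agent.PLOC.PFrattini
import Cfsg.Agent.CLAS.SLBasic
import Cfsg.Prelude.Def_JankoFourType
import Cfsg.Prelude.Def_CaseTheorems

/-!
Identification of the module `L / Z` of `S5 × L3(2)`.
-/

set_option autoImplicit false
set_option maxRecDepth 100000
set_option linter.unusedSectionVars false
set_option linter.unusedVariables false

namespace CL.J4P

open CL.K CL.CG CL.F2M CL.F24 CL.J4 CL.LX CL.MSS Cfsg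

attribute [local irreducible] gcode vcode

variable {G : Type*} [Group G]

namespace Md

/-- coordinates on an elementary abelian section of order `2 ^ 12` -/
theorem exists_pre [Finite G] {K L Z : Subgroup G} (hZL : Z ≤ L) (hL : Nat.card L = 2 ^ 15)
    (hZ : Nat.card Z = 8) (hsq : ∀ a ∈ L, a * a ∈ Z) (hcm : ∀ a ∈ L, ∀ b ∈ L, a * b * a⁻¹ * b⁻¹ ∈ Z)
    (hKL : ∀ k ∈ K, ∀ a ∈ L, k * a * k⁻¹ ∈ L) (hKZ : ∀ k ∈ K, ∀ a ∈ Z, k * a * k⁻¹ ∈ Z) :
    ∃ (κ : G → W) (ρ : K →* GL12), (∀ a ∈ L, ∀ b ∈ L, κ (a * b) = κ a + κ b) ∧ (∀ v, ∃ a ∈ L, κ a = v) ∧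
      (∀ a ∈ L, κ a = 0 ↔ a ∈ Z) ∧ ∀ k : K, ∀ a ∈ L, κ (k * a * (k : G)⁻¹) = ρ k • κ a := by
  classical
  have hN : (Z.subgroupOf L).Normal := ⟨fun n hn g => by
    have := Z.mul_mem (hcm g g.2 n n.2) (show (n : G) ∈ Z from hn)
    rwa [inv_mul_cancel_right] at this⟩
  let _ : CommGroup (L ⧸ Z.subgroupOf L) := { (inferInstance : Group (L ⧸ Z.subgroupOf L)) with
    mul_comm := fun x y => by
      obtain ⟨x, rfl⟩ := QuotientGroup.mk_surjective x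
      obtain ⟨y, rfl⟩ := QuotientGroup.mk_surjective y
      refine QuotientGroup.eq.2 ?_
      have := hcm _ (L.inv_mem y.2) _ (L.inv_mem x.2)
      rw [inv_inv, inv_inv, mul_assoc, ← mul_inv_rev] at this
      exact this }
  let _ : Module (ZMod 2) (Additive (L ⧸ Z.subgroupOf L)) := AddCommGroup.zmodModule fun x => by
    obtain ⟨y, hy⟩ := QuotientGroup.mk_surjective x.toMul
    rw [two_smul]
    exact Additive.toMul.injective (by
      rw [toMul_add, ← hy]; exact (QuotientGroup.eq_one_iff (y * y)).2 (hsq y y.2))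
  have hr : Module.finrank (ZMod 2) (Additive (L ⧸ Z.subgroupOf L)) = 12 := by
    have h1 := Module.natCard_eq_pow_finrank (K := ZMod 2) (V := Additive (L ⧸ Z.subgroupOf L))
    have h2 := Subgroup.card_eq_card_quotient_mul_card_subgroup (Z.subgroupOf L)
    rw [hL, Nat.card_congr (Subgroup.subgroupOfEquivOfLe hZL).toEquiv, hZ] at h2
    rw [Nat.card_zmod, show Nat.card (Additive (L ⧸ Z.subgroupOf L)) = 2 ^ 12 from
      (show Nat.card (L ⧸ Z.subgroupOf L) = 2 ^ 12 by omega)] at h1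
    exact Nat.pow_right_injective le_rfl h1.symm
  let e : Additive (L ⧸ Z.subgroupOf L) ≃ₗ[ZMod 2] W := LinearEquiv.ofFinrankEq _ _ (by simp [hr])
  let κ : G → W := fun g => if hg : g ∈ L then e (Additive.ofMul (QuotientGroup.mk ⟨g, hg⟩)) else 0
  have hκ : ∀ x (hx : x ∈ L), κ x = e (Additive.ofMul (QuotientGroup.mk ⟨x, hx⟩)) := fun x hx => dif_pos hx
  have hm : ∀ x ∈ L, ∀ y ∈ L, κ (x * y) = κ x + κ y := fun x hx y hy => by
    rw [hκ x hx, hκ y hy, hκ _ (mul_mem hx hy), ← map_add]; rfl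
  have hs : ∀ v, ∃ x ∈ L, κ x = v := fun v => by
    obtain ⟨x, hx⟩ := QuotientGroup.mk_surjective (e.symm v).toMul
    exact ⟨x, x.2, by rw [hκ x x.2, hx, ofMul_toMul, e.apply_symm_apply]⟩
  have hk : ∀ x ∈ L, κ x = 0 ↔ x ∈ Z := fun x hx => by
    rw [hκ x hx, map_eq_zero_iff _ e.injective, ofMul_eq_zero, QuotientGroup.eq_one_iff]; rfl
  choose σ h1 h2 using hs
  have cj : ∀ g : K, ∀ x ∈ L, g * x * (g : G)⁻¹ ∈ L := fun g => hKL g g.2
  have key : ∀ g : K, ∀ x ∈ L, κ (g * σ (κ x) * (g : G)⁻¹) = κ (g * x * (g : G)⁻¹) := by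
    intro g x hx
    have a : (σ (κ x))⁻¹ * x ∈ L := mul_mem (inv_mem (h1 _)) hx
    have b := hm _ (h1 (κ x)) _ a
    rw [mul_inv_cancel_left, h2, left_eq_add, hk _ a] at b
    have c := hm _ (cj g _ (h1 (κ x))) _ (cj g _ a)
    rw [(hk _ (cj g _ a)).2 (hKZ g g.2 _ b), add_zero] at c
    rw [← c]; congr 1; group
  let f : K → W →ₗ[ZMod 2] W := fun g => AddMonoidHom.toZModLinearMap 2
    (AddMonoidHom.mk' (fun v => κ (g * σ v * (g : G)⁻¹)) fun u v => by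
      rw [← hm _ (cj g _ (h1 u)) _ (cj g _ (h1 v)), conj_mul, ← key g _ (mul_mem (h1 u) (h1 v)),
        hm _ (h1 u) _ (h1 v), h2, h2])
  have hf : ∀ g v, f g v = κ (g * σ v * (g : G)⁻¹) := fun _ _ => rfl
  let F : K →* Matrix (Fin 12) (Fin 12) (ZMod 2) :=
    { toFun := fun g => LinearMap.toMatrix' (f g)
      map_one' := by
        rw [← LinearMap.toMatrix'_id]; exact congrArg _ (LinearMap.ext fun v => by simp [hf, h2])
      map_mul' := fun g k => by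
        rw [← LinearMap.toMatrix'_mul]
        refine congrArg _ (LinearMap.ext fun v => ?_)
        rw [Module.End.mul_apply, hf, hf, hf, key g _ (cj k _ (h1 v))]; simp [mul_assoc] }
  exact ⟨κ, F.toHomUnits, hm, fun v => ⟨_, h1 v, h2 v⟩, hk,
    fun g x hx => ((LinearMap.toMatrix'_mulVec (f g) _).trans (key g x hx)).symm⟩

/-- an involution commuting with a fixed point free action of order 7 on a group of order 8 -/
theorem cent8 {Z : Subgroup G} [Finite Z] (hZ : Nat.card Z = 8) (hc : ∀ a ∈ Z, ∀ b ∈ Z, a * b = b * a)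
    (h2 : ∀ a ∈ Z, a * a = 1) {k y : G} (hk : ∀ a ∈ Z, k * a * k⁻¹ ∈ Z) (hy : ∀ a ∈ Z, y * a * y⁻¹ ∈ Z)
    (kk : ∀ a ∈ Z, k * (k * a * k⁻¹) * k⁻¹ = a) (y7 : y ^ 7 = 1)
    (ky : ∀ a ∈ Z, k * (y * a * y⁻¹) * k⁻¹ = y * (k * a * k⁻¹) * y⁻¹)
    (yf : ∀ a ∈ Z, y * a * y⁻¹ = a → a = 1) : ∀ a ∈ Z, k * a * k⁻¹ = a := by
  classical
  have : Fact (Nat.Prime 7) := ⟨by norm_num⟩
  let C : Subgroup G := Z ⊓ Subgroup.centralizer {k}
  have hC : ∀ a, a ∈ C ↔ a ∈ Z ∧ k * a * k⁻¹ = a := fun a => by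
    rw [Subgroup.mem_inf, Subgroup.mem_centralizer_singleton_iff, mul_inv_eq_iff_eq_mul, eq_comm]
  have : Finite C := Finite.of_injective _ (Subgroup.inclusion_injective (inf_le_left : C ≤ Z))
  let φ : Function.End C := fun a => ⟨y * a * y⁻¹, (hC _).2 ⟨hy _ a.2.1, by
    rw [ky _ a.2.1, ((hC _).1 a.2).2]⟩⟩
  have hφ : ∀ n (a : C), ((φ ^ n) a).1 = y ^ n * a * (y ^ n)⁻¹ := fun n => by
    induction n with
    | zero => intro a; rw [pow_zero, pow_zero, one_mul, inv_one, mul_one]; rfl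
    | succ n ih =>
      intro a
      rw [pow_succ, pow_succ]
      exact (ih (φ a)).trans (by simp only [φ]; group)
  have := Fintype.ofFinite C
  have h3 := Equiv.Perm.card_fixedPoints_modEq (f := φ) (p := 7) (n := 1)
    (funext fun a => Subtype.ext (by rw [hφ, pow_one, y7, one_mul, inv_one, mul_one]; rfl))
  have h1 : Nat.card (Function.fixedPoints φ) = 1 := Nat.card_eq_one_iff_exists.2
    ⟨⟨(1 : C), Subtype.ext (by simp [φ])⟩, fun a => Subtype.ext (Subtype.ext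
      (yf _ a.1.2.1 (congrArg Subtype.val a.2)))⟩
  rw [← Nat.card_eq_fintype_card, ← Nat.card_eq_fintype_card, h1] at h3
  have h4 : Nat.card C ≠ 1 := fun e => by
    have e := Subgroup.card_eq_one.1 e
    have : Nontrivial Z := Finite.one_lt_card_iff_nontrivial.1 (by omega)
    obtain ⟨a, ha⟩ := exists_ne (1 : Z)
    have h5 : (a : G) * (k * a * k⁻¹) = 1 := Subgroup.mem_bot.1 (e ▸ (hC _).2 ⟨Z.mul_mem a.2 (hk _ a.2), by
      rw [← conj_mul, kk _ a.2, hc _ a.2 _ (hk _ a.2)]⟩)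
    exact ha (Subtype.ext (Subgroup.mem_bot.1 (e ▸ (hC _).2 ⟨a.2, mul_left_cancel (h5.trans (h2 _ a.2).symm)⟩)))
  have h5 := Subgroup.card_le_of_le (inf_le_left : C ≤ Z)
  have h6 : C = Z := Subgroup.eq_of_le_of_card_ge inf_le_left (by unfold Nat.ModEq at h3; omega)
  exact fun a ha => ((hC a).1 (h6 ▸ ha)).2

abbrev S5 := Equiv.Perm (Fin 5)
abbrev L3 := Matrix.SpecialLinearGroup (Fin 3) (ZMod 2)
def pc : S5 := Equiv.swap 0 1 * Equiv.swap 1 2
def ps : S5 := Equiv.swap 0 1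
def pg : S5 := Equiv.swap 3 4
def pf : S5 := Equiv.swap 0 1 * Equiv.swap 2 3

theorem card_L3 : Nat.card L3 = 168 := by
  have := CL.SL.card_SL_mul (F := ZMod 2) 3 (by norm_num)
  simpa [Fin.prod_univ_three] using this

theorem simple_L3 : IsSimpleGroup L3 := by
  have := CL.SL.psl_isSimpleGroup_of_three_le (ι := Fin 3) (F := ZMod 2) (by simp)
  have h : Subgroup.center L3 = ⊥ := Subgroup.card_eq_one.1 (by rw [CL.SL.card_center_SL]; simp)
  exact ((QuotientGroup.quotientMulEquivOfEq h).trans QuotientGroup.quotientBot).symm.isSimpleGroup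

theorem h5_of {R : S5 →* GL12} (h : ∀ t : S5, t ^ 3 = 1 → t ≠ 1 → ∀ v : W, R t • v = v → v = 0) :
    H5 (R pc) (R ps) (R pg) (R pf) := by
  have k : ∀ t : S5, t ^ 3 = 1 → t ≠ 1 → ∀ v : W, R (t * t) • v = v + R t • v := fun t h1 h2 v => by
    have := h t h1 h2 (R (t * t) • v + (v + R t • v)) (by
      simp only [smul_add, ← mul_smul, ← map_mul]
      rw [← pow_three, h1, map_one, one_smul]; abel)
    exact W_eq.1 this
  have k' : ∀ {a b : S5}, a = b → ∀ v : W, R a • v = R b • v := fun e v => e ▸ rfl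
  have o : ∀ {a : S5}, a = 1 → ∀ v : W, R a • v = v := fun e v => by rw [e, map_one, one_smul]
  refine ⟨fun v => ?_, fun v => ?_, fun v => ?_, fun v => ?_, fun v => ?_, fun v => ?_, fun v => ?_,
    fun v => ?_, fun v => ?_, fun v => ?_⟩ <;> simp only [← mul_smul, ← map_mul]
  · exact k pc (by decide) (by decide) v
  · exact (k' (by decide) v).trans (k (pc * pf) (by decide) (by decide) v)
  · exact (k' (by decide) v).trans (k (pg * (pf * ps)) (by decide) (by decide) v)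
  · exact o (by decide) v
  · exact o (by decide) v
  · exact o (by decide) v
  all_goals exact k' (by decide) v

theorem range_eq {R : S5 × L3 →* GL12} {P : GL12}
    (h : H5 (R (pc, 1)) (R (ps, 1)) (R (pg, 1)) (R (pf, 1)))
    (b : Bas (R (pc, 1)) (R (ps, 1)) (R (pg, 1)) (R (pf, 1)) P) {y : L3} (hy : R (1, y) ≠ 1) :
    Function.Injective R ∧ ((MulAut.conj P⁻¹).toMonoidHom.comp R).range = gen gcode LJ := by
  let R' := (MulAut.conj P⁻¹).toMonoidHom.comp R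
  have hR : ∀ γ, R' γ = P⁻¹ * R γ * P := fun γ => by simp [R']
  let RN := R'.comp (MonoidHom.inl S5 L3)
  let RW := R'.comp (MonoidHom.inr S5 L3)
  have h1 : gen gcode LN ≤ RN.range := (C12.gen_le_iff top_LN).2 fun c hc => by
    simp only [LN, List.mem_cons, List.not_mem_nil, or_false] at hc
    rcases hc with rfl | rfl | rfl | rfl
    · exact ⟨pc, by rw [← b.code_c h, C12.elt_code]; exact hR _⟩
    · exact ⟨ps, by rw [← b.code_s h, C12.elt_code]; exact hR _⟩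
    · exact ⟨pg, by rw [← b.code_g h, C12.elt_code]; exact hR _⟩
    · exact ⟨pf, by rw [← b.code_f h, C12.elt_code]; exact hR _⟩
  have c5 : Nat.card S5 = 120 := by rw [Nat.card_perm, Nat.card_fin]; rfl
  have h2 := Nat.card_le_card_of_surjective _ RN.rangeRestrict_surjective
  have h3 : gen gcode LN = RN.range := Subgroup.eq_of_le_of_card_ge h1 (by rw [card_LN, ← c5]; exact h2)
  have h4 : Function.Injective RN := fun a a' e =>
    (RN.rangeRestrict_surjective.bijective_of_nat_card_le (by rw [← h3, card_LN, c5])).1 (Subtype.ext e)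
  have h5 : RW.range ≤ gen gcode LW := by
    rintro _ ⟨a, rfl⟩
    have k : ∀ t : S5, R (1, a) * R (t, 1) = R (t, 1) * R (1, a) := fun t => by
      rw [← map_mul, ← map_mul, Prod.mk_mul_mk, Prod.mk_mul_mk, one_mul, mul_one, one_mul, mul_one]
    exact (hR (1, a)).symm ▸ b.code_comm (k _) (k _) (k _) (k _)
  have := simple_L3
  have h6 : Function.Injective RW := RW.ker_eq_bot_iff.1 (RW.normal_ker.eq_bot_or_eq_top.resolve_right fun e =>
    hy ((MulAut.conj P⁻¹).map_eq_one_iff.1 (e.ge (Subgroup.mem_top y))))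
  have h7 : RW.range = gen gcode LW := Subgroup.eq_of_le_of_card_ge h5 (by
    rw [card_LW, ← card_L3, Nat.card_congr (RW.ofInjective h6).toEquiv])
  have h8 : ∀ γ : S5 × L3, R' γ = RN γ.1 * RW γ.2 := fun γ =>
    (congrArg R' (Prod.fst_mul_snd γ)).symm.trans (map_mul _ _ _)
  refine ⟨(injective_iff_map_eq_one _).2 fun γ e => ?_, le_antisymm ?_ ((C12.gen_le_iff top_LJ).2 fun c hc => ?_)⟩
  · have e1 : RN γ.1 * RW γ.2 = 1 := by rw [← h8, hR, e, mul_one, inv_mul_cancel]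
    obtain ⟨i, hi, e2⟩ := complete_TN (RN γ.1) (h3 ▸ ⟨_, rfl⟩)
    obtain ⟨j, hj, e3⟩ := complete_TW (RN γ.1) (eq_inv_of_mul_eq_one_left e1 ▸ inv_mem (h7 ▸ ⟨_, rfl⟩))
    have k : ∀ i < 120, force (TN i) (fun t => Nat.beq t c1 || allLt (fun j => !Nat.beq (TW j) t) 168) = true := by
      decide +kernel
    have k1 := k i hi
    rw [force_eq, Bool.or_eq_true, allLt_iff, ← e2] at k1
    have e4 : RN γ.1 = 1 := C12.inj ((eq_of_beq (k1.resolve_right fun k2 => by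
      simpa [e3] using k2 j hj)).trans C12.map_one.symm)
    rw [e4, one_mul] at e1
    exact Prod.ext (h4 (e4.trans (map_one _).symm)) (h6 (e1.trans (map_one _).symm))
  · rintro _ ⟨γ, rfl⟩
    exact (h8 γ).symm ▸ mul_mem (LN_le (h3 ▸ ⟨_, rfl⟩)) (LW_le (h7 ▸ ⟨_, rfl⟩))
  · rcases (show ∀ c ∈ LJ, c ∈ LN ∨ c ∈ LW by decide) c hc with h9 | h9
    · obtain ⟨a, e⟩ := h1 (C12.elt_mem ((top_LN c h9).gen h9))
      exact ⟨_, e⟩
    · obtain ⟨a, e⟩ := h7.ge (C12.elt_mem ((top_LW c h9).gen h9))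
      exact ⟨_, e⟩

end Md

open Md in
theorem exists_pc [Finite G] (K L Z : Subgroup G) (hLdef : L = (pCore 2 ↥K).map K.subtype)
    (hZdef : Z = (Subgroup.center ↥L).map L.subtype) (hLs : IsSpecial 2 ↥L)
    (hLc : Nat.card ↥L = 2 ^ 15) (hZe : IsElementaryAbelian 2 Z) (hZc : Nat.card ↥Z = 8)
    (hK : K = Subgroup.normalizer (Z : Set G))
    (hq : ∃ _ : (L.subgroupOf K).Normal, Nonempty (↥K ⧸ L.subgroupOf K ≃*
      Equiv.Perm (Fin 5) × Matrix.SpecialLinearGroup (Fin 3) (ZMod 2)))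
    (hxy : ∀ x y : G, x ∈ K → y ∈ K → orderOf x = 3 → orderOf y = 7 → x * y = y * x →
      L ⊓ Subgroup.centralizer ({x} : Set G) = Z ∧ L ⊓ Subgroup.centralizer ({y} : Set G) = ⊥) :
    ∃ (κ : G → ℕ) (ρ : K →* GL12) (ζ : ℕ → G), PC K L κ ρ ζ := by
  classical
  have : Fact (Nat.Prime 2) := ⟨Nat.prime_two⟩
  have : Fact (Nat.Prime 3) := ⟨Nat.prime_three⟩
  have : Fact (Nat.Prime 7) := ⟨by norm_num⟩
  obtain ⟨hN, ⟨e⟩⟩ := hq
  have hLK : L ≤ K := hLdef ▸ Subgroup.map_subtype_le _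
  have hZL : Z ≤ L := hZdef ▸ Subgroup.map_subtype_le _
  have hZm : ∀ a : L, a ∈ Subgroup.center L ↔ (a : G) ∈ Z := fun a =>
    hZdef ▸ (Subgroup.mem_map_iff_mem L.subtype_injective).symm
  have hc : ∀ z ∈ Z, ∀ a ∈ L, a * z = z * a := fun z hz a ha =>
    congrArg Subtype.val (Subgroup.mem_center_iff.1 ((hZm ⟨z, hZL hz⟩).2 hz) ⟨a, ha⟩)
  have z2 : ∀ z ∈ Z, z * z = 1 := fun z hz => (pow_two z).symm.trans (hZe.2 z hz)
  have hKL : ∀ k ∈ K, ∀ a ∈ L, k * a * k⁻¹ ∈ L := fun k hk a ha => hN.conj_mem ⟨a, hLK ha⟩ ha ⟨k, hk⟩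
  have hKZ : ∀ k ∈ K, ∀ a ∈ Z, k * a * k⁻¹ ∈ Z := fun k hk a ha => ((hK.le hk) a).1 ha
  have hsq : ∀ a ∈ L, a * a ∈ Z := fun a ha =>
    pow_two a ▸ (hZm (⟨a, ha⟩ ^ 2)).1 (hLs.2.1 ▸ PG.pow_mem_frattini hLs.1 _)
  have hcm : ∀ a ∈ L, ∀ b ∈ L, a * b * a⁻¹ * b⁻¹ ∈ Z := fun a ha b hb =>
    (hZm (⟨a, ha⟩ * ⟨b, hb⟩ * ⟨a, ha⟩⁻¹ * ⟨b, hb⟩⁻¹)).1 (hLs.2.1 ▸ PG.commutatorElement_mem_frattini hLs.1 ⟨a, ha⟩ ⟨b, hb⟩)
  obtain ⟨κ, ρ, hm, hs, hk, hρ⟩ := exists_pre hZL hLc hZc hsq hcm hKL hKZ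
  have hκ : ∀ a ∈ L, ∀ b ∈ L, κ a = κ b ↔ a * b⁻¹ ∈ Z := fun a ha b hb => by
    have := hm _ (mul_mem ha (inv_mem hb)) b hb
    rw [inv_mul_cancel_right] at this
    rw [this, add_eq_right, hk _ (mul_mem ha (inv_mem hb))]
  obtain ⟨π, hπ, hker, R, hR⟩ : ∃ π : K →* S5 × L3, Function.Surjective π ∧ (∀ k : K, π k = 1 ↔ (k : G) ∈ L) ∧
      ∃ R : S5 × L3 →* GL12, ∀ k, R (π k) = ρ k := by
    refine ⟨e.toMonoidHom.comp (QuotientGroup.mk' _), e.surjective.comp (QuotientGroup.mk'_surjective _),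
      fun k => e.map_eq_one_iff.trans (QuotientGroup.eq_one_iff k),
      (QuotientGroup.lift (L.subgroupOf K) ρ fun k hk => gl_ext fun v => ?_).comp e.symm.toMonoidHom,
      fun k => congrArg _ (e.symm_apply_apply _)⟩
    obtain ⟨a, ha, rfl⟩ := hs v
    rw [← hρ k a ha, one_smul, hκ _ (hKL k k.2 a ha) a ha]
    exact hcm k hk a ha
  have hZa : ∀ k l : K, π k = π l → ∀ z ∈ Z, k * z * (k : G)⁻¹ = l * z * (l : G)⁻¹ := fun k l h z hz => by
    have := hc z hz _ ((hker (l⁻¹ * k)).1 (by rw [map_mul, map_inv, h, inv_mul_cancel]))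
    calc k * z * (k : G)⁻¹ = l * ((l : G)⁻¹ * k * z) * (k : G)⁻¹ := by group
      _ = l * (z * ((l : G)⁻¹ * k)) * (k : G)⁻¹ := congrArg (fun t => l * t * (k : G)⁻¹) this
      _ = _ := by group
  obtain ⟨y0, hy0⟩ := exists_prime_orderOf_dvd_card' (G := L3) 7 (by rw [card_L3]; decide)
  have y7 : y0 ^ 7 = 1 := hy0 ▸ pow_orderOf_eq_one y0
  have y1 : y0 ≠ 1 := fun h => by rw [h, orderOf_one] at hy0; omega
  have lift : ∀ t : S5, t ^ 3 = 1 → t ≠ 1 → ∃ x y : K, π x = (t, 1) ∧ π y = (1, y0) ∧ (x : G) ^ 3 = 1 ∧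
      (y : G) ^ 7 = 1 ∧ L ⊓ Subgroup.centralizer ({(x : G)} : Set G) = Z ∧
      L ⊓ Subgroup.centralizer ({(y : G)} : Set G) = ⊥ := fun t t3 t1 => by
    obtain ⟨k, hk⟩ := hπ (t, y0)
    have p3 : ∀ n, t ^ (3 * n) = 1 := fun n => by rw [pow_mul, t3, one_pow]
    have p7 : ∀ n, y0 ^ (7 * n) = 1 := fun n => by rw [pow_mul, y7, one_pow]
    have h1 : (k : G) ^ 21 ∈ L := (hker (k ^ 21)).1 (by rw [map_pow, hk]; exact Prod.ext (p3 7) (p7 3))
    have h2 : (k : G) ^ 84 = 1 := by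
      have := z2 _ (hsq _ h1)
      rwa [← pow_add, ← pow_add] at this
    have h3 : π (k ^ 28) = (t, 1) := by
      rw [map_pow, hk]; exact Prod.ext ((pow_succ t 27).trans (by rw [p3 9, one_mul])) (p7 4)
    have h4 : π (k ^ 36) = (1, y0) := by
      rw [map_pow, hk]; exact Prod.ext (p3 12) ((pow_succ y0 35).trans (by rw [p7 5, one_mul]))
    have h5 : ((k ^ 28 : K) : G) ^ 3 = 1 := by rw [Subgroup.coe_pow, ← pow_mul, h2]
    have h6 : ((k ^ 36 : K) : G) ^ 7 = 1 := by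
      rw [Subgroup.coe_pow, ← pow_mul, show 36 * 7 = 84 * 3 from rfl, pow_mul, h2, one_pow]
    exact ⟨_, _, h3, h4, h5, h6, hxy _ _ (k ^ 28).2 (k ^ 36).2
      (orderOf_eq_prime h5 fun e => t1 (congrArg Prod.fst (h3.symm.trans ((hker _).2 (e ▸ L.one_mem)))))
      (orderOf_eq_prime h6 fun e => y1 (congrArg Prod.snd (h4.symm.trans ((hker _).2 (e ▸ L.one_mem)))))
      (by rw [Subgroup.coe_pow, Subgroup.coe_pow, ← pow_add, ← pow_add])⟩
  have h5 : H5 (R (pc, 1)) (R (ps, 1)) (R (pg, 1)) (R (pf, 1)) := by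
    refine h5_of (R := R.comp (MonoidHom.inl _ _)) fun t t3 t1 v hv => ?_
    obtain ⟨x, -, h1, -, h2, -, h3, -⟩ := lift t t3 t1
    obtain ⟨a, ha, rfl⟩ := hs v
    have h4 : ρ x • κ a = κ a := by rw [← hR, h1]; exact hv
    rw [← hρ x a ha, hκ _ (hKL x x.2 a ha) a ha] at h4
    have h6 := Subgroup.mem_centralizer_singleton_iff.1 (h3.ge h4).2
    have h7 := z2 _ h4
    refine (hk a ha).2 (h3.le ⟨ha, Subgroup.mem_centralizer_singleton_iff.2 ?_⟩)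
    generalize (x : G) = x at h2 h6 h7
    have h8 : x * x * a = a * (x * x) := by
      calc x * x * a = x * (x * a * x⁻¹ * a⁻¹) * a * x := by group
        _ = x * a * x⁻¹ * a⁻¹ * (x * a * x⁻¹ * a⁻¹) * a * (x * x) := by rw [← h6]; group
        _ = _ := by rw [h7, one_mul]
    have h9 : x = x * x * (x * x) := by rw [← mul_assoc, ← pow_three', h2, one_mul]
    have h10 : Commute (x * x * (x * x)) a := Commute.mul_left h8 h8
    rw [← h9] at h10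
    exact h10.eq.symm
  obtain ⟨P, b⟩ := h5.exists_bas
  obtain ⟨x, y, hx, hy, -, hy7, hxc, hyc⟩ := lift pc (by decide) (by decide)
  have hcen : ∀ t ∈ [pc, ps, pg, pf], ∃ k : K, π k = (t, 1) ∧ ∀ z ∈ Z, k * z * (k : G)⁻¹ = z := fun t ht => by
    rcases (show ∀ t ∈ [pc, ps, pg, pf], t = pc ∨ t * t = 1 by decide) t ht with rfl | h
    · exact ⟨x, hx, fun z hz => mul_inv_eq_iff_eq_mul.2
        (Subgroup.mem_centralizer_singleton_iff.1 (hxc.ge hz).2).symm⟩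
    obtain ⟨k, hk⟩ := hπ (t, 1)
    refine ⟨k, hk, cent8 hZc (fun a ha b hb => hc b hb a (hZL ha)) z2 (hKZ k k.2) (hKZ y y.2) (fun a ha => ?_) hy7
      (fun a ha => ?_) fun a ha h => Subgroup.mem_bot.1 (hyc.le ⟨hZL ha,
        Subgroup.mem_centralizer_singleton_iff.2 (mul_inv_eq_iff_eq_mul.1 h).symm⟩)⟩
    · have := hZa (k * k) 1 (by rw [map_mul, hk, map_one]; exact Prod.ext h (mul_one _)) a ha
      simpa [mul_assoc] using this
    · have := hZa (k * y) (y * k) (by rw [map_mul, map_mul, hk, hy]; simp) a ha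
      simpa [mul_assoc] using this
  let _ : CommGroup Z := { (inferInstance : Group Z) with
    mul_comm := fun a b => Subtype.ext (hc b b.2 a (hZL a.2)) }
  choose σ σ1 σ2 using hs
  let B : W → W → Additive Z := fun u v => Additive.ofMul ⟨_, hcm _ (σ1 u) _ (σ1 v)⟩
  let Q : W → Additive Z := fun u => Additive.ofMul ⟨_, hsq _ (σ1 u)⟩
  have hσ : ∀ a ∈ L, ∃ z ∈ Z, σ (κ a) = z * a := fun a ha =>
    ⟨_, (hκ _ (σ1 _) a ha).1 (σ2 _), (inv_mul_cancel_right _ _).symm⟩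
  have hB : ∀ a ∈ L, ∀ b ∈ L, ((B (κ a) (κ b)).toMul : G) = a * b * a⁻¹ * b⁻¹ := fun a ha b hb => by
    obtain ⟨z, hz, e1⟩ := hσ a ha
    obtain ⟨w, hw, e2⟩ := hσ b hb
    show σ _ * σ _ * (σ _)⁻¹ * (σ _)⁻¹ = _
    rw [e1, e2]
    calc z * a * (w * b) * (z * a)⁻¹ * (w * b)⁻¹ = z * (a * w * b * a⁻¹) * z⁻¹ * b⁻¹ * w⁻¹ := by group
      _ = w * (a * b * a⁻¹ * b⁻¹) * w⁻¹ := by
        rw [← hc z hz _ (mul_mem (mul_mem (mul_mem ha (hZL hw)) hb) (inv_mem ha)), hc w hw a ha]; group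
      _ = _ := by rw [← hc w hw _ (hZL (hcm a ha b hb)), mul_inv_cancel_right]
  have hQ : ∀ a ∈ L, ((Q (κ a)).toMul : G) = a * a := fun a ha => by
    obtain ⟨z, hz, e1⟩ := hσ a ha
    show σ _ * σ _ = _
    rw [e1, mul_assoc, ← mul_assoc a, hc z hz a ha, ← mul_assoc, ← mul_assoc, z2 z hz, one_mul]
  have ext : ∀ {p q : Additive Z}, (p.toMul : G) = q.toMul → p = q := fun h =>
    Additive.toMul.injective (Subtype.ext h)
  have sy : ∀ a ∈ L, ∀ b ∈ L, a * b * a⁻¹ * b⁻¹ = b * a * b⁻¹ * a⁻¹ := fun a ha b hb => by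
    rw [← inv_eq_of_mul_eq_one_right (z2 _ (hcm a ha b hb))]; group
  have m : Fm (R (pc, 1)) (R (ps, 1)) (R (pg, 1)) (R (pf, 1)) B Q := by
    refine ⟨fun u u' v => ext ?_, fun u v => ext (sy _ (σ1 u) _ (σ1 v)), fun a => ext (z2 _ a.toMul.2),
      fun u v => ext ?_, fun g hg v => ext ?_⟩
    · rw [← σ2 u, ← σ2 u', ← σ2 v, ← hm _ (σ1 u) _ (σ1 u'), toMul_add, Subgroup.coe_mul,
        hB _ (mul_mem (σ1 u) (σ1 u')) _ (σ1 v), hB _ (σ1 u) _ (σ1 v), hB _ (σ1 u') _ (σ1 v),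
        hc _ (hcm _ (σ1 u') _ (σ1 v)) _ (hZL (hcm _ (σ1 u) _ (σ1 v)))]
      calc _ = σ u * (σ u' * σ v * (σ u')⁻¹ * (σ v)⁻¹) * (σ v * (σ u)⁻¹ * (σ v)⁻¹) := by group
        _ = _ := by rw [hc _ (hcm _ (σ1 u') _ (σ1 v)) _ (σ1 u)]; group
    · rw [← σ2 u, ← σ2 v, ← hm _ (σ1 u) _ (σ1 v), toMul_add, toMul_add, Subgroup.coe_mul, Subgroup.coe_mul,
        hQ _ (mul_mem (σ1 u) (σ1 v)), hQ _ (σ1 u), hQ _ (σ1 v), hB _ (σ1 u) _ (σ1 v), sy _ (σ1 u) _ (σ1 v),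
        hc _ (hcm _ (σ1 v) _ (σ1 u)) _ (mul_mem (mul_mem (σ1 u) (σ1 u)) (mul_mem (σ1 v) (σ1 v)))]
      calc _ = σ u * (σ v * σ u * (σ v)⁻¹ * (σ u)⁻¹) * (σ u * σ v * σ v) := by group
        _ = _ := by rw [hc _ (hcm _ (σ1 v) _ (σ1 u)) _ (σ1 u)]; group
    · obtain ⟨t, ht, rfl⟩ : ∃ t ∈ [pc, ps, pg, pf], R (t, 1) = g := List.mem_map.1 hg
      obtain ⟨k, h1, h2⟩ := hcen t ht
      rw [← h1, hR, ← σ2 v, ← hρ k _ (σ1 v), hQ _ (hKL k k.2 _ (σ1 v)), hQ _ (σ1 v), conj_mul,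
        h2 _ (hsq _ (σ1 v))]
  obtain ⟨z1, z2', z3, c1', c2⟩ := m.coord h5 b
  let ζ : ℕ → G := fun n => ((cb z1 z2' z3 n).toMul : Z)
  have hζ : ∀ c d, ζ (c ^^^ d) = ζ c * ζ d := fun c d => by simp only [ζ, cb_xor m.two]; rfl
  have ζ0 : ζ 0 = 1 := by simp [ζ, cb, bit_eq]
  have hv : ∀ a, P • vdec 12 (vcode (P⁻¹ • κ a)) = κ a := fun a => by rw [vdec_vcode, smul_inv_smul]
  have hcomm : ∀ a ∈ L, ∀ b ∈ L, a * b * a⁻¹ * b⁻¹ = ζ (cmC (vcode (P⁻¹ • κ a)) (vcode (P⁻¹ • κ b))) :=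
    fun a ha b hb => by rw [← hB a ha b hb, ← hv a, ← hv b, c1' _ (vcode_lt _) _ (vcode_lt _), hv, hv]
  have hsur : ∀ z ∈ Z, ∃ c < 8, z = ζ c := fun z hz => by
    let S : Subgroup L :=
      { carrier := {a | ∃ c < 8, (a : G) = ζ c}
        one_mem' := ⟨0, by norm_num, ζ0.symm⟩
        mul_mem' := fun ⟨c, h1, h2⟩ ⟨d, h3, h4⟩ => ⟨_, xor8 h1 h3, by rw [hζ, ← h2, ← h4]; rfl⟩
        inv_mem' := fun ⟨c, h1, h2⟩ => ⟨c, h1, by
          rw [Subgroup.coe_inv, h2]; exact inv_eq_of_mul_eq_one_right (by rw [← hζ, Nat.xor_self, ζ0])⟩ }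
    have : commutator L ≤ S := Subgroup.commutator_le.2 fun a _ b _ => ⟨_, cmC_lt _ _, hcomm a a.2 b b.2⟩
    exact this (hLs.2.2 ▸ (hZm ⟨z, hZL hz⟩).2 hz)
  have hinj : ∀ c < 8, ζ c = 1 → c = 0 := fun c hc' h => by
    have : Function.Surjective fun c : Fin 8 => ((cb z1 z2' z3 c).toMul : Z) := fun z =>
      let ⟨c, h1, h2⟩ := hsur z z.2; ⟨⟨c, h1⟩, Subtype.ext h2.symm⟩
    exact congrArg Fin.val ((this.bijective_of_nat_card_le (by rw [hZc, Nat.card_fin])).1 (a₁ := ⟨c, hc'⟩)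
      (a₂ := 0) (Subtype.ext (h.trans ζ0.symm)))
  obtain ⟨r1, r2⟩ := range_eq h5 b (y := y0) fun h => by
    have h1 : ∀ a ∈ L, κ (y * a * (y : G)⁻¹) = κ a := fun a ha => by rw [hρ y a ha, ← hR, hy, h, one_smul]
    have h2 := hcomm _ (σ1 (P • vdec 12 16)) _ (σ1 (P • vdec 12 2048))
    have h3 := hcomm _ (hKL y y.2 _ (σ1 (P • vdec 12 16))) _ (hKL y y.2 _ (σ1 (P • vdec 12 2048)))
    rw [h1 _ (σ1 _), h1 _ (σ1 _), ← h2] at h3
    rw [σ2, σ2, inv_smul_smul, inv_smul_smul, vcode_vdec (by norm_num), vcode_vdec (by norm_num),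
      show cmC 16 2048 = 1 by decide +kernel] at h2
    refine absurd (hinj 1 (by norm_num) (Subgroup.mem_bot.1 (hyc.le ⟨hZL (Subtype.prop _),
      Subgroup.mem_centralizer_singleton_iff.2 ?_⟩))) one_ne_zero
    rw [← h2]
    conv_lhs => rw [← h3]
    group
  refine ⟨fun a => vcode (P⁻¹ • κ a), (MulAut.conj P⁻¹).toMonoidHom.comp ρ, ζ, hLK, fun a _ => vcode_lt _,
    fun a ha b hb => by rw [hm a ha b hb, smul_add, vcode_add], fun v hv' => ⟨_, σ1 (P • vdec 12 v), by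
      rw [σ2, inv_smul_smul, vcode_vdec hv']⟩, fun a ha => ?_, fun c _ => hZL (Subtype.prop _),
    fun c _ d _ => hζ c d, hinj, hKL, fun k a ha => ?_, fun k => ?_, ?_, fun a ha b hb => ?_, fun a ha => ?_,
    fun g => ⟨fun hg c _ => hsur _ (hKZ g hg _ (Subtype.prop _)), fun hg => hK ▸
      Subgroup.mem_normalizer_fintype fun z hz => ?_⟩⟩
  · rw [← vcode_zero (n := 12), vcode_injective.eq_iff, smul_eq_zero_iff_eq, hk a ha]
    exact ⟨hsur a, fun ⟨c, _, e⟩ => e ▸ Subtype.prop _⟩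
  · rw [ac_code, hρ k a ha]
    exact congrArg vcode (by simp [mul_smul])
  · rw [← hker, ← r1.eq_iff, map_one, hR]
    exact (MulAut.conj P⁻¹).map_eq_one_iff
  · rw [← r2]
    exact le_antisymm (fun _ ⟨k, h⟩ => ⟨π k, by rw [← h, MonoidHom.comp_apply, hR]; rfl⟩) fun _ ⟨γ, h⟩ =>
      let ⟨k, h'⟩ := hπ γ; ⟨k, by rw [← h, ← h', MonoidHom.comp_apply, MonoidHom.comp_apply, hR]⟩
  · rw [← hcomm a ha b hb, hc _ (hcm a ha b hb) _ (mul_mem hb ha)]; group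
  · rw [← hQ a ha, ← hv a, c2 _ (vcode_lt _), hv]
  · obtain ⟨c, h1, rfl⟩ := hsur z hz
    obtain ⟨d, -, h2⟩ := hg c h1
    exact h2 ▸ Subtype.prop _

end CL.J4P
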