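import Cfsg.Agent.SPOR.J4P.O2a
import Cfsg.Agent.SIG.HHSA
import Cfsg.Prelude.Def_CaseTheorems

/-!
In characteristic 2 the group `O_2(C(z))` is extraspecial of order `2 ^ 13`.
-/

set_option autoImplicit false
set_option maxRecDepth 100000
set_option linter.unusedSectionVars false
set_option linter.unusedVariables false

namespace CL.J4P

open CL.K CL.CG CL.F2M CL.F24 CL.J4 CL.LX CL.MSS Cfsg

attribute [local irreducible] gcode vcode

variable {G : Type*} [Group G]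

namespace X6

/-- the elements of `R` that are central modulo `z` -/
def Y2 (R : Subgroup G) (z : G) (hz : z * z = 1) (hR : ∀ r ∈ R, r * z = z * r) : Subgroup G where
  carrier := {r | r ∈ R ∧ ∀ q ∈ R, r * q = q * r ∨ r * q = q * r * z}
  one_mem' := ⟨one_mem _, fun q _ => Or.inl (by rw [one_mul, mul_one])⟩
  mul_mem' := by
    rintro a b ⟨ha, h1⟩ ⟨hb, h2⟩
    refine ⟨mul_mem ha hb, fun q hq => ?_⟩
    rcases h1 q hq with e | e <;> rcases h2 q hq with f | f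
    · left; rw [mul_assoc, f, ← mul_assoc, e, mul_assoc]
    · right; rw [mul_assoc, f, ← mul_assoc, ← mul_assoc, e, mul_assoc q]
    · right; rw [mul_assoc, f, ← mul_assoc, e, mul_assoc _ z, ← hR b hb, ← mul_assoc, mul_assoc q]
    · left
      rw [mul_assoc, f, ← mul_assoc, ← mul_assoc, e, mul_assoc _ z, ← hR b hb, mul_assoc,
        mul_assoc b, hz, mul_one, mul_assoc]
  inv_mem' := by
    rintro a ⟨ha, h1⟩
    refine ⟨inv_mem ha, fun q hq => ?_⟩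
    rcases h1 q hq with e | e
    · left
      calc a⁻¹ * q = a⁻¹ * (q * a) * a⁻¹ := by group
        _ = _ := by rw [← e]; group
    · right
      calc a⁻¹ * q = a⁻¹ * (q * a * z) * z * a⁻¹ := by rw [mul_assoc _ _ z, mul_assoc _ z, hz]; group
        _ = q * (z * a⁻¹) := by rw [← e]; group
        _ = _ := by rw [← hR _ (inv_mem ha), mul_assoc]

theorem Y2_conj {R : Subgroup G} {z : G} {hz : z * z = 1} {hR : ∀ r ∈ R, r * z = z * r}
    (hn : ∀ c, c * z = z * c → ∀ r ∈ R, c * r * c⁻¹ ∈ R) {c : G} (hc : c * z = z * c) :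
    ∀ y ∈ Y2 R z hz hR, c * y * c⁻¹ ∈ Y2 R z hz hR := by
  rintro y ⟨hy, h1⟩
  have hc' : c⁻¹ * z = z * c⁻¹ := ((show Commute c z from hc).inv_left).eq
  refine ⟨hn c hc y hy, fun q hq => ?_⟩
  have e0 : c * y * c⁻¹ * q = c * (y * (c⁻¹ * q * c⁻¹⁻¹)) * c⁻¹ := by group
  rcases h1 _ (hn c⁻¹ hc' q hq) with e | e
  · left; rw [e0, e]; group
  · right; rw [e0, e, mul_assoc c, mul_assoc _ z, ← hc']; group

variable {K L : Subgroup G} {κ : G → ℕ} {ρ : K →* GL12} {ζ : ℕ → G} (h : PC K L κ ρ ζ)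
include h

theorem card_Zs : Nat.card (Zs h) = 8 := by
  have := card_eq_of_cover (H := Zs h) (H' := ⊥) bot_le (N := 8) (t := ζ)
    (fun j hj => ζ_mem_Zs h hj) (fun g ⟨c, hc, e⟩ => ⟨c, hc, 1, one_mem _, by rw [mul_one, e]⟩)
    (fun i hi j hj a ha e => h.ζ_eq hi hj (by rwa [Subgroup.mem_bot.1 ha, mul_one] at e))
  rwa [Subgroup.card_bot] at this

theorem card_low {R : Subgroup G} (hR : ∀ a ∈ L, a ∈ R ↔ κ a < 256) :
    Nat.card (R ⊓ L : Subgroup G) = 2 ^ 11 := by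
  have : ∀ v, ∃ a, v < 256 → a ∈ L ∧ κ a = v := fun v => by
    by_cases hv : v < 256
    · obtain ⟨a, ha, e⟩ := h.κ_surj v (by omega)
      exact ⟨a, fun _ => ⟨ha, e⟩⟩
    · exact ⟨1, fun h => absurd h hv⟩
  choose t ht using this
  have := card_eq_of_cover (H := R ⊓ L) (H' := Zs h) (N := 256) (t := t)
    (by
      rintro _ ⟨c, hc, rfl⟩
      exact Subgroup.mem_inf.2 ⟨(hR _ (h.ζ_mem c hc)).2 (by rw [h.κ_ζ hc]; norm_num), h.ζ_mem c hc⟩)
    (fun j hj => Subgroup.mem_inf.2 ⟨(hR _ (ht j hj).1).2 (by rw [(ht j hj).2]; exact hj), (ht j hj).1⟩)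
    (fun g hg => by
      have h1 := (hR g hg.2).1 hg.1
      obtain ⟨c, hc, e⟩ := h.exists_ζ hg.2 (ht _ h1).1 (ht _ h1).2.symm
      exact ⟨_, h1, _, ζ_mem_Zs h hc, e⟩)
    (by
      rintro i hi j hj _ ⟨c, hc, rfl⟩ e
      rw [← (ht i hi).2, e, h.κ_mul_ζ (ht j hj).1 hc, (ht j hj).2])
  rw [this, card_Zs h]
  norm_num

end X6

open X6 in
/-- `O_2(C(z))` is central modulo `z`, meets `L` in the vectors below 256 and covers the four-group -/
theorem PC.exists_qd [Finite G] {K L : Subgroup G} {κ : G → ℕ} {ρ : K →* GL12} {ζ : ℕ → G}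
    (h : PC K L κ ρ ζ)
    (hC : ∀ c : G, c * ζ 4 = ζ 4 * c → (∀ q ∈ O2C (ζ 4), q * c = c * q) → c ∈ O2C (ζ 4))
    (hne : ∃ g, g * ζ 4 = ζ 4 * g ∧ g ∉ K) : QD L κ ρ ζ (O2C (ζ 4)) := by
  have : Fact (Nat.Prime 2) := ⟨Nat.prime_two⟩
  have h4 : (4 : ℕ) < 8 := by norm_num
  have zz := h.ζ_sq h4
  have zR : ζ 4 ∈ O2C (ζ 4) := mem_O2C_self zz
  have hN := centralizer_le_normalizer_O2C (ζ 4)
  have h2 : IsPGroup 2 (O2C (ζ 4)) := CL.isPGroup_map_pCore _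
  have hR : ∀ r ∈ O2C (ζ 4), r * ζ 4 = ζ 4 * r := fun r hr =>
    Subgroup.mem_centralizer_singleton_iff.1 (O2C_le _ hr)
  generalize O2C (ζ 4) = R at *
  have hn : ∀ c, c * ζ 4 = ζ 4 * c → ∀ r ∈ R, c * r * c⁻¹ ∈ R := fun c hc r hr =>
    (Subgroup.mem_normalizer_iff.1 (hN (Subgroup.mem_centralizer_singleton_iff.2 hc)) r).1 hr
  have hRi : ∀ m ∈ K, m * ζ 4 = ζ 4 * m → ∀ y ∈ R, m * y * m⁻¹ ∈ R := fun m _ => hn m
  have hYi : ∀ m ∈ K, m * ζ 4 = ζ 4 * m → ∀ y ∈ Y2 R _ zz hR, m * y * m⁻¹ ∈ Y2 R _ zz hR :=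
    fun m _ => Y2_conj hn
  -- no invariant subgroup is `Z`
  have notZ : ∀ X : G → Prop, (∀ c, c * ζ 4 = ζ 4 * c → ∀ x, X x → X (c * x * c⁻¹)) →
      (∀ c < 8, X (ζ c)) → ∃ x, X x ∧ ∀ c < 8, x ≠ ζ c := fun X h1 h2 => by
    by_contra hx
    obtain ⟨g, hg, hgK⟩ := hne
    refine hgK ((h.norm g).2 fun c hc => by_contra fun hd => hx ⟨_, h1 g hg _ (h2 c hc), ?_⟩)
    exact fun d hd' e => hd ⟨d, hd', e⟩
  have normZ : ∀ r, (∀ c < 8, r * ζ c = ζ c * r ∨ r * ζ c = ζ c * r * ζ 4) → r * ζ 4 = ζ 4 * r →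
      r ∈ K := fun r hr e4 => (h.norm r).2 fun c hc => by
    rcases hr c hc with e | e
    · exact ⟨c, hc, by rw [e, mul_inv_cancel_right]⟩
    · exact ⟨_, xor8 hc h4, by rw [e, mul_assoc (ζ c), e4, h.ζ_mul c hc 4 h4]; group⟩
  -- `Z ≤ Y`
  have hZY : ∀ d < 8, ζ d ∈ Y2 R _ zz hR := by
    have hLN : L ≤ Subgroup.normalizer (R : Set G) := fun a ha =>
      hN (Subgroup.mem_centralizer_singleton_iff.2 (h.ζ_comm h4 ha).symm)
    have hP : IsPGroup 2 (R ⊔ L : Subgroup G) := h2.to_sup_of_normal_left' (isPGroup_L h) hLN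
    obtain ⟨r, hr, hr1, hr2⟩ := CL.HHS.exists_not_mem_commutator_mem (M := Subgroup.zpowers (ζ 4)) hP h2
      (sup_le Subgroup.le_normalizer hLN) (fun hle => by
        have h1 := hC (ζ 1) (ζ_comm_ζ h (by norm_num) h4) fun q hq => by
          rcases (mem_zpowers_of_sq zz).1 (hle hq) with rfl | rfl
          · rw [one_mul, mul_one]
          · exact ζ_comm_ζ h h4 (by norm_num)
        rcases (mem_zpowers_of_sq zz).1 (hle h1) with e | e
        · exact h.ζ_ne (by norm_num) (by norm_num) e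
        · exact absurd (h.ζ_eq (by norm_num) h4 e) (by norm_num))
    have hr3 : ∀ q ∈ R ⊔ L, q * ζ 4 = ζ 4 * q → r * q = q * r ∨ r * q = q * r * ζ 4 := fun q hq e4 => by
      have := (mem_zpowers_of_sq zz).1 (hr2 q hq)
      rw [commutatorElement_def] at this
      rcases this with e | e
      · left; rwa [mul_inv_eq_one, mul_inv_eq_iff_eq_mul] at e
      · right
        rw [mul_inv_eq_iff_eq_mul, mul_inv_eq_iff_eq_mul] at e
        rw [e, ← e4, mul_assoc, ← hR r hr, mul_assoc]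
    rw [mem_zpowers_of_sq zz, not_or] at hr1
    exact Z_le_of_ne h hYi ⟨hr, fun q hq => hr3 q (Subgroup.mem_sup_left hq) (hR q hq)⟩
      (normZ r (fun c hc => hr3 _ (Subgroup.mem_sup_right (h.ζ_mem c hc)) (ζ_comm_ζ h hc h4))
        (hR r hr)) hr1.1 hr1.2
  have hRK : R ≤ K := fun r hr => normZ r (fun c hc => by
    rcases (hZY c hc).2 r hr with e | e
    · exact Or.inl e.symm
    · right; rw [e, mul_assoc, zz, mul_one]) (hR r hr)
  have act : ∀ q ∈ R, Kv ρ q c1 ∨ Kv ρ q jt1 ∨ Kv ρ q jt2 ∨ Kv ρ q jt3 := fun q hq =>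
    kv_four h hRi h2 hq (hRK hq) (hR q hq)
  have low : ∀ b ∈ L, κ b < 256 → b ∈ Y2 R _ zz hR := by
    obtain ⟨y, hy, hZ⟩ := notZ (· ∈ Y2 R _ zz hR) (fun c hc => Y2_conj hn hc) hZY
    obtain ⟨a, ha, ha', e⟩ := exists_κ_ne h hYi hy (hRK hy.1) hZ
    exact low_le h hYi ha ha' e
  have inL : ∀ a ∈ L, a ∈ R ↔ κ a < 256 := fun a ha => ⟨fun hr => by_contra fun hlt => by
    obtain ⟨u, hu, e1⟩ := h.κ_surj 1 (by norm_num)
    obtain ⟨v, hv, e2⟩ := h.κ_surj 2048 (by norm_num)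
    have e3 := h.comm u hu v hv
    rw [e1, e2, show cmC 1 2048 = 2 by decide +kernel] at e3
    rcases (low u hu (by omega)).2 v (all_le h hRi ha hr (by omega) v hv) with e | e
    · rw [e, left_eq_mul] at e3
      exact h.ζ_ne (by norm_num) (by norm_num) e3
    · rw [e, mul_right_inj] at e3
      exact absurd (h.ζ_eq h4 (by norm_num) e3) (by norm_num), fun hlt => (low a ha hlt).1⟩
  obtain ⟨⟨y1, hy1, k1⟩, ⟨y2, hy2, k2⟩, y3, hy3, k3⟩ : (∃ y ∈ Y2 R _ zz hR, Kv ρ y jt1) ∧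
      (∃ y ∈ Y2 R _ zz hR, Kv ρ y jt2) ∧ ∃ y ∈ Y2 R _ zz hR, Kv ρ y jt3 := by
    by_cases hYL : ∀ y ∈ Y2 R _ zz hR, y ∈ L
    · exfalso
      obtain ⟨x, ⟨hx, hx'⟩, hZ⟩ := notZ (fun x => x ∈ Y2 R _ zz hR ∧ ∀ y ∈ Y2 R _ zz hR, x * y = y * x)
        (fun c hc x hx => ⟨Y2_conj hn hc x hx.1, fun y hy => by
          have := hx.2 _ (Y2_conj hn ((show Commute c (ζ 4) from hc).inv_left).eq y hy)
          calc _ = c * (x * (c⁻¹ * y * c⁻¹⁻¹)) * c⁻¹ := by group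
            _ = _ := by rw [this]; group⟩)
        (fun c hc => ⟨hZY c hc, fun y hy => h.ζ_comm hc (hYL y hy)⟩)
      have hL := hYL x hx
      obtain ⟨v, hv, e⟩ := cm_low _ ((inL x hL).1 hx.1) fun e => by
        obtain ⟨c, hc, e'⟩ := (h.κ_zero x hL).1 e
        exact hZ c hc e'
      obtain ⟨b, hb, rfl⟩ := h.κ_surj v (by omega)
      exact e ((h.comm_iff hL hb).1 (hx' b (low b hb hv)))
    · push Not at hYL
      obtain ⟨y, hy, hL⟩ := hYL
      exact exists_three h hYi hy ((act y hy.1).resolve_left fun e => hL (h.mem_L e))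
  have cover : ∀ r ∈ R, ∀ y ∈ R, ∀ A, Kv ρ r A → Kv ρ y A → y⁻¹ * r ∈ R ⊓ L := fun r hr y hy A a b =>
    Subgroup.mem_inf.2 ⟨mul_mem (inv_mem hy) hr, h.inv_mul_mem b a⟩
  have all : ∀ r ∈ R, r ∈ Y2 R _ zz hR := fun r hr => by
    have key : ∀ y ∈ Y2 R _ zz hR, ∀ A, Kv ρ r A → Kv ρ y A → r ∈ Y2 R _ zz hR := fun y hy A a b => by
      have h1 := cover r hr y hy.1 A a b
      simpa only [mul_inv_cancel_left] using mul_mem hy (low _ h1.2 ((inL _ h1.2).1 h1.1))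
    rcases act r hr with e | e | e | e
    exacts [key 1 (one_mem _) _ e kv_one, key _ hy1 _ e k1, key _ hy2 _ e k2, key _ hy3 _ e k3]
  have nab : y1 * ζ 1 ≠ ζ 1 * y1 := fun e => by
    have := (h.kv_comm_ζ k1 (by norm_num)).1 e
    rw [za_vals.2.2.1] at this
    omega
  have cent : ∀ x ∈ R, (∀ y ∈ R, x * y = y * x) → x = 1 ∨ x = ζ 4 := fun x hx hc => by
    by_contra hh
    rw [not_or] at hh
    have := Z_le_of_ne h (Y := R ⊓ Subgroup.centralizer (R : Set G)) (fun m hm e y hy =>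
      Subgroup.mem_inf.2 ⟨hn m e y hy.1, fun q hq => by
        have := hy.2 _ (hn m⁻¹ ((show Commute m (ζ 4) from e).inv_left).eq q hq)
        calc _ = m * (m⁻¹ * q * m⁻¹⁻¹ * y) * m⁻¹ := by group
          _ = _ := by rw [this]; group⟩)
      (Subgroup.mem_inf.2 ⟨hx, fun q hq => (hc q hq).symm⟩) (hRK hx) hh.1 hh.2 1 (by norm_num)
    exact nab (this.2 y1 hy1.1)
  have es : ES R (ζ 4) := ⟨zR, h.ζ_ne h4 (by norm_num), zz, hR, cent, fun x hx => (all x hx).2,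
    fun x hx => cent _ (mul_mem hx hx) fun y hy => by
      rcases (all x hx).2 y hy with e | e
      · rw [mul_assoc, e, ← mul_assoc, e, mul_assoc]
      · rw [mul_assoc, e, ← mul_assoc, ← mul_assoc, e, mul_assoc _ (ζ 4), ← hR x hx, mul_assoc,
          mul_assoc x, zz, mul_one, mul_assoc],
    ⟨y1, hy1.1, ζ 1, (hZY 1 (by norm_num)).1, nab⟩⟩
  refine ⟨lx_of es (fun c hc => hC c (hc _ zR).symm hc) hN, ?_, inL, act, y1, hy1.1, k1⟩
  have ht : ∀ j < 4, [1, y1, y2, y3].getD j 1 ∈ R ∧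
      Kv ρ ([1, y1, y2, y3].getD j 1) ([c1, jt1, jt2, jt3].getD j 0) := fun j hj => by
    interval_cases j
    exacts [⟨one_mem _, kv_one⟩, ⟨hy1.1, k1⟩, ⟨hy2.1, k2⟩, ⟨hy3.1, k3⟩]
  rw [card_eq_of_cover (H := R) (H' := R ⊓ L) inf_le_left (N := 4)
    (t := fun j => [1, y1, y2, y3].getD j 1) (fun j hj => (ht j hj).1) (fun g hg => by
      have : ∃ j < 4, Kv ρ g ([c1, jt1, jt2, jt3].getD j 0) := by
        rcases act g hg with e | e | e | e
        exacts [⟨0, by norm_num, e⟩, ⟨1, by norm_num, e⟩, ⟨2, by norm_num, e⟩, ⟨3, by norm_num, e⟩]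
      obtain ⟨j, hj, e⟩ := this
      exact ⟨j, hj, _, cover g hg _ (ht j hj).1 _ e (ht j hj).2, (mul_inv_cancel_left _ _).symm⟩)
    (fun i hi j hj a ha e => by
      have h1 := (ht j hj).2.mul (h.kv_L ha.2)
      rw [← e, mm_c1 (ht j hj).2] at h1
      have h3 : ∀ i < 4, ∀ j < 4, [c1, jt1, jt2, jt3].getD i 0 = [c1, jt1, jt2, jt3].getD j 0 →
        i = j := by decide +kernel
      exact h3 i hi j hj ((ht i hi).2.unique h1)), card_low h inL]
  norm_num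

end CL.J4P
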