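import Cfsg.Agent.SPOR.J4P.PCx

/-!
Subgroups of `K` that are invariant under `C_K(ζ 4)`.
-/

set_option autoImplicit false
set_option maxRecDepth 100000
set_option linter.unusedSectionVars false
set_option linter.unusedVariables false

namespace CL.J4P.X6

open CL.K CL.CG CL.F2M CL.F24 CL.J4 CL.LX CL.MSS CL.J4P

attribute [local irreducible] gcode vcode

/-- eighth power -/
noncomputable def p8 (A : ℕ) : ℕ :=
  force (mm A A) fun B => force (mm B B) fun C => mm C C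

theorem p8_code (g : GL12) : p8 (gcode g) = gcode (g ^ 8) := by
  have e : g ^ 8 = g * g * (g * g) * (g * g * (g * g)) := by
    simp only [pow_succ, pow_zero, one_mul, mul_assoc]
  rewrite [p8, force_eq, force_eq, C12.map_mul, C12.map_mul, C12.map_mul, e]
  exact Eq.refl _

theorem pow_840 {g : GL12} (hg : g ∈ gen gcode LJ) : g ^ 840 = 1 := by
  obtain ⟨a, ha, b, hb, rfl⟩ := exists_NW hg
  have h1 : a ^ 120 = 1 := by
    have := pow_card_eq_one' (x := (⟨a, ha⟩ : (gen gcode LN : Subgroup GL12)))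
    rw [card_LN] at this
    exact congrArg Subtype.val this
  have h2 : b ^ 168 = 1 := by
    have := pow_card_eq_one' (x := (⟨b, hb⟩ : (gen gcode LW : Subgroup GL12)))
    rw [card_LW] at this
    exact congrArg Subtype.val this
  rw [Commute.mul_pow (comm_NW ha hb), show 840 = 120 * 7 from rfl, pow_mul, h1, one_pow, one_mul,
    show 120 * 7 = 168 * 5 from rfl, pow_mul, h2, one_pow]

theorem pow_eight {g : GL12} (hg : g ∈ gen gcode LJ) {n : ℕ} (h : g ^ 2 ^ n = 1) : g ^ 8 = 1 := by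
  obtain ⟨k, -, e⟩ := (Nat.dvd_prime_pow Nat.prime_two).1 (orderOf_dvd_of_pow_eq_one h)
  have h2 := orderOf_dvd_of_pow_eq_one (pow_840 hg)
  rw [← orderOf_dvd_iff_pow_eq_one, e]
  rw [e] at h2
  refine (pow_dvd_pow 2 (by_contra fun hk => ?_) : 2 ^ k ∣ 2 ^ 3)
  exact absurd ((pow_dvd_pow 2 (show 4 ≤ k by omega)).trans h2) (by norm_num)

/-- four involutions of `S5 × S4` -/
def NI : List ℕ :=
  [0xc004003001000cc04403301100c004003001,
    0x220110880440020010080040022011088044,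
    0xb005002001000b005002001000b005002001,
    0x800c002003000800c002003000800c002003]

theorem NI_spec : lall (fun n => F2M.unitB 12 CM 4095 n n && Nat.beq (za n 4) 4 &&
    anyLt (fun i => Nat.beq n (mm (TN i) (TW 0)) || Nat.beq n (mm (TN i) (TW 2)) ||
      Nat.beq n (mm (TN i) (TW 66))) 7) NI = true := by decide +kernel

theorem o2_check : allLt (fun j => force (TW j) fun B => !Nat.beq (za B 4) 4 ||
    allLt (fun i => force (mm (TN i) B) fun A => !Nat.beq (p8 A) c1 ||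
      !lall (fun n => Nat.beq (p8 (mm A (mm (mm n A) n))) c1) NI ||
      Nat.beq A c1 || Nat.beq A jt1 || Nat.beq A jt2 || Nat.beq A jt3) 120) 168 = true := by
  decide +kernel

theorem trans_six : ∀ c < 8, ∀ d < 8, c ≠ 0 → c ≠ 4 → d ≠ 0 → d ≠ 4 →
    ∃ j < 168, za (TW j) 4 = 4 ∧ za (TW j) c = d := by
  have : allLt (fun c => allLt (fun d => Nat.beq c 0 || Nat.beq c 4 || Nat.beq d 0 || Nat.beq d 4 ||
      anyLt (fun j => force (TW j) fun A => Nat.beq (za A 4) 4 && Nat.beq (za A c) d) 168) 8) 8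
      = true := by decide +kernel
  intro c hc d hd h1 h2 h3 h4
  have := allLt_iff.1 (allLt_iff.1 this c hc) d hd
  simp only [Bool.or_eq_true, Nat.beq_eq, h1, h2, h3, h4, false_or, anyLt_iff, force_eq,
    Bool.and_eq_true] at this
  exact this

theorem cm_six : ∀ u < 4096, u ≠ 0 → ∃ v < 4096, cmC u v ≠ 0 ∧ cmC u v ≠ 4 := by
  have : allN (fun u => Nat.beq u 0 || anyLt (fun i => force (cmC u (Nat.shiftLeft 1 i)) fun c =>
      !Nat.beq c 0 && !Nat.beq c 4) 12) 4096 = true := by decide +kernel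
  intro u hu h0
  have := allN_spec this u hu
  rw [Bool.or_eq_true, anyLt_iff] at this
  rcases this with e | ⟨i, hi, e⟩
  · exact absurd (eq_of_beq e) h0
  · rw [force_eq, Bool.and_eq_true, Bool.not_eq_true', Bool.not_eq_true'] at e
    exact ⟨_, by rw [shl, one_mul]; exact Nat.pow_lt_pow_right one_lt_two hi, ne_of_beq e.1,
      ne_of_beq e.2⟩

theorem cm_low : ∀ u < 256, u ≠ 0 → ∃ v < 256, cmC u v ≠ 0 := by
  have : allLt (fun u => Nat.beq u 0 || anyLt (fun i =>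
      !Nat.beq (cmC u (Nat.shiftLeft 1 i)) 0) 8) 256 = true := by decide +kernel
  intro u hu h0
  have := allLt_iff.1 this u hu
  rw [Bool.or_eq_true, anyLt_iff] at this
  rcases this with e | ⟨i, hi, e⟩
  · exact absurd (eq_of_beq e) h0
  · rw [Bool.not_eq_true'] at e
    exact ⟨_, by rw [shl, one_mul]; exact Nat.pow_lt_pow_right one_lt_two hi, ne_of_beq e⟩

theorem red_low : ∀ u < 4096, u ≠ 0 → u < 16 ∨ (u ^^^ ac ju u ≠ 0 ∧ u ^^^ ac ju u < 16) ∨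
    (u ^^^ ac jt1 u ≠ 0 ∧ u ^^^ ac jt1 u < 16) := by
  have : allN (fun u => Nat.beq u 0 || blt u 16 ||
      (force (Nat.xor u (ac jt1 u)) fun w => !Nat.beq w 0 && blt w 16) ||
      (force (Nat.xor u (ac ju u)) fun w => !Nat.beq w 0 && blt w 16)) 4096 = true := by decide +kernel
  intro u hu h0
  have := allN_spec this u hu
  simp only [force_eq, Bool.or_eq_true, Bool.and_eq_true, Bool.not_eq_true'] at this
  rcases this with ((e | e) | e) | e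
  · exact absurd (eq_of_beq e) h0
  · exact Or.inl (lt_of_blt e)
  · exact Or.inr (Or.inr ⟨ne_of_beq e.1, lt_of_blt e.2⟩)
  · exact Or.inr (Or.inl ⟨ne_of_beq e.1, lt_of_blt e.2⟩)

theorem trans_N : ∀ n < 16, ∀ n' < 16, n ≠ 0 → n' ≠ 0 →
    ∃ i < 120, ac (TN i) n = n' ∧ ac (TN i) (256 * n) = 256 * n' := by
  have : allLt (fun n => allLt (fun n' => Nat.beq n 0 || Nat.beq n' 0 ||
      anyLt (fun j => force (TN j) fun A => Nat.beq (ac A n) n' &&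
        Nat.beq (ac A (256 * n)) (256 * n')) 120) 16) 16 = true := by decide +kernel
  intro c hc d hd h1 h2
  have := allLt_iff.1 (allLt_iff.1 this c hc) d hd
  simp only [Bool.or_eq_true, Nat.beq_eq, h1, h2, false_or, anyLt_iff, force_eq,
    Bool.and_eq_true] at this
  exact this

theorem misc_vals : (∀ n < 16, ac jx n = 16 * n) ∧ za jx 4 = 4 ∧ za ju 4 = 4 ∧ za jt1 4 = 4 ∧
    F2M.unitB 12 CM 4095 (mm jx jx) jx = true ∧ mm (mm jx jt1) (mm jx jx) = jt2 ∧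
    mm (mm jx jt2) (mm jx jx) = jt3 ∧ mm (mm jx jt3) (mm jx jx) = jt1 := by decide +kernel

theorem split8 : ∀ v < 256, v = v % 16 ^^^ 16 * (v / 16) := by decide +kernel

theorem split12 {v : ℕ} (hv : v < 4096) : v = v % 256 ^^^ 256 * (v / 256) := by
  have : allN (fun v => Nat.beq v (Nat.xor (Nat.mod v 256) (Nat.mul 256 (Nat.div v 256)))) 4096 = true := by
    decide +kernel
  exact eq_of_beq (allN_spec this v hv)

variable {G : Type*} [Group G] {K L : Subgroup G} {κ : G → ℕ} {ρ : K →* GL12} {ζ : ℕ → G}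
  (h : PC K L κ ρ ζ)
include h

theorem kv_p8 {k : G} {A : ℕ} (hk : Kv ρ k A) {n : ℕ} (e : k ^ 2 ^ n = 1) : p8 A = c1 := by
  rw [← hk.2, p8_code, pow_eight (n := n) (h.range ▸ ⟨_, rfl⟩), C12.map_one]
  rw [← map_pow, ← map_one ρ]
  exact congrArg ρ (Subtype.ext e)

theorem exists_M_TW {j : ℕ} (hj : j < 168) (e : za (TW j) 4 = 4) :
    ∃ m, Kv ρ m (TW j) ∧ m * ζ 4 = ζ 4 * m := by
  obtain ⟨m, hm⟩ := h.exists_TW hj
  exact ⟨m, hm, (h.kv_comm_ζ hm (by norm_num)).2 e⟩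

theorem exists_jx : ∃ m, Kv ρ m jx ∧ m * ζ 4 = ζ 4 * m :=
  TW_vals.2.1 ▸ exists_M_TW h (j := 104) (by norm_num) (TW_vals.2.1 ▸ misc_vals.2.1)

theorem exists_ju : ∃ m, Kv ρ m ju ∧ m * ζ 4 = ζ 4 * m :=
  TW_vals.2.2.1 ▸ exists_M_TW h (j := 2) (by norm_num) (TW_vals.2.2.1 ▸ misc_vals.2.2.1)

theorem exists_jt1 : ∃ m, Kv ρ m jt1 ∧ m * ζ 4 = ζ 4 * m :=
  TW_vals.2.2.2.2.1 ▸ exists_M_TW h (j := 79) (by norm_num) (TW_vals.2.2.2.2.1 ▸ misc_vals.2.2.2.1)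

variable {Y : Subgroup G} (hY : ∀ m ∈ K, m * ζ 4 = ζ 4 * m → ∀ y ∈ Y, m * y * m⁻¹ ∈ Y)
include hY

/-- an invariant 2-subgroup acts inside the four-group -/
theorem kv_four (h2 : IsPGroup 2 Y) {k : G} (hk : k ∈ Y) (hK : k ∈ K) (hz : k * ζ 4 = ζ 4 * k) :
    Kv ρ k c1 ∨ Kv ρ k jt1 ∨ Kv ρ k jt2 ∨ Kv ρ k jt3 := by
  obtain ⟨i, hi, j, hj, e⟩ := h.kv_tab hK
  have p : ∀ y ∈ Y, ∀ A, Kv ρ y A → p8 A = c1 := fun y hy A hA => by
    obtain ⟨n, hn⟩ := h2 ⟨y, hy⟩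
    exact kv_p8 h hA (n := n) (congrArg Subtype.val hn)
  have a4 := (h.kv_comm_ζ e (by norm_num)).1 hz
  rw [za_tab h hi hj (by norm_num)] at a4
  have h1 := allLt_iff.1 o2_check j hj
  rw [force_eq, a4, Nat.beq_refl, Bool.not_true, Bool.false_or] at h1
  have h3 := allLt_iff.1 h1 i hi
  rw [force_eq, p k hk _ e, Nat.beq_refl, lall_iff.2 fun n hn => by
    have h4 := lall_iff.1 NI_spec n hn
    rw [Bool.and_eq_true, Bool.and_eq_true, anyLt_iff] at h4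
    obtain ⟨⟨u, z⟩, i', hi', t⟩ := h4
    obtain ⟨m, hm⟩ : ∃ m, Kv ρ m n := by
      simp only [Bool.or_eq_true, Nat.beq_eq] at t
      rcases t with (t | t) | t <;> rw [t] <;> exact h.exists_tab (by omega) (by norm_num)
    rw [p _ (mul_mem hk (hY m hm.1 ((h.kv_comm_ζ hm (by norm_num)).2 (eq_of_beq z)) k hk)) _
      (e.mul ((hm.mul e).mul (hm.inv u)))]
    exact Nat.beq_refl _] at h3
  simp only [Bool.not_true, Bool.or_self, Bool.false_or, Bool.or_eq_true, Nat.beq_eq] at h3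
  rcases h3 with ((t | t) | t) | t
  exacts [Or.inl (e.cast t), Or.inr (Or.inl (e.cast t)), Or.inr (Or.inr (Or.inl (e.cast t))),
    Or.inr (Or.inr (Or.inr (e.cast t)))]

theorem Z_le_of_ζ {c : ℕ} (hc : c < 8) (h0 : c ≠ 0) (h4 : c ≠ 4) (hm : ζ c ∈ Y) :
    ∀ d < 8, ζ d ∈ Y := by
  have key : ∀ d < 8, d ≠ 0 → d ≠ 4 → ζ d ∈ Y := fun d hd d0 d4 => by
    obtain ⟨j, hj, e1, e2⟩ := trans_six c hc d hd h0 h4 d0 d4
    obtain ⟨m, hm', e⟩ := exists_M_TW h hj e1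
    rw [← e2, ← h.conj_ζ hm' hc]
    exact hY m hm'.1 e _ hm
  intro d hd
  by_cases d0 : d = 0
  · rw [d0, h.ζ_zero]; exact one_mem _
  by_cases d4 : d = 4
  · rw [d4, show 4 = 1 ^^^ 5 from rfl, h.ζ_mul 1 (by norm_num) 5 (by norm_num)]
    exact mul_mem (key 1 (by norm_num) (by norm_num) (by norm_num))
      (key 5 (by norm_num) (by norm_num) (by norm_num))
  · exact key d hd d0 d4

theorem comm_mem {y : G} (hy : y ∈ Y) {a : G} (ha : a ∈ L) : a * y * a⁻¹ * y⁻¹ ∈ Y :=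
  mul_mem (hY a (h.le ha) (h.ζ_comm (by norm_num) ha).symm y hy) (inv_mem hy)

theorem Z_le_of_κ {a : G} (ha : a ∈ L) (hm : a ∈ Y) (h0 : κ a ≠ 0) : ∀ d < 8, ζ d ∈ Y := by
  obtain ⟨v, hv, e1, e2⟩ := cm_six _ (h.κ_lt a ha) h0
  obtain ⟨b, hb, rfl⟩ := h.κ_surj v hv
  refine Z_le_of_ζ h hY (cmC_lt _ _) e1 e2 ?_
  rw [cmC_comm, ← h.commutator hb ha]
  exact comm_mem h hY hm hb

theorem exists_κ_ne {y : G} (hy : y ∈ Y) (hK : y ∈ K) (hZ : ∀ c < 8, y ≠ ζ c) :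
    ∃ a ∈ L, a ∈ Y ∧ κ a ≠ 0 := by
  by_contra hn
  have hn' : ∀ a ∈ L, a ∈ Y → κ a = 0 := fun a ha ha' => by_contra fun e => hn ⟨a, ha, ha', e⟩
  have hL : y ∈ L := mem_L_of_fix h hK fun a ha => by
    have := hn' _ (commutator_mem h hK ha) (comm_mem h hY hy ha)
    rw [κ_commutator h (kv_of hK) ha, ← h.κ_kv (kv_of hK) ha] at this
    exact (Nat.xor_eq_zero_iff.1 this).symm
  obtain ⟨c, hc, e⟩ := (h.κ_zero y hL).1 (hn' y hL hy)
  exact hZ c hc e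

theorem Z_le_of_ne {y : G} (hy : y ∈ Y) (hK : y ∈ K) (h1 : y ≠ 1) (h4 : y ≠ ζ 4) :
    ∀ d < 8, ζ d ∈ Y := by
  by_cases hZ : ∀ c < 8, y ≠ ζ c
  · obtain ⟨a, ha, ha', e⟩ := exists_κ_ne h hY hy hK hZ
    exact Z_le_of_κ h hY ha ha' e
  · push Not at hZ
    obtain ⟨c, hc, rfl⟩ := hZ
    exact Z_le_of_ζ h hY hc (fun e => h1 (by rw [e, h.ζ_zero])) (fun e => h4 (by rw [e])) hy

omit hY in
theorem P_xor {u v : ℕ} (hu : ∃ a ∈ L, a ∈ Y ∧ κ a = u) (hv : ∃ a ∈ L, a ∈ Y ∧ κ a = v) :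
    ∃ a ∈ L, a ∈ Y ∧ κ a = u ^^^ v := by
  obtain ⟨a, ha, ha', rfl⟩ := hu
  obtain ⟨b, hb, hb', rfl⟩ := hv
  exact ⟨a * b, mul_mem ha hb, mul_mem ha' hb', h.κ_mul a ha b hb⟩

theorem P_ac {u A : ℕ} (hu : ∃ a ∈ L, a ∈ Y ∧ κ a = u) (hA : ∃ m, Kv ρ m A ∧ m * ζ 4 = ζ 4 * m) :
    ∃ a ∈ L, a ∈ Y ∧ κ a = ac A u := by
  obtain ⟨a, ha, ha', rfl⟩ := hu
  obtain ⟨m, hm, e⟩ := hA
  exact ⟨_, h.conj_mem m hm.1 a ha, hY m hm.1 e a ha', h.κ_kv hm ha⟩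

omit hY in
theorem exists_M_TN {i : ℕ} (hi : i < 120) : ∃ m, Kv ρ m (TN i) ∧ m * ζ 4 = ζ 4 * m := by
  obtain ⟨m, hm⟩ := h.exists_TN hi
  exact ⟨m, hm, (h.kv_comm_ζ hm (by norm_num)).2 (za_TN i hi 4 (by norm_num))⟩

omit hY in
theorem mem_of_P (hZ : ∀ d < 8, ζ d ∈ Y) {b : G} (hb : b ∈ L) (hu : ∃ a ∈ L, a ∈ Y ∧ κ a = κ b) :
    b ∈ Y := by
  obtain ⟨a, ha, ha', e⟩ := hu
  obtain ⟨c, hc, rfl⟩ := h.exists_ζ hb ha e.symm
  exact mul_mem ha' (hZ c hc)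

theorem low_le {a : G} (ha : a ∈ L) (hm : a ∈ Y) (h0 : κ a ≠ 0) :
    ∀ b ∈ L, κ b < 256 → b ∈ Y := by
  have p : ∃ a' ∈ L, a' ∈ Y ∧ κ a' = κ a := ⟨a, ha, hm, rfl⟩
  obtain ⟨n, hn, n0, pn⟩ : ∃ n < 16, n ≠ 0 ∧ ∃ a ∈ L, a ∈ Y ∧ κ a = n := by
    rcases red_low _ (h.κ_lt a ha) h0 with e | e | e
    · exact ⟨_, e, h0, p⟩
    · exact ⟨_, e.2, e.1, P_xor h p (P_ac h hY p (exists_ju h))⟩
    · exact ⟨_, e.2, e.1, P_xor h p (P_ac h hY p (exists_jt1 h))⟩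
  have q : ∀ n' < 16, ∃ a ∈ L, a ∈ Y ∧ κ a = n' := fun n' hn' => by
    by_cases e : n' = 0
    · exact ⟨1, one_mem _, one_mem _, by rw [e, h.κ_one]⟩
    · obtain ⟨i, hi, e1, -⟩ := trans_N n hn n' hn' n0 e
      simpa only [e1] using P_ac h hY pn (exists_M_TN h hi)
  refine fun b hb hlt => mem_of_P h (Z_le_of_κ h hY ha hm h0) hb ?_
  rw [split8 _ hlt, ← misc_vals.1 _ (show κ b / 16 < 16 by omega)]
  exact P_xor h (q _ (Nat.mod_lt _ (by norm_num))) (P_ac h hY (q _ (by omega)) (exists_jx h))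

theorem all_le {a : G} (ha : a ∈ L) (hm : a ∈ Y) (h0 : 256 ≤ κ a) : ∀ b ∈ L, b ∈ Y := by
  have low := low_le h hY ha hm (by omega)
  have hlt := h.κ_lt a ha
  have p : ∀ v < 256, ∃ a ∈ L, a ∈ Y ∧ κ a = v := fun v hv => by
    obtain ⟨b, hb, e⟩ := h.κ_surj v (by omega)
    exact ⟨b, hb, low b hb (e ▸ hv), e⟩
  have p1 : ∃ a' ∈ L, a' ∈ Y ∧ κ a' = 256 * (κ a / 256) := by
    have := P_xor h (p (κ a % 256) (Nat.mod_lt _ (by norm_num))) ⟨a, ha, hm, split12 hlt⟩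
    rwa [← Nat.xor_assoc, Nat.xor_self, Nat.zero_xor] at this
  refine fun b hb => mem_of_P h (Z_le_of_κ h hY ha hm (by omega)) hb ?_
  have hb' := h.κ_lt b hb
  rw [split12 hb']
  refine P_xor h (p _ (Nat.mod_lt _ (by norm_num))) ?_
  by_cases e : κ b / 256 = 0
  · exact ⟨1, one_mem _, one_mem _, by rw [e, h.κ_one]⟩
  · obtain ⟨i, hi, -, e1⟩ := trans_N (κ a / 256) (by omega) (κ b / 256) (by omega) (by omega) e
    simpa only [e1] using P_ac h hY p1 (exists_M_TN h hi)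

theorem exists_three {y : G} (hy : y ∈ Y) (hk : Kv ρ y jt1 ∨ Kv ρ y jt2 ∨ Kv ρ y jt3) :
    (∃ y ∈ Y, Kv ρ y jt1) ∧ (∃ y ∈ Y, Kv ρ y jt2) ∧ ∃ y ∈ Y, Kv ρ y jt3 := by
  obtain ⟨m, hm, e⟩ := exists_jx h
  obtain ⟨-, -, -, -, u, e1, e2, e3⟩ := misc_vals
  have step : ∀ {A B : ℕ}, mm (mm jx A) (mm jx jx) = B → (∃ y ∈ Y, Kv ρ y A) → ∃ y ∈ Y, Kv ρ y B :=
    fun eq ⟨y, hy, hk⟩ => ⟨_, hY m hm.1 e y hy, ((hm.mul hk).mul (hm.inv u)).cast eq⟩
  rcases hk with hk | hk | hk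
  · exact ⟨⟨y, hy, hk⟩, step e1 ⟨y, hy, hk⟩, step e2 (step e1 ⟨y, hy, hk⟩)⟩
  · exact ⟨step e3 (step e2 ⟨y, hy, hk⟩), ⟨y, hy, hk⟩, step e2 ⟨y, hy, hk⟩⟩
  · exact ⟨step e3 ⟨y, hy, hk⟩, step e1 (step e3 ⟨y, hy, hk⟩), ⟨y, hy, hk⟩⟩

end CL.J4P.X6
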