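import Cfsg.Agent.SPOR.J4P.Dat
import Cfsg.Agent.SPOR.LXSing

/-!
Coordinates for a subgroup `K = 2^(3+12).(S5 × L3(2))`, the normaliser of the centre `Z` of
`L = 2^(3+12)`.
-/

set_option autoImplicit false
set_option maxRecDepth 100000
set_option linter.unusedSectionVars false
set_option linter.unusedVariables false

namespace CL.J4P

open CL.K CL.CG CL.F2M CL.F24 CL.J4 CL.LX CL.MSS

attribute [local irreducible] gcode vcode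

variable {G : Type*} [Group G]

/-- `κ` are coordinates on `L / Z`, `ζ` parametrises `Z`, `ρ` is the action of `K` on `L / Z`. -/
structure PC (K L : Subgroup G) (κ : G → ℕ) (ρ : K →* GL12) (ζ : ℕ → G) : Prop where
  le : L ≤ K
  κ_lt : ∀ a ∈ L, κ a < 4096
  κ_mul : ∀ a ∈ L, ∀ b ∈ L, κ (a * b) = κ a ^^^ κ b
  κ_surj : ∀ v < 4096, ∃ a ∈ L, κ a = v
  κ_zero : ∀ a ∈ L, κ a = 0 ↔ ∃ c < 8, a = ζ c
  ζ_mem : ∀ c < 8, ζ c ∈ L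
  ζ_mul : ∀ c < 8, ∀ d < 8, ζ (c ^^^ d) = ζ c * ζ d
  ζ_inj : ∀ c < 8, ζ c = 1 → c = 0
  conj_mem : ∀ k ∈ K, ∀ a ∈ L, k * a * k⁻¹ ∈ L
  κ_conj : ∀ k : K, ∀ a ∈ L, κ (k * a * (k : G)⁻¹) = ac (gcode (ρ k)) (κ a)
  ker : ∀ k : K, ρ k = 1 ↔ (k : G) ∈ L
  range : ρ.range = gen gcode LJ
  comm : ∀ a ∈ L, ∀ b ∈ L, a * b = b * a * ζ (cmC (κ a) (κ b))
  sq : ∀ a ∈ L, a * a = ζ (sqC (κ a))
  norm : ∀ g, g ∈ K ↔ ∀ c < 8, ∃ d < 8, g * ζ c * g⁻¹ = ζ d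

/-- `k` lies in `K` and acts on `L / Z` as the matrix with code `A` -/
def Kv {K : Subgroup G} (ρ : K →* GL12) (k : G) (A : ℕ) : Prop :=
  ∃ hk : k ∈ K, gcode (ρ ⟨k, hk⟩) = A

/-- the large extraspecial subgroup at `z = ζ 4` -/
structure QD {K : Subgroup G} (L : Subgroup G) (κ : G → ℕ) (ρ : K →* GL12) (ζ : ℕ → G)
    (Q : Subgroup G) : Prop where
  lx : LX Q (ζ 4)
  card : Nat.card Q = 2 ^ 13
  inL : ∀ a ∈ L, a ∈ Q ↔ κ a < 256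
  act : ∀ q ∈ Q, Kv ρ q c1 ∨ Kv ρ q jt1 ∨ Kv ρ q jt2 ∨ Kv ρ q jt3
  ex : ∃ q ∈ Q, Kv ρ q jt1

section Kv
variable {K : Subgroup G} {ρ : K →* GL12}

theorem Kv.mem {k : G} {A : ℕ} (h : Kv ρ k A) : k ∈ K := h.1

theorem kv_of {k : G} (hk : k ∈ K) : Kv ρ k (gcode (ρ ⟨k, hk⟩)) := ⟨hk, rfl⟩

theorem Kv.unique {k : G} {A B : ℕ} (h : Kv ρ k A) (h' : Kv ρ k B) : A = B := h.2.symm.trans h'.2

theorem kv_one : Kv ρ 1 c1 := ⟨one_mem _, (congrArg gcode (map_one ρ)).trans C12.map_one⟩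

theorem Kv.mul {k l : G} {A B : ℕ} (h : Kv ρ k A) (h' : Kv ρ l B) : Kv ρ (k * l) (mm A B) :=
  ⟨mul_mem h.1 h'.1, by
    rw [← code_mul h.2 h'.2, ← map_mul]; rfl⟩

theorem Kv.pow {k : G} {A : ℕ} (h : Kv ρ k A) (n : ℕ) : Kv ρ (k ^ n) (powC mm c1 A n) :=
  ⟨pow_mem h.1 n, by
    rw [← code_pow h.2 n, ← map_pow]; rfl⟩

theorem Kv.top {k : G} {A : ℕ} (h : Kv ρ k A) : Mem (gcode : GL12 → ℕ) ⊤ A := h.2 ▸ mem_top _

/-- the inverse, read off from a code -/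
theorem Kv.inv {k : G} {A B : ℕ} (h : Kv ρ k A) (hB : F2M.unitB 12 CM 4095 B A = true) :
    Kv ρ k⁻¹ B :=
  ⟨inv_mem h.1, by
    rw [← code_inv h.2 hB, ← map_inv]; rfl⟩

theorem Kv.cast {k : G} {A B : ℕ} (h : Kv ρ k A) (e : A = B) : Kv ρ k B := e ▸ h

end Kv

namespace PC
variable {K L : Subgroup G} {κ : G → ℕ} {ρ : K →* GL12} {ζ : ℕ → G} (h : PC K L κ ρ ζ)
include h

theorem ζ_zero : ζ 0 = 1 := by
  have := h.ζ_mul 0 (by norm_num) 0 (by norm_num)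
  rw [Nat.xor_self] at this
  exact left_eq_mul.1 this

theorem ζ_sq {c : ℕ} (hc : c < 8) : ζ c * ζ c = 1 := by
  rw [← h.ζ_mul c hc c hc, Nat.xor_self, h.ζ_zero]

theorem ζ_inv {c : ℕ} (hc : c < 8) : (ζ c)⁻¹ = ζ c := inv_eq_of_mul_eq_one_right (h.ζ_sq hc)

theorem ζ_eq {c d : ℕ} (hc : c < 8) (hd : d < 8) (e : ζ c = ζ d) : c = d := by
  have := h.ζ_inj _ (xor8 hc hd) (by rw [h.ζ_mul c hc d hd, e, h.ζ_sq hd])
  exact Nat.xor_eq_zero_iff.1 this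

theorem ζ_ne {c : ℕ} (hc : c < 8) (h0 : c ≠ 0) : ζ c ≠ 1 := fun e => h0 (h.ζ_inj c hc e)

theorem κ_ζ {c : ℕ} (hc : c < 8) : κ (ζ c) = 0 := (h.κ_zero _ (h.ζ_mem c hc)).2 ⟨c, hc, rfl⟩

theorem κ_one : κ 1 = 0 := h.ζ_zero ▸ h.κ_ζ (by norm_num)

theorem κ_inv {a : G} (ha : a ∈ L) : κ a⁻¹ = κ a := by
  have := h.κ_mul a ha a⁻¹ (inv_mem ha)
  rw [mul_inv_cancel, h.κ_one] at this
  exact (Nat.xor_eq_zero_iff.1 this.symm).symm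

theorem κ_mul_ζ {a : G} (ha : a ∈ L) {c : ℕ} (hc : c < 8) : κ (a * ζ c) = κ a := by
  rw [h.κ_mul a ha _ (h.ζ_mem c hc), h.κ_ζ hc, Nat.xor_zero]

theorem exists_ζ {a b : G} (ha : a ∈ L) (hb : b ∈ L) (e : κ a = κ b) : ∃ c < 8, a = b * ζ c := by
  obtain ⟨c, hc, e'⟩ := (h.κ_zero _ (mul_mem (inv_mem hb) ha)).1 (by
    rw [h.κ_mul _ (inv_mem hb) _ ha, h.κ_inv hb, e, Nat.xor_self])
  exact ⟨c, hc, by rw [← e', mul_inv_cancel_left]⟩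

theorem ζ_comm {c : ℕ} (hc : c < 8) {a : G} (ha : a ∈ L) : ζ c * a = a * ζ c := by
  rw [h.comm _ (h.ζ_mem c hc) a ha, h.κ_ζ hc, cmC_zero, h.ζ_zero, mul_one]

theorem comm_iff {a b : G} (ha : a ∈ L) (hb : b ∈ L) : a * b = b * a ↔ cmC (κ a) (κ b) = 0 := by
  refine ⟨fun e => h.ζ_inj _ (cmC_lt _ _) ?_, fun e => by rw [h.comm a ha b hb, e, h.ζ_zero, mul_one]⟩
  have := h.comm a ha b hb
  rw [e] at this
  exact left_eq_mul.1 this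

theorem commutator {a b : G} (ha : a ∈ L) (hb : b ∈ L) :
    a * b * a⁻¹ * b⁻¹ = ζ (cmC (κ a) (κ b)) := by
  rw [h.comm a ha b hb, ← h.ζ_comm (cmC_lt _ _) (mul_mem hb ha)]
  group

theorem sq_iff {a : G} (ha : a ∈ L) : a * a = 1 ↔ sqC (κ a) = 0 :=
  ⟨fun e => h.ζ_inj _ (sqC_lt _) (by rw [← h.sq a ha, e]), fun e => by rw [h.sq a ha, e, h.ζ_zero]⟩

theorem conj_mem' {k : G} (hk : k ∈ K) {a : G} (ha : a ∈ L) : k⁻¹ * a * k ∈ L := by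
  simpa using h.conj_mem k⁻¹ (inv_mem hk) a ha

theorem κ_kv {k : G} {A : ℕ} (hk : Kv ρ k A) {a : G} (ha : a ∈ L) :
    κ (k * a * k⁻¹) = ac A (κ a) := hk.2 ▸ h.κ_conj ⟨k, hk.1⟩ a ha

theorem kv_L {a : G} (ha : a ∈ L) : Kv ρ a c1 :=
  ⟨h.le ha, (congrArg gcode ((h.ker ⟨a, h.le ha⟩).2 ha)).trans C12.map_one⟩

theorem mem_L {k : G} (hk : Kv ρ k c1) : k ∈ L :=
  (h.ker ⟨k, hk.1⟩).1 (C12.inj (hk.2.trans C12.map_one.symm))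

theorem inv_mul_mem {k l : G} {A : ℕ} (hk : Kv ρ k A) (hl : Kv ρ l A) : k⁻¹ * l ∈ L :=
  (h.ker ((⟨k, hk.1⟩ : K)⁻¹ * ⟨l, hl.1⟩)).1 (by
    rw [map_mul, map_inv, C12.inj (hk.2.trans hl.2.symm), inv_mul_cancel])

theorem mul_inv_mem {k l : G} {A : ℕ} (hk : Kv ρ k A) (hl : Kv ρ l A) : k * l⁻¹ ∈ L :=
  (h.ker (⟨k, hk.1⟩ * (⟨l, hl.1⟩ : K)⁻¹)).1 (by
    rw [map_mul, map_inv, C12.inj (hk.2.trans hl.2.symm), mul_inv_cancel])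

theorem kv_gen {k : G} {A : ℕ} (hk : Kv ρ k A) : Mem (gcode : GL12 → ℕ) (gen gcode LJ) A :=
  ⟨_, h.range ▸ ⟨⟨k, hk.1⟩, rfl⟩, hk.2⟩

theorem exists_kv {A : ℕ} (hA : Mem (gcode : GL12 → ℕ) (gen gcode LJ) A) : ∃ k, Kv ρ k A := by
  obtain ⟨g, hg, rfl⟩ := hA
  obtain ⟨k, rfl⟩ := h.range ▸ hg
  exact ⟨k, k.2, rfl⟩

/-- every element of `K` acts as a product of table entries -/
theorem kv_tab {k : G} (hk : k ∈ K) : ∃ i < 120, ∃ j < 168, Kv ρ k (mm (TN i) (TW j)) := by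
  obtain ⟨i, hi, j, hj, e⟩ := code_LJ (g := ρ ⟨k, hk⟩) (h.range ▸ ⟨_, rfl⟩)
  exact ⟨i, hi, j, hj, hk, e⟩

theorem exists_tab {i j : ℕ} (hi : i < 120) (hj : j < 168) : ∃ k, Kv ρ k (mm (TN i) (TW j)) :=
  h.exists_kv (exists_LJ hi hj)

theorem exists_TN {i : ℕ} (hi : i < 120) : ∃ k, Kv ρ k (TN i) :=
  h.exists_kv ((sound_TN i hi).mono LN_le)

theorem exists_TW {j : ℕ} (hj : j < 168) : ∃ k, Kv ρ k (TW j) :=
  h.exists_kv ((sound_TW j hj).mono LW_le)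

theorem conj_cm {k : G} {A : ℕ} (hk : Kv ρ k A) {u v : ℕ} (hu : u < 4096) (hv : v < 4096) :
    k * ζ (cmC u v) * k⁻¹ = ζ (cmC (ac A u) (ac A v)) := by
  obtain ⟨a, ha, rfl⟩ := h.κ_surj u hu
  obtain ⟨b, hb, rfl⟩ := h.κ_surj v hv
  rw [← h.κ_kv hk ha, ← h.κ_kv hk hb, ← h.commutator ha hb,
    ← h.commutator (h.conj_mem k hk.1 a ha) (h.conj_mem k hk.1 b hb)]
  group

/-- the action on the centre -/
theorem conj_ζ {k : G} {A : ℕ} (hk : Kv ρ k A) {c : ℕ} (hc : c < 8) :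
    k * ζ c * k⁻¹ = ζ (za A c) := by
  have e1 := h.conj_cm hk (u := 16) (v := 2048) (by norm_num) (by norm_num)
  have e2 := h.conj_cm hk (u := 256) (v := 8) (by norm_num) (by norm_num)
  have e3 := h.conj_cm hk (u := 1) (v := 128) (by norm_num) (by norm_num)
  rw [show cmC 16 2048 = 1 by decide +kernel] at e1
  rw [show cmC 256 8 = 2 by decide +kernel] at e2
  rw [show cmC 1 128 = 4 by decide +kernel] at e3
  have b : ∀ i, bit c i = 0 ∨ bit c i = 1 := fun i => by have := bit_lt c i; omega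
  have f : ∀ {a d : ℕ}, a < 8 → d < 8 → k * ζ a * k⁻¹ = ζ d → ∀ i,
      k * ζ (bit c i * a) * k⁻¹ = ζ (bit c i * d) ∧ bit c i * a < 8 ∧ bit c i * d < 8 := by
    intro a d ha hd e i
    rcases b i with e' | e' <;> rw [e']
    · simp [h.ζ_zero]
    · simpa [ha, hd] using e
  obtain ⟨a1, a2, a3⟩ := f (by norm_num) (cmC_lt _ _) e1 0
  obtain ⟨b1, b2, b3⟩ := f (by norm_num) (cmC_lt _ _) e2 1
  obtain ⟨c1, c2, c3⟩ := f (by norm_num) (cmC_lt _ _) e3 2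
  have ec : ∀ c < 8, c = bit c 0 * 1 ^^^ bit c 1 * 2 ^^^ bit c 2 * 4 := by decide
  change _ = ζ (bit c 0 * _ ^^^ bit c 1 * _ ^^^ bit c 2 * _)
  rw [h.ζ_mul _ (xor8 a3 b3) _ c3, h.ζ_mul _ a3 _ b3, ← a1, ← b1, ← c1]
  conv_lhs => rw [ec c hc, h.ζ_mul _ (xor8 a2 b2) _ c2, h.ζ_mul _ a2 _ b2]
  group

theorem kv_comm_ζ {k : G} {A : ℕ} (hk : Kv ρ k A) {c : ℕ} (hc : c < 8) :
    k * ζ c = ζ c * k ↔ za A c = c :=
  ⟨fun e => h.ζ_eq (za_lt _ _) hc (by rw [← h.conj_ζ hk hc, e, mul_inv_cancel_right]),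
    fun e => mul_inv_eq_iff_eq_mul.1 (by rw [h.conj_ζ hk hc, e])⟩

/-- `K` is transitive on the involutions of `Z` -/
theorem exists_conj_ζ {c : ℕ} (hc : c < 8) (h0 : c ≠ 0) : ∃ k ∈ K, k * ζ 4 * k⁻¹ = ζ c := by
  have : ∀ c < 8, c ≠ 0 → anyLt (fun j => Nat.beq (za (TW j) 4) c) 168 = true := by decide +kernel
  obtain ⟨j, hj, e⟩ := anyLt_iff.1 (this c hc h0)
  obtain ⟨k, hk⟩ := h.exists_TW hj
  exact ⟨k, hk.1, by rw [h.conj_ζ hk (by norm_num), eq_of_beq e]⟩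

theorem mem_K_of_cent {g : G} (hg : ∀ c < 8, g * ζ c = ζ c * g) : g ∈ K :=
  (h.norm g).2 fun c hc => ⟨c, hc, by rw [hg c hc, mul_inv_cancel_right]⟩

end PC

end CL.J4P
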