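import Cfsg.Agent.SPOR.J4P.PC

/-!
More lemmas on the coordinates of `2^(3+12).(S5 × L3(2))`.
-/

set_option autoImplicit false
set_option maxRecDepth 100000
set_option linter.unusedSectionVars false
set_option linter.unusedVariables false

namespace CL.J4P.X6

open CL.K CL.CG CL.F2M CL.F24 CL.J4 CL.LX CL.MSS CL.J4P

attribute [local irreducible] gcode vcode

variable {G : Type*} [Group G]

section Kv
variable {K : Subgroup G} {ρ : K →* GL12}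

theorem ac_mm {k l : G} {A B : ℕ} (hk : Kv ρ k A) (hl : Kv ρ l B) {v : ℕ} (hv : v < 4096) :
    ac (mm A B) v = ac A (ac B v) := by
  rw [← code_mul hk.2 hl.2, ac_mul _ _ hv, hk.2, hl.2]

theorem ac_xor' {k : G} {A : ℕ} (hk : Kv ρ k A) {u v : ℕ} (hu : u < 4096) (hv : v < 4096) :
    ac A (u ^^^ v) = ac A u ^^^ ac A v := hk.2 ▸ ac_xor _ hu hv

theorem ac_zero' {k : G} {A : ℕ} (hk : Kv ρ k A) : ac A 0 = 0 := hk.2 ▸ ac_zero _

theorem ac_c1 {v : ℕ} (hv : v < 4096) : ac c1 v = v := by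
  rw [← C12.map_one, ← vcode_vdec (n := 12) hv, ac_code, one_smul]

theorem eq_c1 {k : G} {A : ℕ} (hk : Kv ρ k A) (h : ∀ v < 4096, ac A v = v) : A = c1 := by
  rw [← hk.2, ← C12.map_one]
  refine congrArg gcode (gl_ext fun v => vcode_injective ?_)
  rw [← ac_code, hk.2, h _ (vcode_lt v), one_smul]

theorem mm_c1 {k : G} {A : ℕ} (hk : Kv ρ k A) : mm A c1 = A :=
  (hk.mul kv_one).unique (by rwa [mul_one])

theorem c1_mm {k : G} {A : ℕ} (hk : Kv ρ k A) : mm c1 A = A :=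
  (kv_one.mul hk).unique (by rwa [one_mul])

theorem kv_sq {k : G} {A : ℕ} (hk : Kv ρ k A) (e : k * k = 1) : mm A A = c1 :=
  (hk.mul hk).unique (e ▸ kv_one)

theorem kv_comm {k l : G} {A B : ℕ} (hk : Kv ρ k A) (hl : Kv ρ l B) (e : k * l = l * k) :
    mm A B = mm B A := (hk.mul hl).unique (e ▸ hl.mul hk)

theorem ac_inj {k : G} {A : ℕ} (hk : Kv ρ k A) {u v : ℕ} (hu : u < 4096) (hv : v < 4096)
    (e : ac A u = ac A v) : u = v := by
  have hi : Kv ρ k⁻¹ _ := kv_of (inv_mem hk.1)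
  have h1 : mm _ A = c1 := (hi.mul hk).unique (by rw [inv_mul_cancel]; exact kv_one)
  rw [← ac_c1 hu, ← ac_c1 hv, ← h1, ac_mm hi hk hu, ac_mm hi hk hv, e]

end Kv

theorem za_TN : ∀ i < 120, ∀ c < 8, za (TN i) c = c := by
  have : allLt (fun i => allLt (fun c => Nat.beq (za (TN i) c) c) 8) 120 = true := by
    decide +kernel
  exact fun i hi c hc => eq_of_beq (allLt_iff.1 (allLt_iff.1 this i hi) c hc)

theorem za_TW_fix : ∀ j < 168, za (TW j) 2 = 2 → za (TW j) 4 = 4 →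
    TW j = c1 ∨ TW j = ju ∨ TW j = jt1 ∨ TW j = mm ju jt1 := by
  have : allLt (fun j => force (TW j) fun A => !Nat.beq (za A 2) 2 || !Nat.beq (za A 4) 4 ||
      Nat.beq A c1 || Nat.beq A ju || Nat.beq A jt1 || Nat.beq A (mm ju jt1)) 168 = true := by
    decide +kernel
  intro j hj h2 h4
  have := allLt_iff.1 this j hj
  rw [force_eq, h2, h4] at this
  simpa [or_assoc] using this

theorem za_vals : (∀ c < 8, za c1 c = c) ∧ za ju 1 = 3 ∧ za jt1 1 = 5 ∧ za (mm ju jt1) 1 = 7 := by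
  decide +kernel

theorem cm_rad : ∀ u < 4096, (∀ v < 4096, cmC u v = 0) → u = 0 := by
  have : allN (fun u => Nat.beq u 0 || anyLt (fun i => !Nat.beq (cmC u (Nat.shiftLeft 1 i)) 0) 12) 4096
      = true := by decide +kernel
  intro u hu h
  have := allN_spec this u hu
  rw [Bool.or_eq_true, anyLt_iff] at this
  rcases this with e | ⟨i, hi, e⟩
  · exact eq_of_beq e
  · rw [h _ (by rw [shl, one_mul]; exact Nat.pow_lt_pow_right one_lt_two hi)] at e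
    exact absurd e (by decide)

variable {K L : Subgroup G} {κ : G → ℕ} {ρ : K →* GL12} {ζ : ℕ → G} (h : PC K L κ ρ ζ)
include h

theorem za_mm {k l : G} {A B : ℕ} (hk : Kv ρ k A) (hl : Kv ρ l B) {c : ℕ} (hc : c < 8) :
    za (mm A B) c = za A (za B c) :=
  h.ζ_eq (za_lt _ _) (za_lt _ _) (by
    rw [← h.conj_ζ (hk.mul hl) hc, ← h.conj_ζ hk (za_lt _ _), ← h.conj_ζ hl hc]; group)

theorem za_xor {k : G} {A : ℕ} (hk : Kv ρ k A) {c d : ℕ} (hc : c < 8) (hd : d < 8) :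
    za A (c ^^^ d) = za A c ^^^ za A d :=
  h.ζ_eq (za_lt _ _) (xor8 (za_lt _ _) (za_lt _ _)) (by
    rw [← h.conj_ζ hk (xor8 hc hd), h.ζ_mul _ (za_lt _ _) _ (za_lt _ _), ← h.conj_ζ hk hc,
      ← h.conj_ζ hk hd, h.ζ_mul c hc d hd]; group)

theorem za_tab {i j : ℕ} (hi : i < 120) (hj : j < 168) {c : ℕ} (hc : c < 8) :
    za (mm (TN i) (TW j)) c = za (TW j) c := by
  obtain ⟨k, hk⟩ := h.exists_TN hi
  obtain ⟨l, hl⟩ := h.exists_TW hj
  rw [za_mm h hk hl hc, za_TN i hi _ (za_lt _ _)]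

/-- an element of `K` that centralises `ζ 2` and `ζ 4` -/
theorem kv_axis {k : G} (hk : k ∈ K) (h2 : k * ζ 2 = ζ 2 * k) (h4 : k * ζ 4 = ζ 4 * k) :
    ∃ i < 120, ∃ B, (B = c1 ∨ B = ju ∨ B = jt1 ∨ B = mm ju jt1) ∧ Kv ρ k (mm (TN i) B) ∧
      ∀ c < 8, k * ζ c * k⁻¹ = ζ (za B c) := by
  obtain ⟨i, hi, j, hj, e⟩ := h.kv_tab hk
  have a2 := (h.kv_comm_ζ e (by norm_num)).1 h2
  have a4 := (h.kv_comm_ζ e (by norm_num)).1 h4
  rw [za_tab h hi hj (by norm_num)] at a2 a4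
  exact ⟨i, hi, _, za_TW_fix j hj a2 a4, e, fun c hc => by rw [h.conj_ζ e hc, za_tab h hi hj hc]⟩

/-- the centraliser of `Z` acts as `S5` -/
theorem kv_TN {k : G} (hk : ∀ c < 8, k * ζ c = ζ c * k) : ∃ i < 120, Kv ρ k (TN i) := by
  obtain ⟨i, hi, B, hB, e, e'⟩ := kv_axis h (h.mem_K_of_cent hk) (hk 2 (by norm_num))
    (hk 4 (by norm_num))
  have e1 := e' 1 (by norm_num)
  rw [hk 1 (by norm_num), mul_inv_cancel_right] at e1
  have e2 := h.ζ_eq (by norm_num) (za_lt _ _) e1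
  obtain ⟨n, hn⟩ := h.exists_TN hi
  rcases hB with rfl | rfl | rfl | rfl
  · exact ⟨i, hi, e.cast (mm_c1 hn)⟩
  · rw [za_vals.2.1] at e2; omega
  · rw [za_vals.2.2.1] at e2; omega
  · rw [za_vals.2.2.2] at e2; omega

theorem ζ_comm_ζ {c d : ℕ} (hc : c < 8) (hd : d < 8) : ζ c * ζ d = ζ d * ζ c :=
  h.ζ_comm hc (h.ζ_mem d hd)

/-- `κ` of a commutator -/
theorem κ_commutator {k : G} {A : ℕ} (hk : Kv ρ k A) {a : G} (ha : a ∈ L) :
    κ (a * k * a⁻¹ * k⁻¹) = κ a ^^^ ac A (κ a) := by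
  have : a * k * a⁻¹ * k⁻¹ = a * (k * a⁻¹ * k⁻¹) := by group
  rw [this, h.κ_mul _ ha _ (h.conj_mem k hk.1 _ (inv_mem ha)), h.κ_kv hk (inv_mem ha), h.κ_inv ha]

theorem commutator_mem {k : G} (hk : k ∈ K) {a : G} (ha : a ∈ L) : a * k * a⁻¹ * k⁻¹ ∈ L := by
  have : a * k * a⁻¹ * k⁻¹ = a * (k * a⁻¹ * k⁻¹) := by group
  rw [this]
  exact mul_mem ha (h.conj_mem k hk _ (inv_mem ha))

/-- an element of `K` that acts trivially on `L / Z` lies in `L` -/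
theorem mem_L_of_fix {k : G} (hk : k ∈ K) (e : ∀ a ∈ L, κ (k * a * k⁻¹) = κ a) : k ∈ L := by
  refine h.mem_L ((kv_of hk).cast (eq_c1 (kv_of hk) fun v hv => ?_))
  obtain ⟨a, ha, rfl⟩ := h.κ_surj v hv
  rw [← h.κ_kv (kv_of hk) ha, e a ha]

/-- `C_K(L) = Z` -/
theorem cent_L {k : G} (hk : ∀ a ∈ L, k * a = a * k) : ∃ c < 8, k = ζ c := by
  have hK : k ∈ K := h.mem_K_of_cent fun c hc => hk _ (h.ζ_mem c hc)
  have hL : k ∈ L := mem_L_of_fix h hK fun a ha => by rw [hk a ha, mul_inv_cancel_right]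
  refine (h.κ_zero k hL).1 (cm_rad _ (h.κ_lt k hL) fun v hv => ?_)
  obtain ⟨a, ha, rfl⟩ := h.κ_surj v hv
  exact (h.comm_iff hL ha).1 (hk a ha)

theorem isPGroup_L : IsPGroup 2 L := fun a => ⟨2, Subtype.ext (by
  have := h.sq a a.2
  change (a : G) ^ 4 = 1
  rw [show (a : G) ^ 4 = (a * a) * (a * a) by simp only [pow_succ, pow_zero, one_mul, mul_assoc],
    this, h.ζ_sq (sqC_lt _)])⟩

/-- the centre of `L` -/
def Zs : Subgroup G where
  carrier := {x | ∃ c < 8, x = ζ c}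
  one_mem' := ⟨0, by norm_num, h.ζ_zero.symm⟩
  mul_mem' := by
    rintro _ _ ⟨c, hc, rfl⟩ ⟨d, hd, rfl⟩
    exact ⟨_, xor8 hc hd, (h.ζ_mul c hc d hd).symm⟩
  inv_mem' := by
    rintro _ ⟨c, hc, rfl⟩
    exact ⟨c, hc, h.ζ_inv hc⟩

theorem mem_Zs {x : G} : x ∈ Zs h ↔ ∃ c < 8, x = ζ c := Iff.rfl

theorem ζ_mem_Zs {c : ℕ} (hc : c < 8) : ζ c ∈ Zs h := ⟨c, hc, rfl⟩

theorem Zs_le : Zs h ≤ L := by
  rintro _ ⟨c, hc, rfl⟩
  exact h.ζ_mem c hc

end CL.J4P.X6
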