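import Cfsg.Agent.SPOR.J4P.PCx

/-!
If the centralisers of the involutions of `Z` lie in `K` then `Z` is strongly closed in `K`.
-/

set_option autoImplicit false
set_option maxRecDepth 100000
set_option linter.unusedSectionVars false
set_option linter.unusedVariables false

namespace CL.J4P.X6

open CL.K CL.CG CL.F2M CL.F24 CL.J4 CL.LX CL.MSS CL.J4P

attribute [local irreducible] gcode vcode

/-- a basis of the vectors that commute with `1 + 16 m` -/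
def KB (m : ℕ) : List ℕ :=
  [[1, 2, 4, 8, 16, 32, 64, 256, 512, 1024], [1, 2, 4, 16, 32, 64, 136, 256, 512, 1024],
    [1, 2, 8, 16, 32, 64, 132, 256, 512], [1, 2, 12, 16, 32, 64, 132, 256, 512],
    [1, 4, 8, 16, 32, 64, 130, 256, 1024], [1, 4, 10, 16, 32, 64, 130, 256, 1024],
    [1, 6, 8, 16, 32, 64, 130, 256, 1536], [1, 6, 10, 16, 32, 64, 130, 256, 1536]].getD m []

theorem KB_spec : ∀ m < 8, ∀ v ∈ KB m, v < 4096 ∧ cmC v (1 + 16 * m) = 0 := by decide +kernel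

theorem KB_a : ∀ m < 8, ∀ w < 4096, (∀ v ∈ KB m, cmC v w = 0) → w = 0 ∨ w = 1 + 16 * m := by
  have : allLt (fun m => allN (fun w => !lall (fun v => Nat.beq (cmC v w) 0) (KB m) ||
      Nat.beq w 0 || Nat.beq w (1 + 16 * m)) 4096) 8 = true := by decide +kernel
  intro m hm w hw h
  have := allN_spec (allLt_iff.1 this m hm) w hw
  rw [lall_iff.2 fun v hv => by rw [h v hv]; rfl] at this
  simpa using this

theorem KB_b : ∀ m < 8, ∀ i < 120,
    (∀ v ∈ KB m, v ^^^ ac (TN i) v = 0 ∨ v ^^^ ac (TN i) v = 1 + 16 * m) → TN i = c1 := by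
  have : allLt (fun m => allLt (fun i => force (TN i) fun A =>
      !lall (fun v => force (Nat.xor v (ac A v)) fun w => Nat.beq w 0 || Nat.beq w (1 + 16 * m)) (KB m) ||
      Nat.beq A c1) 120) 8 = true := by decide +kernel
  intro m hm i hi h
  have := allLt_iff.1 (allLt_iff.1 this m hm) i hi
  rw [force_eq, lall_iff.2 fun v hv => by
    rw [force_eq, xor_def]
    simpa using h v hv] at this
  simpa using this

theorem red_W : ∀ u < 4096, u ≠ 0 → sqC u = 0 →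
    ∃ j < 168, ac (TW j) u < 256 ∧ ac (TW j) u % 16 ≠ 0 := by
  have : allN (fun u => Nat.beq u 0 || !Nat.beq (sqC u) 0 || anyLt (fun j => force (ac (TW j) u) fun w =>
      blt w 256 && !Nat.beq (Nat.mod w 16) 0) 168) 4096 = true := by decide +kernel
  intro u hu h0 hs
  have := allN_spec this u hu
  rw [hs, Bool.or_eq_true, anyLt_iff] at this
  rcases this with e | ⟨j, hj, e⟩
  · exact absurd (by simpa using e) h0
  · rw [force_eq, Bool.and_eq_true] at e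
    exact ⟨j, hj, lt_of_blt e.1, ne_of_beq (Bool.not_eq_true' _ ▸ e.2)⟩

theorem red_N : ∀ u < 256, u % 16 ≠ 0 → ∃ i < 120, ac (TN i) u < 256 ∧ ac (TN i) u % 16 = 1 := by
  have : allLt (fun u => Nat.beq (Nat.mod u 16) 0 || anyLt (fun j => force (ac (TN j) u) fun w =>
      blt w 256 && Nat.beq (Nat.mod w 16) 1) 120) 256 = true := by decide +kernel
  intro u hu h0
  have := allLt_iff.1 this u hu
  rw [Bool.or_eq_true, anyLt_iff] at this
  rcases this with e | ⟨j, hj, e⟩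
  · exact absurd (eq_of_beq e) h0
  · rw [force_eq, Bool.and_eq_true] at e
    exact ⟨j, hj, lt_of_blt e.1, eq_of_beq e.2⟩

theorem sq_m : ∀ m < 16, sqC (1 + 16 * m) = 0 → m < 8 := by decide +kernel

/-- `S5` has no elementary abelian subgroup of order 8 -/
theorem no_eight : ∀ i < 120, ∀ j < 120, ∀ k < 120, mm (TN i) (TN i) = c1 → mm (TN j) (TN j) = c1 →
    mm (TN k) (TN k) = c1 → mm (TN i) (TN j) = mm (TN j) (TN i) →
    mm (TN i) (TN k) = mm (TN k) (TN i) → mm (TN j) (TN k) = mm (TN k) (TN j) →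
    TN i = c1 ∨ TN j = c1 ∨ TN j = TN i ∨ TN k = c1 ∨ TN k = TN i ∨ TN k = TN j ∨
      TN k = mm (TN i) (TN j) := by
  have : allLt (fun i => force (TN i) fun A => Nat.beq A c1 || !Nat.beq (mm A A) c1 ||
      allLt (fun j => force (TN j) fun B => Nat.beq B c1 || Nat.beq B A || !Nat.beq (mm B B) c1 ||
        !Nat.beq (mm A B) (mm B A) || allLt (fun k => force (TN k) fun C =>
          !Nat.beq (mm C C) c1 || !Nat.beq (mm A C) (mm C A) || !Nat.beq (mm B C) (mm C B) ||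
          Nat.beq C c1 || Nat.beq C A || Nat.beq C B || Nat.beq C (mm A B)) 120) 120) 120 = true := by
    decide +kernel
  intro i hi j hj k hk a b c d e f
  have h1 := allLt_iff.1 this i hi
  rw [force_eq, a, Nat.beq_refl, Bool.not_true, Bool.or_false, Bool.or_eq_true] at h1
  rcases h1 with h1 | h1
  · exact Or.inl (eq_of_beq h1)
  have h2 := allLt_iff.1 h1 j hj
  rw [force_eq, b, d, Nat.beq_refl, Nat.beq_refl, Bool.not_true, Bool.or_false, Bool.or_false,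
    Bool.or_eq_true, Bool.or_eq_true] at h2
  rcases h2 with (h2 | h2) | h2
  · exact Or.inr (Or.inl (eq_of_beq h2))
  · exact Or.inr (Or.inr (Or.inl (eq_of_beq h2)))
  have h3 := allLt_iff.1 h2 k hk
  rw [force_eq, c, e, f, ← d] at h3
  refine Or.inr (Or.inr (Or.inr ?_))
  simpa [or_assoc] using h3

theorem fix_ju : ∀ i < 120, mm (mm (TN i) ju) (mm (TN i) ju) = c1 → ∃ n < 16, ∃ n' < 16, n ≠ 0 ∧
    n' ≠ 0 ∧ n ≠ n' ∧ ac (mm (TN i) ju) (256 * n) = 256 * n ∧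
      ac (mm (TN i) ju) (256 * n') = 256 * n' := by
  have : allLt (fun i => force (mm (TN i) ju) fun A => !Nat.beq (mm A A) c1 ||
      anyLt (fun n => !Nat.beq n 0 && Nat.beq (ac A (256 * n)) (256 * n) && anyLt (fun n' =>
        !Nat.beq n' 0 && !Nat.beq n n' && Nat.beq (ac A (256 * n')) (256 * n')) 16) 16) 120 = true := by
    decide +kernel
  intro i hi e
  have h1 := allLt_iff.1 this i hi
  rw [force_eq, e, Nat.beq_refl, Bool.not_true, Bool.false_or, anyLt_iff] at h1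
  obtain ⟨n, hn, h2⟩ := h1
  rw [Bool.and_eq_true, Bool.and_eq_true, anyLt_iff] at h2
  obtain ⟨⟨a, b⟩, n', hn', h3⟩ := h2
  rw [Bool.and_eq_true, Bool.and_eq_true] at h3
  exact ⟨n, hn, n', hn', ne_of_beq (by simpa using a), ne_of_beq (by simpa using h3.1.1),
    ne_of_beq (by simpa using h3.1.2), eq_of_beq b, eq_of_beq h3.2⟩

theorem move_jt1 : ∀ i < 120, ∀ n < 16, ac (mm (TN i) jt1) (256 * n) = 256 * n → n = 0 := by
  have : allLt (fun i => force (mm (TN i) jt1) fun A => allLt (fun n =>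
      !Nat.beq (ac A (256 * n)) (256 * n) || Nat.beq n 0) 16) 120 = true := by decide +kernel
  intro i hi n hn e
  have h1 := allLt_iff.1 this i hi
  rw [force_eq] at h1
  have h2 := allLt_iff.1 h1 n hn
  rw [e] at h2
  simpa using h2

theorem two_trans : ∀ c < 8, ∀ d < 8, c ≠ 0 → d ≠ 0 → c ≠ d →
    ∃ j < 168, za (TW j) c = 2 ∧ za (TW j) d = 4 := by
  have : allLt (fun c => allLt (fun d => Nat.beq c 0 || Nat.beq d 0 || Nat.beq c d ||
      anyLt (fun j => force (TW j) fun A => Nat.beq (za A c) 2 && Nat.beq (za A d) 4) 168) 8) 8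
      = true := by decide +kernel
  intro c hc d hd h1 h2 h3
  have := allLt_iff.1 (allLt_iff.1 this c hc) d hd
  simp only [Bool.or_eq_true, Nat.beq_eq, h1, h2, h3, false_or, anyLt_iff, force_eq,
    Bool.and_eq_true] at this
  exact this

/-- a linear map on three bits -/
def lin (x y w c : ℕ) : ℕ :=
  Nat.xor (Nat.xor (Nat.mul (bit c 0) x) (Nat.mul (bit c 1) y)) (Nat.mul (bit c 2) w)

theorem fix_two : ∀ x < 8, ∀ y < 8, ∀ w < 8, (∀ c < 8, lin x y w (lin x y w c) = c) →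
    ∃ c < 8, ∃ d < 8, c ≠ 0 ∧ d ≠ 0 ∧ c ≠ d ∧ lin x y w c = c ∧ lin x y w d = d := by
  have : allLt (fun x => allLt (fun y => allLt (fun w =>
      !allLt (fun c => Nat.beq (lin x y w (lin x y w c)) c) 8 || anyLt (fun c => anyLt (fun d =>
        !Nat.beq c 0 && !Nat.beq d 0 && !Nat.beq c d && Nat.beq (lin x y w c) c &&
          Nat.beq (lin x y w d) d) 8) 8) 8) 8) 8 = true := by decide +kernel
  intro x hx y hy w hw h
  have h1 := allLt_iff.1 (allLt_iff.1 (allLt_iff.1 this x hx) y hy) w hw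
  rw [allLt_iff.2 fun c hc => by rw [h c hc]; exact Nat.beq_refl c, Bool.not_true, Bool.false_or,
    anyLt_iff] at h1
  obtain ⟨c, hc, h2⟩ := h1
  obtain ⟨d, hd, h3⟩ := anyLt_iff.1 h2
  simp only [Bool.and_eq_true, Bool.not_eq_true', Nat.beq_eq] at h3
  exact ⟨c, hc, d, hd, ne_of_beq h3.1.1.1.1, ne_of_beq h3.1.1.1.2, ne_of_beq h3.1.1.2, h3.1.2, h3.2⟩

theorem fix_ju_z : ∀ e < 8, za ju e = e → e = 0 ∨ e = 2 ∨ e = 4 ∨ e = 6 := by decide +kernel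

variable {G : Type*} [Group G] {K L : Subgroup G} {κ : G → ℕ} {ρ : K →* GL12} {ζ : ℕ → G}
  (h : PC K L κ ρ ζ)
include h

/-- an involution of `K` centralises a four-group of `Z` -/
theorem exists_fix {t : G} (ht : t ∈ K) (h2 : t * t = 1) :
    ∃ c < 8, ∃ d < 8, c ≠ 0 ∧ d ≠ 0 ∧ c ≠ d ∧ t * ζ c = ζ c * t ∧ t * ζ d = ζ d * t := by
  have hk : Kv ρ t _ := kv_of ht
  obtain ⟨c, hc, d, hd, a1, a2, a3, a4, a5⟩ := fix_two _ (cmC_lt _ _) _ (cmC_lt _ _) _ (cmC_lt _ _)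
    (fun c hc => show za _ (za _ c) = c by rw [← za_mm h hk hk hc, kv_sq hk h2, za_vals.1 c hc])
  exact ⟨c, hc, d, hd, a1, a2, a3, (h.kv_comm_ζ hk hc).2 a4, (h.kv_comm_ζ hk hd).2 a5⟩

theorem conj_mul (g : G) {c d : ℕ} (hc : c < 8) (hd : d < 8) :
    g * ζ c * g⁻¹ * (g * ζ d * g⁻¹) = g * ζ (c ^^^ d) * g⁻¹ := by
  rw [h.ζ_mul c hc d hd]; group

theorem conj_sq (g : G) {c : ℕ} (hc : c < 8) : g * ζ c * g⁻¹ * (g * ζ c * g⁻¹) = 1 := by
  rw [conj_mul h g hc hc, Nat.xor_self, h.ζ_zero]; group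

theorem conj_comm (g : G) {c d : ℕ} (hc : c < 8) (hd : d < 8) :
    g * ζ c * g⁻¹ * (g * ζ d * g⁻¹) = g * ζ d * g⁻¹ * (g * ζ c * g⁻¹) := by
  rw [conj_mul h g hc hd, conj_mul h g hd hc, Nat.xor_comm]

/-- an element of `g K g⁻¹` normalises `g Z g⁻¹` -/
theorem conj_conj {g x : G} (hx : g⁻¹ * x * g ∈ K) {c : ℕ} (hc : c < 8) :
    ∃ d < 8, x * (g * ζ c * g⁻¹) * x⁻¹ = g * ζ d * g⁻¹ := by
  obtain ⟨d, hd, e⟩ := (h.norm _).1 hx c hc
  exact ⟨d, hd, by rw [← e]; group⟩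

theorem comm_conj {g x : G} (hx : g⁻¹ * x * g ∈ K) {c : ℕ} (hc : c < 8) :
    ∃ d < 8, x * (g * ζ c * g⁻¹) * x⁻¹ * (g * ζ c * g⁻¹)⁻¹ = g * ζ d * g⁻¹ := by
  obtain ⟨d, hd, e⟩ := conj_conj h hx hc
  exact ⟨_, xor8 hd hc, by rw [e, inv_eq_of_mul_eq_one_right (conj_sq h g hc), conj_mul h g hd hc]⟩

variable (hC : ∀ g, g * ζ 4 = ζ 4 * g → g ∈ K)
include hC

theorem ti {g : G} {c d : ℕ} (hc : c < 8) (hd : d < 8) (h0 : c ≠ 0) (e : g * ζ c * g⁻¹ = ζ d) :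
    g ∈ K := by
  have d0 : d ≠ 0 := by
    rintro rfl
    rw [h.ζ_zero, mul_inv_eq_one, mul_eq_left] at e
    exact h.ζ_ne hc h0 e
  obtain ⟨k, hk, e1⟩ := h.exists_conj_ζ hc h0
  obtain ⟨l, hl, e2⟩ := h.exists_conj_ζ hd d0
  have := hC (l⁻¹ * g * k) (by
    rw [← e1, ← e2] at e
    calc l⁻¹ * g * k * ζ 4 = l⁻¹ * (g * (k * ζ 4 * k⁻¹) * g⁻¹) * g * k := by group
      _ = _ := by rw [e]; group)
  simpa [mul_assoc] using mul_mem (mul_mem hl this) (inv_mem hk)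

theorem cent_le {x : G} {c : ℕ} (hc : c < 8) (h0 : c ≠ 0) (e : x * ζ c = ζ c * x) : x ∈ K :=
  ti h hC hc hc h0 (by rw [e, mul_inv_cancel_right])

theorem cent_le' {g x : G} {c : ℕ} (hc : c < 8) (h0 : c ≠ 0)
    (e : x * (g * ζ c * g⁻¹) = g * ζ c * g⁻¹ * x) : g⁻¹ * x * g ∈ K :=
  cent_le h hC hc h0 (by
    calc g⁻¹ * x * g * ζ c = g⁻¹ * (x * (g * ζ c * g⁻¹)) * g := by group
      _ = _ := by rw [e]; group)

variable {g : G} (hg : g ∉ K)
include hg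

theorem eq_zero {c d : ℕ} (hc : c < 8) (hd : d < 8) (e : g * ζ c * g⁻¹ = ζ d) : c = 0 :=
  by_contra fun h0 => hg (ti h hC hc hd h0 e)

theorem comm_of {c d : ℕ} (hc : c < 8) (hd : d < 8) (h1 : g⁻¹ * ζ d * g ∈ K)
    (h2 : g * ζ c * g⁻¹ ∈ K) : g * ζ c * g⁻¹ * ζ d = ζ d * (g * ζ c * g⁻¹) := by
  obtain ⟨e, he, e1⟩ := comm_conj h h1 hc
  obtain ⟨f, hf, e2⟩ := (h.norm _).1 h2 d hd
  have e3 : g * ζ e * g⁻¹ = ζ (d ^^^ f) := by
    rw [← e1, h.ζ_mul d hd f hf, ← e2, h.ζ_inv hd]; group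
  rw [eq_zero h hC hg he (xor8 hd hf) e3, h.ζ_zero, mul_one, mul_inv_cancel, mul_inv_eq_one,
    mul_inv_eq_iff_eq_mul] at e1
  exact e1.symm

/-- if `Z` normalises `g Z g⁻¹` then the two groups commute -/
theorem comm_all (hZ : ∀ d < 8, g⁻¹ * ζ d * g ∈ K) {c : ℕ} (hc : c < 8) :
    ∀ d < 8, g * ζ c * g⁻¹ * ζ d = ζ d * (g * ζ c * g⁻¹) := by
  by_cases h0 : c = 0
  · intro d hd
    rw [h0, h.ζ_zero]; group
  refine fun d hd => comm_of h hC hg hc hd (hZ d hd) ?_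
  choose f hf using fun d : Fin 8 => conj_conj h (hZ d d.2) hc
  have f0 : ∀ d, f d ≠ 0 := fun d e => by
    have := (hf d).2
    rw [e, h.ζ_zero, mul_one, mul_inv_cancel, mul_inv_eq_one, mul_eq_left, mul_inv_eq_one,
      mul_eq_left] at this
    exact h.ζ_ne hc h0 this
  obtain ⟨a, b, hab, e⟩ := Fintype.exists_ne_map_eq_of_card_lt
    (fun d : Fin 8 => (⟨f d - 1, by have := (hf d).1; have := f0 d; omega⟩ : Fin 7)) (by simp)
  have e' : f a = f b := by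
    have := congrArg Fin.val e
    have := f0 a
    have := f0 b
    simp only at *
    omega
  have e2 := (hf a).2
  rw [e', ← (hf b).2, h.ζ_inv a.2, h.ζ_inv b.2] at e2
  refine cent_le h hC (xor8 b.2 a.2) (fun e => hab (Fin.ext (Nat.xor_eq_zero_iff.1 e)).symm) ?_
  rw [h.ζ_mul _ b.2 _ a.2]
  generalize g * ζ c * g⁻¹ = s at e2
  calc s * (ζ b * ζ a) = ζ b * (ζ b * s * ζ b) * ζ a := by
        rw [← mul_assoc, ← mul_assoc, ← mul_assoc, h.ζ_sq b.2, one_mul]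
    _ = ζ b * ζ a * s * (ζ a * ζ a) := by rw [← e2]; group
    _ = _ := by rw [h.ζ_sq a.2, mul_one]

theorem κ_ne {c : ℕ} (hc : c < 8) (h0 : c ≠ 0) (hL : g * ζ c * g⁻¹ ∈ L) : κ (g * ζ c * g⁻¹) ≠ 0 :=
  fun e => by
    obtain ⟨d, hd, e'⟩ := (h.κ_zero _ hL).1 e
    exact h0 (eq_zero h hC hg hc hd e')

theorem not_mem_L_aux {c m : ℕ} (hc : c < 8) (h0 : c ≠ 0) (hm : m < 8) (hL : g * ζ c * g⁻¹ ∈ L)
    (hκ : κ (g * ζ c * g⁻¹) = 1 + 16 * m) : False := by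
  have hZ : ∀ d < 8, g⁻¹ * ζ d * g ∈ K := fun d hd => cent_le' h hC hc h0 (h.ζ_comm hd hL)
  have lift : ∀ v ∈ KB m, ∃ a ∈ L, κ a = v ∧ g⁻¹ * a * g ∈ K := fun v hv => by
    obtain ⟨a, ha, e⟩ := h.κ_surj v (KB_spec m hm v hv).1
    exact ⟨a, ha, e, cent_le' h hC hc h0 ((h.comm_iff ha hL).2 (by
      rw [e, hκ]; exact (KB_spec m hm v hv).2))⟩
  have key : ∀ e < 8, g * ζ e * g⁻¹ ∈ L → e = 0 ∨ e = c := fun e he heL => by
    have := KB_a m hm _ (h.κ_lt _ heL) fun v hv => by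
      obtain ⟨a, ha, rfl, ha'⟩ := lift v hv
      obtain ⟨d, hd, e1⟩ := comm_conj h ha' he
      have e2 := h.commutator ha heL
      have e3 := eq_zero h hC hg hd (cmC_lt _ _) (e1.symm.trans e2)
      rw [e1, e3, h.ζ_zero, mul_one, mul_inv_cancel] at e2
      exact h.ζ_inj _ (cmC_lt _ _) e2.symm
    rcases this with e1 | e1
    · exact Or.inl (by_contra fun h1 => κ_ne h hC hg he h1 heL e1)
    · refine Or.inr (Nat.xor_eq_zero_iff.1 (by_contra fun h1 => κ_ne h hC hg (xor8 he hc) h1 ?_ ?_))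
      · rw [← conj_mul h g he hc]; exact mul_mem heL hL
      · rw [← conj_mul h g he hc, h.κ_mul _ heL _ hL, e1, hκ, Nat.xor_self]
  obtain ⟨e, he, e0, ec⟩ : ∃ e < 8, e ≠ 0 ∧ e ≠ c := by
    by_cases h1 : c = 1
    · exact ⟨2, by norm_num, by norm_num, by omega⟩
    · exact ⟨1, by norm_num, by norm_num, Ne.symm h1⟩
  obtain ⟨i, hi, hk⟩ := kv_TN h (comm_all h hC hg hZ he)
  have := KB_b m hm i hi fun v hv => by
    obtain ⟨a, ha, rfl, ha'⟩ := lift v hv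
    obtain ⟨d, hd, e1⟩ := comm_conj h ha' he
    rw [← κ_commutator h hk ha, e1]
    rcases key d hd (e1 ▸ commutator_mem h hk.1 ha) with rfl | rfl
    · left; rw [h.ζ_zero, mul_one, mul_inv_cancel, h.κ_one]
    · exact Or.inr hκ
  rcases key e he (h.mem_L (hk.cast this)) with e1 | e1
  exacts [e0 e1, ec e1]

theorem not_mem_L {c : ℕ} (hc : c < 8) (h0 : c ≠ 0) : g * ζ c * g⁻¹ ∉ L := fun hL => by
  have hs := (h.sq_iff hL).1 (conj_sq h g hc)
  obtain ⟨j, hj, a1, a2⟩ := red_W _ (h.κ_lt _ hL) (κ_ne h hC hg hc h0 hL) hs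
  obtain ⟨i, hi, a3, a4⟩ := red_N _ a1 a2
  obtain ⟨k, hk⟩ := h.exists_TN hi
  obtain ⟨l, hl⟩ := h.exists_TW hj
  have hkl := hk.mul hl
  have e : k * l * g * ζ c * (k * l * g)⁻¹ = k * l * (g * ζ c * g⁻¹) * (k * l)⁻¹ := by group
  have hL' : k * l * g * ζ c * (k * l * g)⁻¹ ∈ L := e ▸ h.conj_mem _ hkl.1 _ hL
  have hκ : κ (k * l * g * ζ c * (k * l * g)⁻¹) =
      1 + 16 * (ac (TN i) (ac (TW j) (κ (g * ζ c * g⁻¹))) / 16) := by
    rw [e, h.κ_kv hkl hL, ac_mm hk hl (h.κ_lt _ hL)]; omega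
  have hg' : k * l * g ∉ K := fun hh => hg ((mul_mem_cancel_left hkl.1).1 hh)
  exact not_mem_L_aux h hC hg' hc h0 (sq_m _ (by omega) (by
    rw [← hκ]; exact (h.sq_iff hL').1 (conj_sq h _ hc))) hL' hκ

/-- no involution of `g Z g⁻¹` centralises `Z` -/
theorem not_cent {c : ℕ} (hc : c < 8) (h0 : c ≠ 0)
    (e : ∀ d < 8, g * ζ c * g⁻¹ * ζ d = ζ d * (g * ζ c * g⁻¹)) : False := by
  have hZ : ∀ d < 8, g⁻¹ * ζ d * g ∈ K := fun d hd => cent_le' h hC hc h0 (e d hd).symm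
  obtain ⟨i, hi, a⟩ := kv_TN h (comm_all h hC hg hZ (c := 1) (by norm_num))
  obtain ⟨j, hj, b⟩ := kv_TN h (comm_all h hC hg hZ (c := 2) (by norm_num))
  obtain ⟨k, hk, c⟩ := kv_TN h (comm_all h hC hg hZ (c := 4) (by norm_num))
  have sa := kv_sq a (conj_sq h g (by norm_num))
  have sb := kv_sq b (conj_sq h g (by norm_num))
  have sc := kv_sq c (conj_sq h g (by norm_num))
  have ab := a.mul b
  have n : ∀ {x y : ℕ}, x < 8 → y < 8 → x ^^^ y ≠ 0 → ∀ {A : ℕ}, Kv ρ (g * ζ x * g⁻¹) A →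
      Kv ρ (g * ζ y * g⁻¹) A → False := fun hx hy hxy A p q => by
    have := h.mul_inv_mem p q
    rw [inv_eq_of_mul_eq_one_right (conj_sq h g hy), conj_mul h g hx hy] at this
    exact not_mem_L h hC hg (xor8 hx hy) hxy this
  rw [conj_mul h g (by norm_num) (by norm_num)] at ab
  rcases no_eight i hi j hj k hk sa sb sc (kv_comm a b (conj_comm h g (by norm_num) (by norm_num)))
    (kv_comm a c (conj_comm h g (by norm_num) (by norm_num)))
    (kv_comm b c (conj_comm h g (by norm_num) (by norm_num))) with e | e | e | e | e | e | e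
  · exact not_mem_L h hC hg (by norm_num) (by norm_num) (h.mem_L (a.cast e))
  · exact not_mem_L h hC hg (by norm_num) (by norm_num) (h.mem_L (b.cast e))
  · exact n (by norm_num) (by norm_num) (by decide) a (b.cast e)
  · exact not_mem_L h hC hg (by norm_num) (by norm_num) (h.mem_L (c.cast e))
  · exact n (by norm_num) (by norm_num) (by decide) a (c.cast e)
  · exact n (by norm_num) (by norm_num) (by decide) b (c.cast e)
  · exact n (by decide) (by norm_num) (by decide) ab (c.cast e)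

theorem axis_aux {c d i j : ℕ} (hc : c < 8) (h0 : c ≠ 0) (hd : d < 8) (hi : i < 120) (hj : j < 120)
    (p : Kv ρ (g * ζ c * g⁻¹) (mm (TN i) ju)) (q : Kv ρ (g * ζ d * g⁻¹) (mm (TN j) jt1)) :
    False := by
  have b2 := conj_sq h g hc
  have hz : ∀ c' < 8, g * ζ c * g⁻¹ * ζ c' * (g * ζ c * g⁻¹)⁻¹ = ζ (za ju c') := fun c' hc' => by
    rw [h.conj_ζ p hc', ← TW_vals.2.2.1, za_tab h hi (by norm_num) hc']
  have fin : ∀ a ∈ L, ∀ n < 16, κ a = 256 * n → a * (g * ζ c * g⁻¹) = g * ζ c * g⁻¹ * a → n = 0 :=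
    fun a ha n hn e1 e2 => by
      obtain ⟨e, he, e3⟩ := comm_conj h (cent_le' h hC hc h0 e2) hd
      have e4 : e = 0 := by_contra fun e0 =>
        not_mem_L h hC hg he e0 (e3 ▸ commutator_mem h q.1 ha)
      have e5 := κ_commutator h q ha
      rw [e3, e4, h.ζ_zero, mul_one, mul_inv_cancel, h.κ_one, e1] at e5
      exact move_jt1 j hj n hn (Nat.xor_eq_zero_iff.1 e5.symm).symm
  generalize g * ζ c * g⁻¹ = b at *
  have fin2 : ∀ a ∈ L, ∀ n < 16, κ a = 256 * n → ∀ e, e = 0 ∨ e = 2 → b * a * b⁻¹ = a * ζ e →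
      n = 0 := fun a ha n hn e1 e he e2 => by
    rcases he with rfl | rfl
    · rw [h.ζ_zero, mul_one, mul_inv_eq_iff_eq_mul] at e2
      exact fin a ha n hn e1 e2.symm
    · refine fin (a * ζ 1) (mul_mem ha (h.ζ_mem 1 (by norm_num))) n hn
        (by rw [h.κ_mul_ζ ha (by norm_num), e1]) (mul_inv_eq_iff_eq_mul.1 ?_).symm
      have : b * (a * ζ 1) * b⁻¹ = b * a * b⁻¹ * (b * ζ 1 * b⁻¹) := by group
      rw [this, e2, hz 1 (by norm_num), za_vals.2.1, mul_assoc, ← h.ζ_mul 2 (by norm_num) 3 (by norm_num)]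
      rfl
  have lift : ∀ n < 16, ac (mm (TN i) ju) (256 * n) = 256 * n → ∃ a ∈ L, κ a = 256 * n ∧
      ∃ e < 8, za ju e = e ∧ b * a * b⁻¹ = a * ζ e := fun n hn e => by
    obtain ⟨a, ha, e1⟩ := h.κ_surj (256 * n) (by omega)
    obtain ⟨e, he, e2⟩ := h.exists_ζ (h.conj_mem b p.1 a ha) ha (by rw [h.κ_kv p ha, e1, e])
    refine ⟨a, ha, e1, e, he, ?_, e2⟩
    have e3 : a = a * ζ e * ζ (za ju e) := by
      calc a = (b * b) * a * (b * b)⁻¹ := by rw [b2]; group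
        _ = b * (b * a * b⁻¹) * b⁻¹ := by group
        _ = (b * a * b⁻¹) * (b * ζ e * b⁻¹) := by nth_rewrite 1 [e2]; group
        _ = _ := by rw [e2, hz e he]
    rw [mul_assoc, left_eq_mul, ← h.ζ_mul _ he _ (za_lt _ _)] at e3
    exact (Nat.xor_eq_zero_iff.1 (h.ζ_inj _ (xor8 he (za_lt _ _)) e3)).symm
  obtain ⟨n, hn, n', hn', n0, n0', nn, f1, f2⟩ := fix_ju i hi (kv_sq p b2)
  obtain ⟨a, ha, κa, e, he, z1, c1⟩ := lift n hn f1
  obtain ⟨a', ha', κa', e', he', z2, c2⟩ := lift n' hn' f2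
  have t : (e = 0 ∨ e = 2) ∨ (e' = 0 ∨ e' = 2) ∨ (e ^^^ e' = 0 ∨ e ^^^ e' = 2) := by
    rcases fix_ju_z e he z1 with rfl | rfl | rfl | rfl <;>
      rcases fix_ju_z e' he' z2 with rfl | rfl | rfl | rfl <;> decide
  rcases t with t | t | t
  · exact n0 (fin2 a ha n hn κa e t c1)
  · exact n0' (fin2 a' ha' n' hn' κa' e' t c2)
  · have x1 : ∀ n < 16, ∀ n' < 16, 256 * n ^^^ 256 * n' = 256 * (n ^^^ n') := by decide +kernel
    refine nn (Nat.xor_eq_zero_iff.1 (fin2 (a * a') (mul_mem ha ha') _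
      (Nat.xor_lt_two_pow (n := 4) hn hn') (by rw [h.κ_mul _ ha _ ha', κa, κa', x1 n hn n' hn']) _ t ?_))
    calc b * (a * a') * b⁻¹ = b * a * b⁻¹ * (b * a' * b⁻¹) := by group
      _ = a * (ζ e * a') * ζ e' := by rw [c1, c2]; group
      _ = _ := by rw [h.ζ_comm he ha', h.ζ_mul e he e' he']; group

theorem axis {c d : ℕ} (hc : c < 8) (hd : d < 8) (c0 : c ≠ 0) (d0 : d ≠ 0) (cd : c ≠ d)
    (p : ∀ e, e = 2 ∨ e = 4 → g * ζ c * g⁻¹ * ζ e = ζ e * (g * ζ c * g⁻¹))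
    (q : ∀ e, e = 2 ∨ e = 4 → g * ζ d * g⁻¹ * ζ e = ζ e * (g * ζ d * g⁻¹)) : False := by
  have r : ∀ e, e = 2 ∨ e = 4 → g * ζ (c ^^^ d) * g⁻¹ * ζ e = ζ e * (g * ζ (c ^^^ d) * g⁻¹) :=
    fun e he => by rw [← conj_mul h g hc hd, mul_assoc _ _ (ζ e), q e he, ← mul_assoc _ (ζ e), p e he,
      mul_assoc (ζ e)]
  have key : ∀ {x : ℕ}, x < 8 → x ≠ 0 →
      (∀ e, e = 2 ∨ e = 4 → g * ζ x * g⁻¹ * ζ e = ζ e * (g * ζ x * g⁻¹)) →
      ∃ y, g * ζ x * g⁻¹ * ζ 1 * (g * ζ x * g⁻¹)⁻¹ = ζ y ∧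
        ((y = 3 ∧ ∃ i < 120, Kv ρ (g * ζ x * g⁻¹) (mm (TN i) ju)) ∨
        (y = 5 ∧ ∃ i < 120, Kv ρ (g * ζ x * g⁻¹) (mm (TN i) jt1)) ∨ y = 7) := fun hx x0 hp => by
    obtain ⟨i, hi, B, hB, a, b⟩ := kv_axis h (cent_le h hC (by norm_num) (by norm_num) (hp 2 (Or.inl rfl)))
      (hp 2 (Or.inl rfl)) (hp 4 (Or.inr rfl))
    refine ⟨_, b 1 (by norm_num), ?_⟩
    rcases hB with rfl | rfl | rfl | rfl
    · exact (not_cent h hC hg hx x0 fun e he => mul_inv_eq_iff_eq_mul.1 (by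
        rw [b e he, za_vals.1 e he])).elim
    · exact Or.inl ⟨za_vals.2.1, i, hi, a⟩
    · exact Or.inr (Or.inl ⟨za_vals.2.2.1, i, hi, a⟩)
    · exact Or.inr (Or.inr za_vals.2.2.2)
  have cd0 : c ^^^ d ≠ 0 := fun e => cd (Nat.xor_eq_zero_iff.1 e)
  obtain ⟨y1, a1, b1⟩ := key hc c0 p
  obtain ⟨y2, a2, b2⟩ := key hd d0 q
  obtain ⟨y3, a3, b3⟩ := key (xor8 hc hd) cd0 r
  have l1 : y1 = 3 ∨ y1 = 5 ∨ y1 = 7 := by tauto
  have l2 : y2 = 3 ∨ y2 = 5 ∨ y2 = 7 := by tauto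
  have l3 : y3 = 3 ∨ y3 = 5 ∨ y3 = 7 := by tauto
  have rel : y3 = y1 ^^^ (1 ^^^ y2) := by
    have p6 : g * ζ c * g⁻¹ * ζ (1 ^^^ y2) = ζ (1 ^^^ y2) * (g * ζ c * g⁻¹) := by
      rcases l2 with rfl | rfl | rfl
      · exact p 2 (Or.inl rfl)
      · exact p 4 (Or.inr rfl)
      · rw [show 1 ^^^ 7 = 2 ^^^ 4 from rfl, h.ζ_mul 2 (by norm_num) 4 (by norm_num), ← mul_assoc,
          p 2 (Or.inl rfl), mul_assoc, p 4 (Or.inr rfl), mul_assoc (ζ 2)]
    have h1 : y1 < 8 := by omega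
    have h2 : y2 < 8 := by omega
    have h12 : 1 ^^^ y2 < 8 := xor8 (by norm_num) h2
    refine h.ζ_eq (by omega) (xor8 h1 h12) ?_
    rw [← a3, ← conj_mul h g hc hd, h.ζ_mul _ h1 _ h12, ← a1]
    have e2 : ζ y2 = ζ 1 * ζ (1 ^^^ y2) := by
      rw [← h.ζ_mul _ (by norm_num) _ h12, ← Nat.xor_assoc, Nat.xor_self, Nat.zero_xor]
    generalize g * ζ c * g⁻¹ = s at *
    generalize g * ζ d * g⁻¹ = t at *
    calc s * t * ζ 1 * (s * t)⁻¹ = s * (t * ζ 1 * t⁻¹) * s⁻¹ := by group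
      _ = s * ζ 1 * s⁻¹ * (s * ζ (1 ^^^ y2)) * s⁻¹ := by rw [a2, e2]; group
      _ = _ := by rw [p6]; group
  rcases b1 with ⟨rfl, i, hi, b1⟩ | ⟨rfl, i, hi, b1⟩ | rfl <;>
    rcases b2 with ⟨rfl, j, hj, b2⟩ | ⟨rfl, j, hj, b2⟩ | rfl <;>
      rcases b3 with ⟨rfl, k, hk, b3⟩ | ⟨rfl, k, hk, b3⟩ | rfl <;>
        first
        | exact absurd rel (by decide)
        | exact axis_aux h hC hg hc c0 hd hi hj b1 b2
        | exact axis_aux h hC hg hd d0 hc hj hi b2 b1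
        | exact axis_aux h hC hg hc c0 (xor8 hc hd) hi hk b1 b3
        | exact axis_aux h hC hg (xor8 hc hd) cd0 hc hk hi b3 b1
        | exact axis_aux h hC hg hd d0 (xor8 hc hd) hj hk b2 b3
        | exact axis_aux h hC hg (xor8 hc hd) cd0 hd hk hj b3 b2

/-- strong closure -/
theorem not_mem_K {c : ℕ} (hc : c < 8) (h0 : c ≠ 0) : g * ζ c * g⁻¹ ∉ K := fun ht => by
  obtain ⟨d, hd, d', hd', d0, d0', dd, e1, e2⟩ := exists_fix h ht (conj_sq h g hc)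
  have k1 := cent_le' h hC hc h0 e1.symm
  have k2 := cent_le' h hC hc h0 e2.symm
  obtain ⟨x, hx, y, hy, x0, y0, xy, f1, f2⟩ := exists_fix h k1 (by
    simpa only [inv_inv] using conj_sq h g⁻¹ hd)
  have m : ∀ {x : ℕ}, g⁻¹ * ζ d * g * ζ x = ζ x * (g⁻¹ * ζ d * g) → g * ζ x * g⁻¹ ∈ K :=
    fun {x} f => cent_le h hC hd d0 (by
      calc _ = g * (ζ x * (g⁻¹ * ζ d * g)) * g⁻¹ := by group
        _ = _ := by rw [← f]; group)
  obtain ⟨j, hj, t1, t2⟩ := two_trans d hd d' hd' d0 d0' dd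
  obtain ⟨k, hk⟩ := h.exists_TW hj
  have hg' : k * g ∉ K := fun hh => hg ((mul_mem_cancel_left hk.1).1 hh)
  have n : ∀ {x : ℕ}, x < 8 → g * ζ x * g⁻¹ ∈ K → ∀ e, e = 2 ∨ e = 4 →
      k * g * ζ x * (k * g)⁻¹ * ζ e = ζ e * (k * g * ζ x * (k * g)⁻¹) := fun {x} hx hK e he => by
    have : ∀ {d : ℕ}, d < 8 → g⁻¹ * ζ d * g ∈ K → k * g * ζ x * (k * g)⁻¹ * ζ (za (TW j) d) =
        ζ (za (TW j) d) * (k * g * ζ x * (k * g)⁻¹) := fun {d} hd k1 => by
      rw [← h.conj_ζ hk hd]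
      calc _ = k * (g * ζ x * g⁻¹ * ζ d) * k⁻¹ := by group
        _ = _ := by rw [comm_of h hC hg hx hd k1 hK]; group
    rcases he with rfl | rfl
    · simpa only [t1] using this hd k1
    · simpa only [t2] using this hd' k2
  exact axis h hC hg' hx hy x0 y0 xy (n hx (m f1)) (n hy (m f2))

end CL.J4P.X6
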